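import Cfsg.Agent.Helper11.ChevPermOp
import Cfsg.Agent.S1060

set_option autoImplicit false

/-!
`B₂(2) ≅ S₆`: the group permutes six covectors of the adjoint module, and this permutation action
is an isomorphism onto the symmetric group of degree six.
-/

namespace Cfsg.Agent.Helper11

open Cfsg.Lie Matrix

section Cov
variable {F : Type*} [Field F]

theorem idxNat_lt (D : ChevalleyDatum) (c : D.Idx) : idxNat D c < D.rank + D.nroots := by
  rcases c with i | s
  · have := i.2; show i.val < _; omega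
  · have := s.2; show D.rank + s.val < _; omega

theorem exists_idxNat (D : ChevalleyDatum) (v : ℕ) (hv : v < D.rank + D.nroots) :
    ∃ c : D.Idx, idxNat D c = v := by
  by_cases h : v < D.rank
  · exact ⟨Sum.inl ⟨v, h⟩, rfl⟩
  · exact ⟨Sum.inr ⟨v - D.rank, by omega⟩, by show D.rank + (v - D.rank) = v; omega⟩

/-- The covector with the given integer coordinates. -/
def covF (D : ChevalleyDatum) (F : Type*) [Field F] (f : ℕ → ℤ) : D.Idx → F :=
  fun a => ((f (idxNat D a) : ℤ) : F)

/-- Integer dot product of a coordinate function with a symbolic vector (at `t = u = 1`). -/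
noncomputable def dotZ (f : ℕ → ℤ) (v : Vec) : ℤ :=
  @List.rec Term (fun _ => ℤ) 0 (fun x _ ih => Int.add (Int.mul (f x.1) x.2.1) ih) v

theorem covF_dot_basis (D : ChevalleyDatum) (f : ℕ → ℤ)
    (hf : ∀ k, D.rank + D.nroots ≤ k → f k = 0) (k : ℕ) :
    covF D F f ⬝ᵥ basisVec D F k = ((f k : ℤ) : F) := by
  by_cases h : k < D.rank + D.nroots
  · obtain ⟨c, rfl⟩ := exists_idxNat D k h
    rw [basisVec_idxNat, dotProduct_single_one]
    rfl
  · rw [basisVec_of_ge D k (by omega), dotProduct_zero, hf k (by omega), Int.cast_zero]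

theorem covF_dot_evalVec (D : ChevalleyDatum) (f : ℕ → ℤ)
    (hf : ∀ k, D.rank + D.nroots ≤ k → f k = 0) (v : Vec) :
    covF D F f ⬝ᵥ evalVec D (1 : F) 1 v = ((dotZ f v : ℤ) : F) := by
  induction v with
  | nil => rw [evalVec_nil, dotProduct_zero]; exact Int.cast_zero.symm
  | cons x v ih =>
    have e : dotZ f (x :: v) = f x.1 * x.2.1 + dotZ f v := rfl
    rw [evalVec_cons, dotProduct_add, dotProduct_smul, covF_dot_basis D f hf, ih, e, Int.cast_add,
      Int.cast_mul, smul_eq_mul]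
    simp only [evalMono, one_pow, mul_one]
    ring

theorem vecMul_x_entry {D : ChevalleyDatum} (hT : tabOK D = true) (o : D.Idx → F) (r : ℕ)
    (c : D.Idx) :
    (o ᵥ* D.x F r 1) c =
      o ⬝ᵥ evalVec D (1 : F) 1 (applyXF D r [(1, 0, 0)] [(idxNat D c, (1, 0, 0))]) := by
  have e1 : (1 : F) = evalPoly (1 : F) (1 : F) [(1, 0, 0)] := by simp [evalPoly, evalMono]
  have e : ([(idxNat D c, ((1 : ℤ), 0, 0))] : Vec) = unitVec (idxNat D c) := rfl
  rw [applyXF_eq hT, e, ← applyX_sound, evalVec_unitVec, ← e1, basisVec_idxNat,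
    Matrix.mulVec_single_one]
  rfl

theorem cast_eq_of_even (h2 : (2 : F) = 0) (a b : ℤ) (h : Int.emod (Int.sub a b) 2 = 0) :
    ((a : ℤ) : F) = ((b : ℤ) : F) := by
  have h' : (a - b) % 2 = 0 := h
  obtain ⟨k, hk⟩ := Int.dvd_of_emod_eq_zero h'
  have e : a = b + 2 * k := by omega
  rw [e, Int.cast_add, Int.cast_mul, Int.cast_ofNat, h2, zero_mul, add_zero]

end Cov

/-! ### The six covectors of `B₂(2)` -/

def b2Tab : List (List ℤ) :=
  [[0,1,0,0,0,1,1,0,0,0],[0,1,0,0,0,1,1,0,0,1],[0,1,1,0,0,0,0,0,0,1],[0,1,1,0,0,0,1,0,0,1],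
   [0,1,1,0,0,1,0,0,0,1],[0,1,1,0,0,1,1,0,0,0]]

/-- The coordinates of the six covectors. -/
noncomputable def b2ov (i k : ℕ) : ℤ :=
  cond (Nat.blt k (Nat.add chevB2.rank chevB2.nroots)) ((b2Tab.getD i []).getD k 0) 0

def b2PermTab : List (List ℕ) :=
  [[1,0,2,3,4,5],[1,0,3,2,5,4],[1,0,4,5,2,3],[0,1,3,2,4,5],[0,1,4,3,2,5],[5,4,3,2,1,0],
   [5,3,4,1,2,0],[5,1,2,3,4,0]]

/-- The permutation of the six covectors induced by `x_r(1)`. -/
def b2pi (r i : ℕ) : ℕ := (b2PermTab.getD r []).getD i 0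

noncomputable def b2ActOK : Bool :=
  allN chevB2.nroots (fun r => allN 6 (fun i => Nat.blt (b2pi r i) 6 &&
    allN (Nat.add chevB2.rank chevB2.nroots) (fun c => isZ (Int.emod (Int.sub
      (dotZ (b2ov i) (applyXF chevB2 r [(1, 0, 0)] [(c, (1, 0, 0))])) (b2ov (b2pi r i) c)) 2))))

set_option maxRecDepth 100000 in
set_option maxHeartbeats 0 in
theorem b2ActOK_true : b2ActOK = true := by decide +kernel

noncomputable def b2InjOK : Bool :=
  allN 6 (fun i => allN 6 (fun j => Nat.beq i j ||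
    anyN (Nat.add chevB2.rank chevB2.nroots) (fun c => isZ (Int.sub (Int.mul
      (Int.sub (b2ov i c) (b2ov j c)) (Int.sub (b2ov i c) (b2ov j c))) 1))))

set_option maxRecDepth 100000 in
set_option maxHeartbeats 0 in
theorem b2InjOK_true : b2InjOK = true := by decide +kernel

theorem b2ov_ge (i k : ℕ) (h : chevB2.rank + chevB2.nroots ≤ k) : b2ov i k = 0 := by
  unfold b2ov
  rw [blt_false_of_not (by show ¬ k < chevB2.rank + chevB2.nroots; omega)]
  rfl

/-- The six covectors over `F`. -/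
noncomputable def b2cov (F : Type*) [Field F] (i : ℕ) : chevB2.Idx → F :=
  covF chevB2 F (b2ov i)

section B2
variable {F : Type*} [Field F]

theorem b2_act (hT : tabOK chevB2 = true) (h2 : (2 : F) = 0) (r i : ℕ) (hr : r < chevB2.nroots)
    (hi : i < 6) :
    b2pi r i < 6 ∧ b2cov F i ᵥ* chevB2.x F r 1 = b2cov F (b2pi r i) := by
  have h := (allN_spec _ _).mp ((allN_spec _ _).mp b2ActOK_true r hr) i hi
  simp only [Bool.and_eq_true] at h
  refine ⟨(blt_iff _ _).mp h.1, ?_⟩
  funext c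
  have hc := (allN_spec _ _).mp h.2 (idxNat chevB2 c) (idxNat_lt chevB2 c)
  rw [vecMul_x_entry hT]
  unfold b2cov
  rw [covF_dot_evalVec chevB2 _ (b2ov_ge i)]
  exact cast_eq_of_even h2 _ _ (isZ_eq _ hc)

theorem b2_inj (h10 : (1 : F) ≠ 0) (i j : ℕ) (hi : i < 6) (hj : j < 6)
    (h : b2cov F i = b2cov F j) : i = j := by
  have h1 := (allN_spec _ _).mp ((allN_spec _ _).mp b2InjOK_true i hi) j hj
  simp only [Bool.or_eq_true] at h1
  rcases h1 with h1 | h1
  · exact (beq_iff _ _).mp h1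
  · exfalso
    obtain ⟨c, hc, h3⟩ := (anyN_spec _ _).mp h1
    obtain ⟨c', rfl⟩ := exists_idxNat chevB2 c hc
    have h5 : ((b2ov i (idxNat chevB2 c') : ℤ) : F) = ((b2ov j (idxNat chevB2 c') : ℤ) : F) :=
      congrFun h c'
    have h6 : (b2ov i (idxNat chevB2 c') - b2ov j (idxNat chevB2 c')) *
        (b2ov i (idxNat chevB2 c') - b2ov j (idxNat chevB2 c')) - 1 = 0 := isZ_eq _ h3
    have h7 := congrArg (Int.cast : ℤ → F) h6
    rw [Int.cast_sub, Int.cast_mul, Int.cast_sub, h5, sub_self, zero_mul, zero_sub, Int.cast_one,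
      Int.cast_zero, neg_eq_zero] at h7
    exact h10 h7

end B2

/-- The permutations induced by the root elements `x_r(1)`. -/
def b2perm : ℕ → Equiv.Perm (Fin 6)
  | 0 => Equiv.swap 0 1
  | 1 => Equiv.swap 0 1 * Equiv.swap 2 3 * Equiv.swap 4 5
  | 2 => Equiv.swap 0 1 * Equiv.swap 2 4 * Equiv.swap 3 5
  | 3 => Equiv.swap 2 3
  | 4 => Equiv.swap 2 4
  | 5 => Equiv.swap 0 5 * Equiv.swap 1 4 * Equiv.swap 2 3
  | 6 => Equiv.swap 0 5 * Equiv.swap 1 3 * Equiv.swap 2 4
  | 7 => Equiv.swap 0 5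
  | _ => 1

theorem b2perm_spec : ∀ r : Fin 8, ∀ i : Fin 6, (b2perm r.val i).val = b2pi r.val i.val := by
  decide +kernel

/-- The adjacent transpositions as words in the permutations `b2perm`. -/
def b2w : ℕ → List ℕ
  | 0 => [0]
  | 1 => [3, 2, 7, 2, 3]
  | 2 => [3]
  | 3 => [3, 4, 3]
  | _ => [0, 1, 3]

theorem b2w_spec : ∀ k : Fin 5, ∀ i : Fin 6,
    Equiv.swap k.castSucc k.succ i = ((b2w k.val).map b2perm).prod i := by
  decide +kernel

theorem b2_two_equiv_s6 {F : Type*} [Field F] [Fintype F] (hF : Fintype.card F = 2) :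
    Nonempty (↥(chevB2.group F) ≃* Equiv.Perm (Fin 6)) := by
  classical
  have hD : Seven chevB2 := by simp
  have hT := tabOK_seven chevB2 hD
  have ht : ∀ t : F, t = 0 ∨ t = 1 := by
    intro t
    by_contra h
    rw [not_or] at h
    have h3 : ({0, 1, t} : Finset F).card = 3 := by
      rw [Finset.card_insert_of_notMem, Finset.card_insert_of_notMem, Finset.card_singleton]
      · simpa using (Ne.symm h.2)
      · simp only [Finset.mem_insert, Finset.mem_singleton, not_or]
        exact ⟨zero_ne_one, Ne.symm h.1⟩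
    have h4 := Finset.card_le_univ ({0, 1, t} : Finset F)
    rw [h3, hF] at h4
    omega
  have h11 : (1 : F) + 1 = 0 := by
    rcases ht (1 + 1) with h | h
    · exact h
    · have h' : (1 : F) + 1 = 0 + 1 := by rw [zero_add]; exact h
      exact absurd (add_right_cancel h') one_ne_zero
  have h2 : (2 : F) = 0 := by rw [← one_add_one_eq_two]; exact h11
  have hneg : ∀ t : F, -t = t := by
    intro t
    rw [neg_eq_iff_add_eq_zero, ← two_mul, h2, zero_mul]
  -- every element of the group permutes the six covectors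
  have key : ∀ g ∈ chevB2.group F,
      (∀ i < 6, ∃ j < 6, b2cov F i ᵥ* (g : Matrix chevB2.Idx chevB2.Idx F) = b2cov F j) ∧
      (∀ i < 6, ∃ j < 6, b2cov F i ᵥ*
        ((g⁻¹ : GL chevB2.Idx F) : Matrix chevB2.Idx chevB2.Idx F) = b2cov F j) := by
    intro g hg
    unfold ChevalleyDatum.group at hg
    induction hg using Subgroup.closure_induction with
    | mem x hx =>
      obtain ⟨r, t, hx⟩ := hx
      have hx' : x = xG hD r.val t :=
        Units.ext (by rw [hx, xG_val]; unfold ChevalleyDatum.x; rw [dif_pos r.2])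
      have hgen : ∀ i < 6, ∃ j < 6, b2cov F i ᵥ*
          ((xG hD r.val t : GL chevB2.Idx F) : Matrix chevB2.Idx chevB2.Idx F) = b2cov F j := by
        intro i hi
        rcases ht t with h0 | h1
        · exact ⟨i, hi, by rw [h0, xG_zero, Units.val_one, Matrix.vecMul_one]⟩
        · exact ⟨b2pi r.val i, (b2_act hT h2 r.val i r.2 hi).1, by
            rw [h1, xG_val]; exact (b2_act hT h2 r.val i r.2 hi).2⟩
      rw [hx']
      refine ⟨hgen, ?_⟩
      rw [xG_inv, hneg]
      exact hgen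
    | one =>
      exact ⟨fun i hi => ⟨i, hi, by rw [Units.val_one, Matrix.vecMul_one]⟩,
        fun i hi => ⟨i, hi, by rw [inv_one, Units.val_one, Matrix.vecMul_one]⟩⟩
    | mul x y _ _ ihx ihy =>
      constructor
      · intro i hi
        obtain ⟨j, hj, e1⟩ := ihx.1 i hi
        obtain ⟨k, hk, e2⟩ := ihy.1 j hj
        exact ⟨k, hk, by rw [Units.val_mul, ← Matrix.vecMul_vecMul, e1, e2]⟩
      · intro i hi
        obtain ⟨j, hj, e1⟩ := ihy.2 i hi
        obtain ⟨k, hk, e2⟩ := ihx.2 j hj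
        exact ⟨k, hk, by rw [_root_.mul_inv_rev, Units.val_mul, ← Matrix.vecMul_vecMul, e1, e2]⟩
    | inv x _ ih =>
      exact ⟨ih.2, by rw [inv_inv]; exact ih.1⟩
  have key2 : ∀ (g : ↥(chevB2.group F)) (i : Fin 6), ∃ j : Fin 6,
      b2cov F i.val ᵥ* (((g : GL chevB2.Idx F)⁻¹ : GL chevB2.Idx F) :
        Matrix chevB2.Idx chevB2.Idx F) = b2cov F j.val := by
    intro g i
    obtain ⟨j, hj, e⟩ := (key g.1 g.2).2 i.val i.2
    exact ⟨⟨j, hj⟩, e⟩
  choose f hf using key2
  have hinj : ∀ i j : Fin 6, b2cov F i.val = b2cov F j.val → i = j :=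
    fun i j h => Fin.ext (b2_inj one_ne_zero i.val j.val i.2 j.2 h)
  have f_one : ∀ i, f 1 i = i := by
    intro i
    apply hinj
    rw [← hf 1 i]
    simp only [OneMemClass.coe_one, inv_one, Units.val_one, Matrix.vecMul_one]
  have f_mul : ∀ g h i, f (g * h) i = f g (f h i) := by
    intro g h i
    apply hinj
    rw [← hf (g * h) i, ← hf g (f h i), ← hf h i, Matrix.vecMul_vecMul, ← Units.val_mul,
      ← _root_.mul_inv_rev]
    rfl
  let σ : ↥(chevB2.group F) →* Equiv.Perm (Fin 6) :=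
    { toFun := fun g => ⟨f g, f g⁻¹, fun i => by rw [← f_mul, inv_mul_cancel, f_one],
        fun i => by rw [← f_mul, mul_inv_cancel, f_one]⟩
      map_one' := Equiv.ext f_one
      map_mul' := fun g h => Equiv.ext (f_mul g h) }
  have hσ : ∀ r < 8, ∃ g : ↥(chevB2.group F), σ g = b2perm r := by
    intro r hr
    refine ⟨⟨xG hD r 1, xG_mem_group hD r 1⟩, ?_⟩
    apply Equiv.ext
    intro i
    apply hinj
    show b2cov F (f ⟨xG hD r 1, xG_mem_group hD r 1⟩ i).val = _
    rw [← hf]
    show b2cov F i.val ᵥ* (((xG hD r (1 : F))⁻¹ : GL chevB2.Idx F) :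
      Matrix chevB2.Idx chevB2.Idx F) = _
    rw [xG_inv, hneg, xG_val, (b2_act hT h2 r i.val hr i.2).2]
    exact congrArg (b2cov F) (b2perm_spec ⟨r, hr⟩ i).symm
  have hmem : ∀ r, b2perm r ∈ σ.range := by
    intro r
    by_cases hr : r < 8
    · obtain ⟨g, hg⟩ := hσ r hr
      exact ⟨g, hg⟩
    · obtain ⟨n, rfl⟩ : ∃ n, r = n + 8 := ⟨r - 8, by omega⟩
      have e : b2perm (n + 8) = 1 := rfl
      rw [e]; exact one_mem _
  have hsurj : Function.Surjective σ := by
    intro p
    have hp : p ∈ Submonoid.closure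
        (Set.range fun i : Fin 5 ↦ Equiv.swap i.castSucc i.succ) := by
      rw [Equiv.Perm.mclosure_swap_castSucc_succ 5]; exact Submonoid.mem_top p
    have hle : Submonoid.closure (Set.range fun i : Fin 5 ↦ Equiv.swap i.castSucc i.succ) ≤
        σ.range.toSubmonoid := by
      rw [Submonoid.closure_le]
      rintro _ ⟨k, rfl⟩
      have e : Equiv.swap k.castSucc k.succ = ((b2w k.val).map b2perm).prod :=
        Equiv.ext (b2w_spec k)
      show Equiv.swap k.castSucc k.succ ∈ σ.range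
      rw [e]
      apply Subgroup.list_prod_mem
      intro x hx
      obtain ⟨r, _, rfl⟩ := List.mem_map.mp hx
      exact hmem r
    exact MonoidHom.mem_range.mp (hle hp)
  have hcard : Nat.card ↥(chevB2.group F) = 720 := by
    have h := Cfsg.Agent.S1060.result (F := F) (q := 2) hF
    have h1 : Nat.gcd 2 (2 - 1) = 1 := by norm_num
    rw [h1, one_mul] at h
    rw [h]
    norm_num
  have hfin : Finite ↥(chevB2.group F) :=
    Nat.finite_of_card_ne_zero (by rw [hcard]; norm_num)
  have hperm : Nat.card (Equiv.Perm (Fin 6)) = 720 := by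
    rw [Nat.card_perm, Nat.card_eq_fintype_card, Fintype.card_fin]
    rfl
  have hbij : Function.Bijective σ :=
    hsurj.bijective_of_nat_card_le (by rw [hcard, hperm])
  exact ⟨MulEquiv.ofBijective σ hbij⟩

end Cfsg.Agent.Helper11
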