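import Cfsg.Agent.Helper11.ChevCanon

set_option autoImplicit false

/-!
Elements of `H` conjugate in the Chevalley group are conjugate under `N` (from the uniqueness of the
canonical form).
-/

namespace Cfsg.Agent.Helper11

open Cfsg.Lie

section ConjH
variable {F : Type*} [Field F] {D : ChevalleyDatum}

theorem H_comm (hD : Seven D) {h h' : GL D.Idx F} (hh : h ∈ D.diagonalSubgroup F)
    (hh' : h' ∈ D.diagonalSubgroup F) : h * h' = h' * h := by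
  obtain ⟨c, _, hv⟩ := H_form hD h hh
  obtain ⟨c', _, hv'⟩ := H_form hD h' hh'
  apply Units.ext
  rw [Units.val_mul, Units.val_mul, hv, hv', Matrix.diagonal_mul_diagonal,
    Matrix.diagonal_mul_diagonal]
  congr 1
  funext j
  exact mul_comm _ _

theorem H_conj_by_N (hD : Seven D) (h₁ h₂ g : GL D.Idx F) (h1 : h₁ ∈ D.diagonalSubgroup F)
    (h2 : h₂ ∈ D.diagonalSubgroup F) (hg : g ∈ D.group F) (hc : g * h₁ * g⁻¹ = h₂) :
    ∃ n ∈ D.monomialSubgroup F, n * h₁ * n⁻¹ = h₂ := by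
  obtain ⟨b, hb, n, hn, u, hu, rfl⟩ := canon_exists hD g hg
  refine ⟨n, hn, ?_⟩
  have hh₃ : n * h₁ * n⁻¹ ∈ D.diagonalSubgroup F := N_conj_H hD hn h1
  have hu₁ : h₁⁻¹ * u * h₁ ∈ Subgroup.closure {x : GL D.Idx F | ∃ (r : ℕ) (t : F),
      D.IsPosRoot r ∧ (D.rootSubgroup F r).map (MulAut.conj n).toMonoidHom ≤ D.negUnipotent F ∧
      (x : Matrix D.Idx D.Idx F) = D.x F r t} := by
    refine conj_closure_le' _ _ h₁ ?_ u hu
    rintro x ⟨r, t, hpos, hmap, hx⟩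
    rw [eq_xG hD x r t hx]
    obtain ⟨_, c, _, hconj⟩ := NConj.of_H hD (inv_mem h1) r hpos.1
    have h3 := hconj t
    rw [inv_inv] at h3
    rw [h3]
    exact Subgroup.subset_closure ⟨r, c * t, hpos, hmap, rfl⟩
  have e : (b * (n * h₁ * n⁻¹)) * n * (h₁⁻¹ * u * h₁) = (h₂ * b) * n * u := by
    have e1 : (b * (n * h₁ * n⁻¹)) * n * (h₁⁻¹ * u * h₁) = (b * n * u) * h₁ := by group
    have e2 : (h₂ * b) * n * u = h₂ * (b * n * u) := by group
    rw [e1, e2, ← hc]; group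
  have hbB₁ : b * (n * h₁ * n⁻¹) ∈ D.borelSubgroup F := mul_mem hb (Subgroup.mem_sup_right hh₃)
  have hbB₂ : h₂ * b ∈ D.borelSubgroup F := mul_mem (Subgroup.mem_sup_right h2) hb
  have hb1 := ((canon_unique hD _ _ n n _ _ hbB₁ hbB₂ hn hn hu₁ hu e).2 rfl).1
  obtain ⟨u', hu', h, hh, rfl⟩ := mem_sup_of_normalizes (D.diagonalSubgroup F) (D.posUnipotent F)
    (fun a ha n hn => ((Subgroup.mem_normalizer_iff.mp (H_le_normalizer_posU hD ha)) n).mp hn) b hb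
  have hu'' : h₂ * u' * h₂⁻¹ ∈ D.posUnipotent F :=
    ((Subgroup.mem_normalizer_iff.mp (H_le_normalizer_posU hD h2)) u').mp hu'
  have hkey : (h₂ * u' * h₂⁻¹)⁻¹ * u' = (h₂ * h) * (h * (n * h₁ * n⁻¹))⁻¹ := by
    have e3 : u' * (h * (n * h₁ * n⁻¹)) = (h₂ * u' * h₂⁻¹) * (h₂ * h) := by
      rw [← mul_assoc, hb1]; group
    calc (h₂ * u' * h₂⁻¹)⁻¹ * u'
        = (h₂ * u' * h₂⁻¹)⁻¹ * (u' * (h * (n * h₁ * n⁻¹))) * (h * (n * h₁ * n⁻¹))⁻¹ := by group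
      _ = (h₂ * u' * h₂⁻¹)⁻¹ * ((h₂ * u' * h₂⁻¹) * (h₂ * h)) * (h * (n * h₁ * n⁻¹))⁻¹ := by
          rw [e3]
      _ = _ := by group
  have hmem : (h₂ * u' * h₂⁻¹)⁻¹ * u' ∈ D.posUnipotent F ⊓ D.diagonalSubgroup F := by
    refine Subgroup.mem_inf.mpr ⟨mul_mem (inv_mem hu'') hu', ?_⟩
    rw [hkey]
    exact mul_mem (mul_mem h2 hh) (inv_mem (mul_mem hh hh₃))
  rw [posU_inf_H hD, Subgroup.mem_bot] at hmem
  rw [hmem] at hkey
  have e4 : h * (n * h₁ * n⁻¹) = h₂ * h := by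
    have h5 := hkey.symm
    rw [mul_inv_eq_one] at h5
    exact h5.symm
  rw [H_comm hD h2 hh] at e4
  exact mul_left_cancel e4

end ConjH

end Cfsg.Agent.Helper11
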