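import Cfsg.Agent.Helper11.ChevPerfAll
import Cfsg.Prelude.Def_SteinbergCover

set_option autoImplicit false

/-!
The group presented by Steinberg's relators (R1), (R2) is perfect: every generator `x̄_q(t)` lies in the
commutator subgroup, either because `x̄_q(t)` is a single commutator (a pair of roots `a, b` whose
commutator formula has the single term `x_q(± t u)`), or, over a field with more than two elements, from
a commutator formula with two leading terms `x_q(± t u) x_{q'}(± t u²) ⋯`.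
-/

namespace Cfsg.Agent.Helper11

open Cfsg.Lie

/-- Data of a two-term relation: `a`, `b`, `q₁`, `e₁`, `q₂`, `e₂`, `i₂`, `j₂` and the remaining terms. -/
abbrev SC2 : Type := ℕ × ℕ × ℕ × ℤ × ℕ × ℤ × ℕ × ℕ × List (ℕ × ℤ × ℕ × ℕ)

noncomputable def sc2OK (D : ChevalleyDatum) (w1 : List (ℕ × ℕ)) (q a b q1 : ℕ) (e1 : ℤ) (q2 : ℕ)
    (e2 : ℤ) (i2 j2 : ℕ) (rest : List (ℕ × ℤ × ℕ × ℕ)) : Bool :=
  (Nat.beq q q1 || Nat.beq q q2) &&
  (Nat.blt a D.nroots && (Nat.blt b D.nroots && (cond (Nat.beq b a) false true &&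
  (cond (Nat.beq b (D.neg a)) false true && (Nat.blt q1 D.nroots && (Nat.blt q2 D.nroots &&
  ((decide (e1 = 1) || decide (e1 = -1)) && ((decide (e2 = 1) || decide (e2 = -1)) &&
  (((Nat.beq i2 1 && Nat.beq j2 2) || (Nat.beq i2 2 && Nat.beq j2 1)) &&
  (decide (commTermsF D a b = (q1, e1, 1, 1) :: (q2, e2, i2, j2) :: rest) &&
  allL (fun c => perfPair D 1 c.1 (w1.getD c.1 (0, 0)).1 (w1.getD c.1 (0, 0)).2) rest))))))))))

noncomputable def scSmallOK (D : ChevalleyDatum) (w1 : List (ℕ × ℕ)) (w2 : List SC2) : Bool :=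
  allN D.nroots (fun q =>
    perfPair D 1 q (w1.getD q (0, 0)).1 (w1.getD q (0, 0)).2 ||
    w2.any (fun x => sc2OK D w1 q x.1 x.2.1 x.2.2.1 x.2.2.2.1 x.2.2.2.2.1 x.2.2.2.2.2.1
      x.2.2.2.2.2.2.1 x.2.2.2.2.2.2.2.1 x.2.2.2.2.2.2.2.2))

theorem sc2OK_spec {D : ChevalleyDatum} (hT : tabOK D = true) (w1 : List (ℕ × ℕ)) (q a b q1 : ℕ)
    (e1 : ℤ) (q2 : ℕ) (e2 : ℤ) (i2 j2 : ℕ) (rest : List (ℕ × ℤ × ℕ × ℕ))
    (h : sc2OK D w1 q a b q1 e1 q2 e2 i2 j2 rest = true) :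
    (q = q1 ∨ q = q2) ∧ a < D.nroots ∧ b < D.nroots ∧ b ≠ a ∧ b ≠ D.neg a ∧ q1 < D.nroots ∧
      q2 < D.nroots ∧ (e1 = 1 ∨ e1 = -1) ∧ (e2 = 1 ∨ e2 = -1) ∧
      ((i2 = 1 ∧ j2 = 2) ∨ (i2 = 2 ∧ j2 = 1)) ∧
      D.commTerms a b = (q1, e1, 1, 1) :: (q2, e2, i2, j2) :: rest ∧
      ∀ c ∈ rest, perfPair D 1 c.1 (w1.getD c.1 (0, 0)).1 (w1.getD c.1 (0, 0)).2 = true := by
  unfold sc2OK at h
  simp only [Bool.and_eq_true, Bool.or_eq_true, decide_eq_true_eq] at h
  obtain ⟨h1, h2, h3, h4, h5, h6, h7, h8, h9, h10, h11, h12⟩ := h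
  refine ⟨?_, (blt_iff _ _).mp h2, (blt_iff _ _).mp h3, ?_, ?_, (blt_iff _ _).mp h6,
    (blt_iff _ _).mp h7, h8, h9, ?_, ?_, (allL_spec _ _).mp h12⟩
  · rcases h1 with h1 | h1
    · exact Or.inl ((beq_iff _ _).mp h1)
    · exact Or.inr ((beq_iff _ _).mp h1)
  · intro e
    rw [(beq_iff _ _).mpr e] at h4
    exact Bool.false_ne_true h4
  · intro e
    rw [(beq_iff _ _).mpr e] at h5
    exact Bool.false_ne_true h5
  · rcases h10 with ⟨x, y⟩ | ⟨x, y⟩
    · exact Or.inl ⟨(beq_iff _ _).mp x, (beq_iff _ _).mp y⟩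
    · exact Or.inr ⟨(beq_iff _ _).mp x, (beq_iff _ _).mp y⟩
  · rw [commTermsF_eq hT] at h11; exact h11

section Cover
variable {K : Type*} [Field K] {D : ChevalleyDatum}

theorem sc_add (r : ℕ) (hr : r < D.nroots) (t₁ t₂ : K) :
    D.scGen K r t₁ * D.scGen K r t₂ = D.scGen K r (t₁ + t₂) := by
  have h : D.stX r t₁ * D.stX r t₂ * (D.stX r (t₁ + t₂))⁻¹ ∈ D.steinbergRelsAB K :=
    Or.inl ⟨r, t₁, t₂, hr, rfl⟩
  have h1 := PresentedGroup.one_of_mem h
  simp only [map_mul, map_inv] at h1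
  rw [mul_inv_eq_one] at h1
  exact h1

theorem sc_word (w : List (ℕ × K)) :
    PresentedGroup.mk (D.steinbergRelsAB K) (D.stWord w) =
      (w.map fun p => D.scGen K p.1 p.2).prod := by
  unfold ChevalleyDatum.stWord
  rw [map_list_prod, List.map_map]
  rfl

theorem sc_comm (r s : ℕ) (hr : r < D.nroots) (hs : s < D.nroots) (hsr : s ≠ r)
    (hsn : s ≠ D.neg r) (t u : K) :
    (D.scGen K s u)⁻¹ * (D.scGen K r t)⁻¹ * D.scGen K s u * D.scGen K r t =
      ((D.commWord K r s t u).map fun p => D.scGen K p.1 p.2).prod := by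
  have h : (D.stX s u)⁻¹ * (D.stX r t)⁻¹ * D.stX s u * D.stX r t *
      (D.stWord (D.commWord K r s t u))⁻¹ ∈ D.steinbergRelsAB K :=
    Or.inr ⟨r, s, t, u, hr, hs, hsr, hsn, rfl⟩
  have h1 := PresentedGroup.one_of_mem h
  simp only [map_mul, map_inv] at h1
  rw [mul_inv_eq_one, sc_word] at h1
  exact h1

theorem sc_closure :
    Subgroup.closure {g : D.SteinbergCover K | ∃ r < D.nroots, ∃ t : K, g = D.scGen K r t} = ⊤ := by
  rw [eq_top_iff, ← PresentedGroup.closure_range_of (D.steinbergRelsAB K)]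
  apply Subgroup.closure_mono
  rintro _ ⟨⟨r, t⟩, rfl⟩
  refine ⟨r.val, r.isLt, t, ?_⟩
  show PresentedGroup.mk _ (FreeGroup.of (r, t)) = PresentedGroup.mk _ (D.stX r.val t)
  unfold ChevalleyDatum.stX
  rw [dif_pos r.isLt]

theorem sc_perfect_of_gens
    (h : ∀ r < D.nroots, ∀ t : K, D.scGen K r t ∈ commutator (D.SteinbergCover K)) :
    commutator (D.SteinbergCover K) = ⊤ := by
  rw [eq_top_iff, ← sc_closure (K := K) (D := D), Subgroup.closure_le]
  rintro _ ⟨r, hr, t, rfl⟩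
  exact h r hr t

theorem sc_comm_mem (a b : ℕ) (t u : K) :
    (D.scGen K b u)⁻¹ * (D.scGen K a t)⁻¹ * D.scGen K b u * D.scGen K a t ∈
      commutator (D.SteinbergCover K) := by
  rw [commutator_def]
  have := Subgroup.commutator_mem_commutator (Subgroup.mem_top ((D.scGen K b u)⁻¹))
    (Subgroup.mem_top ((D.scGen K a t)⁻¹))
  rw [commutatorElement_def, inv_inv, inv_inv] at this
  exact this

theorem sc_rule1 (q a b : ℕ) (e : ℤ) (ha : a < D.nroots) (hb : b < D.nroots) (hba : b ≠ a)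
    (hbn : b ≠ D.neg a) (hct : D.commTerms a b = [(q, e, 1, 1)]) (he : e = 1 ∨ e = -1) (v : K) :
    D.scGen K q v ∈ commutator (D.SteinbergCover K) := by
  have h := sc_comm (K := K) a b ha hb hba hbn (-(e : K) * v) 1
  have hw : ((D.commWord K a b (-(e : K) * v) 1).map fun p => D.scGen K p.1 p.2).prod =
      D.scGen K q v := by
    unfold ChevalleyDatum.commWord
    rw [hct]
    simp only [List.map_cons, List.map_nil, List.prod_cons, List.prod_nil, mul_one]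
    congr 1
    rcases he with rfl | rfl <;> simp
  rw [hw] at h
  rw [← h]
  exact sc_comm_mem a b _ _

/-- The image of a generator in the abelianisation. -/
noncomputable def scX (D : ChevalleyDatum) (K : Type*) [Field K] (r : ℕ) (t : K) :
    Abelianization (D.SteinbergCover K) :=
  Abelianization.of (D.scGen K r t)

theorem scX_eq_one_iff (r : ℕ) (t : K) :
    scX D K r t = 1 ↔ D.scGen K r t ∈ commutator (D.SteinbergCover K) := by
  unfold scX
  rw [← MonoidHom.mem_ker, Abelianization.ker_of]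

theorem scX_add (r : ℕ) (hr : r < D.nroots) (t₁ t₂ : K) :
    scX D K r t₁ * scX D K r t₂ = scX D K r (t₁ + t₂) := by
  unfold scX; rw [← map_mul, sc_add r hr]

theorem scX_sub_eq_one (r : ℕ) (hr : r < D.nroots) (a b : K) (h : scX D K r a = scX D K r b) :
    scX D K r (a - b) = 1 := by
  have h1 : scX D K r (a - b) * scX D K r b = scX D K r b := by
    rw [scX_add r hr, sub_add_cancel, h]
  exact mul_right_cancel (h1.trans (one_mul _).symm)

theorem scX_rel (a b : ℕ) (ha : a < D.nroots) (hb : b < D.nroots) (hba : b ≠ a)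
    (hbn : b ≠ D.neg a) (t u : K) :
    ((D.commTerms a b).map fun c =>
      scX D K c.1 ((c.2.1 : K) * (-t) ^ c.2.2.1 * u ^ c.2.2.2)).prod = 1 := by
  have h := congrArg (Abelianization.of) (sc_comm (K := K) a b ha hb hba hbn t u)
  have hl : Abelianization.of
      ((D.scGen K b u)⁻¹ * (D.scGen K a t)⁻¹ * D.scGen K b u * D.scGen K a t) = 1 := by
    rw [← MonoidHom.mem_ker, Abelianization.ker_of]
    exact sc_comm_mem a b t u
  rw [hl, map_list_prod, List.map_map] at h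
  unfold ChevalleyDatum.commWord at h
  rw [List.map_map] at h
  exact h.symm

/-- Two roots are killed in the abelianisation by a relation `X_{q₁}(-e₁ s) X_{q₂}(c s u) = 1`
(all `s`, all `u ≠ 0`), over a field with an element other than `0, 1`. -/
theorem scX_two (q1 q2 : ℕ) (hq2 : q2 < D.nroots) (e1 c : K) (he1 : e1 * e1 = 1)
    (hc : c * c = 1)
    (R : ∀ s u : K, u ≠ 0 → scX D K q1 (-e1 * s) * scX D K q2 (c * s * u) = 1)
    (x : K) (hx0 : x ≠ 0) (hx1 : x ≠ 1) :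
    (∀ v : K, scX D K q1 v = 1) ∧ (∀ v : K, scX D K q2 v = 1) := by
  have hx1' : x - 1 ≠ 0 := sub_ne_zero.mpr hx1
  have h2 : ∀ v : K, scX D K q2 v = 1 := by
    intro v
    have A := R (c * v * (x - 1)⁻¹) 1 one_ne_zero
    have B := R (c * v * (x - 1)⁻¹) x hx0
    have hEq : scX D K q2 (c * (c * v * (x - 1)⁻¹) * x) =
        scX D K q2 (c * (c * v * (x - 1)⁻¹) * 1) := mul_left_cancel (B.trans A.symm)
    have h3 := scX_sub_eq_one q2 hq2 _ _ hEq
    have f2 : c * (c * v * (x - 1)⁻¹) * x - c * (c * v * (x - 1)⁻¹) * 1 = v := by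
      calc c * (c * v * (x - 1)⁻¹) * x - c * (c * v * (x - 1)⁻¹) * 1
          = (c * c) * v * ((x - 1)⁻¹ * (x - 1)) := by ring
        _ = v := by rw [hc, inv_mul_cancel₀ hx1', one_mul, mul_one]
    rw [f2] at h3; exact h3
  refine ⟨fun v => ?_, h2⟩
  have A := R (-e1 * v) 1 one_ne_zero
  rw [h2, mul_one] at A
  have f : -e1 * (-e1 * v) = v := by
    calc -e1 * (-e1 * v) = (e1 * e1) * v := by ring
      _ = v := by rw [he1, one_mul]
  rw [f] at A; exact A

theorem scX_rule2 (a b q1 q2 i2 j2 : ℕ) (e1 e2 : ℤ) (rest : List (ℕ × ℤ × ℕ × ℕ))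
    (ha : a < D.nroots) (hb : b < D.nroots) (hba : b ≠ a) (hbn : b ≠ D.neg a)
    (hq2 : q2 < D.nroots)
    (hct : D.commTerms a b = (q1, e1, 1, 1) :: (q2, e2, i2, j2) :: rest)
    (he1 : e1 = 1 ∨ e1 = -1) (he2 : e2 = 1 ∨ e2 = -1)
    (hij : (i2 = 1 ∧ j2 = 2) ∨ (i2 = 2 ∧ j2 = 1))
    (hrest : ∀ c ∈ rest, ∀ t : K, scX D K c.1 t = 1)
    (x : K) (hx0 : x ≠ 0) (hx1 : x ≠ 1) :
    (∀ v : K, scX D K q1 v = 1) ∧ (∀ v : K, scX D K q2 v = 1) := by
  have R : ∀ t u : K, scX D K q1 ((e1 : K) * (-t) ^ 1 * u ^ 1) *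
      scX D K q2 ((e2 : K) * (-t) ^ i2 * u ^ j2) = 1 := by
    intro t u
    have h := scX_rel (D := D) (K := K) a b ha hb hba hbn t u
    rw [hct, List.map_cons, List.map_cons, List.prod_cons, List.prod_cons] at h
    have hr : (rest.map fun c =>
        scX D K c.1 ((c.2.1 : K) * (-t) ^ c.2.2.1 * u ^ c.2.2.2)).prod = 1 := by
      apply List.prod_eq_one
      intro y hy
      obtain ⟨c, hc, rfl⟩ := List.mem_map.mp hy
      exact hrest c hc _
    rw [hr, mul_one] at h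
    exact h
  have e1sq : (e1 : K) * (e1 : K) = 1 := by rcases he1 with rfl | rfl <;> simp
  have e2sq : (e2 : K) * (e2 : K) = 1 := by rcases he2 with rfl | rfl <;> simp
  rcases hij with ⟨rfl, rfl⟩ | ⟨rfl, rfl⟩
  · apply scX_two q1 q2 hq2 (e1 : K) (-(e2 : K)) e1sq (by rw [neg_mul_neg]; exact e2sq) _ x hx0 hx1
    intro s u hu
    have h := R (s * u⁻¹) u
    have g1 : (e1 : K) * (-(s * u⁻¹)) ^ 1 * u ^ 1 = -(e1 : K) * s := by
      calc (e1 : K) * (-(s * u⁻¹)) ^ 1 * u ^ 1 = -(e1 : K) * s * (u⁻¹ * u) := by ring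
        _ = _ := by rw [inv_mul_cancel₀ hu, mul_one]
    have g2 : (e2 : K) * (-(s * u⁻¹)) ^ 1 * u ^ 2 = -(e2 : K) * s * u := by
      calc (e2 : K) * (-(s * u⁻¹)) ^ 1 * u ^ 2 = -(e2 : K) * s * u * (u⁻¹ * u) := by ring
        _ = _ := by rw [inv_mul_cancel₀ hu, mul_one]
    rw [g1, g2] at h; exact h
  · apply scX_two q1 q2 hq2 (e1 : K) (e2 : K) e1sq e2sq _ x hx0 hx1
    intro s u hu
    have h := R u (s * u⁻¹)
    have g1 : (e1 : K) * (-u) ^ 1 * (s * u⁻¹) ^ 1 = -(e1 : K) * s := by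
      calc (e1 : K) * (-u) ^ 1 * (s * u⁻¹) ^ 1 = -(e1 : K) * s * (u⁻¹ * u) := by ring
        _ = _ := by rw [inv_mul_cancel₀ hu, mul_one]
    have g2 : (e2 : K) * (-u) ^ 2 * (s * u⁻¹) ^ 1 = (e2 : K) * s * u := by
      calc (e2 : K) * (-u) ^ 2 * (s * u⁻¹) ^ 1 = (e2 : K) * s * u * (u⁻¹ * u) := by ring
        _ = _ := by rw [inv_mul_cancel₀ hu, mul_one]
    rw [g1, g2] at h; exact h

theorem sc_big (hD : Seven D) (wit : List (ℕ × ℕ)) (hw : perfBOK D wit = true) :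
    commutator (D.SteinbergCover K) = ⊤ := by
  apply sc_perfect_of_gens
  intro q hq t
  obtain ⟨a, b, ha, hb, hba, hbn, hct⟩ := perfB_spec (tabOK_seven D hD) wit hw q hq
  rcases hct with hct | hct
  · exact sc_rule1 q a b 1 ha hb hba hbn hct (Or.inl rfl) t
  · exact sc_rule1 q a b (-1) ha hb hba hbn hct (Or.inr rfl) t

theorem sc_small (hD : Seven D) (w1 : List (ℕ × ℕ)) (w2 : List SC2)
    (h : scSmallOK D w1 w2 = true) (x : K) (hx0 : x ≠ 0) (hx1 : x ≠ 1) :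
    commutator (D.SteinbergCover K) = ⊤ := by
  have hT := tabOK_seven D hD
  have r1 : ∀ c, perfPair D 1 c (w1.getD c (0, 0)).1 (w1.getD c (0, 0)).2 = true →
      ∀ t : K, D.scGen K c t ∈ commutator (D.SteinbergCover K) := by
    intro c hc t
    obtain ⟨ha, hb, hba, hbn, hct⟩ := perfPair_spec hT 1 c _ _ hc
    rcases hct with hct | hct
    · exact sc_rule1 c _ _ 1 ha hb hba hbn hct (Or.inl rfl) t
    · exact sc_rule1 c _ _ (-1) ha hb hba hbn hct (Or.inr rfl) t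
  apply sc_perfect_of_gens
  intro q hq v
  have h1 := (allN_spec _ _).mp h q hq
  rw [Bool.or_eq_true] at h1
  rcases h1 with h1 | h1
  · exact r1 q h1 v
  · rw [List.any_eq_true] at h1
    obtain ⟨⟨a, b, q1, e1, q2, e2, i2, j2, rest⟩, _, h2⟩ := h1
    obtain ⟨hq12, ha, hb, hba, hbn, _, hq2, he1, he2, hij, hct, hrest⟩ :=
      sc2OK_spec hT w1 q a b q1 e1 q2 e2 i2 j2 rest h2
    have key := scX_rule2 (K := K) a b q1 q2 i2 j2 e1 e2 rest ha hb hba hbn hq2 hct he1 he2 hij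
      (fun c hc t => (scX_eq_one_iff c.1 t).mpr (r1 c.1 (hrest c hc) t)) x hx0 hx1
    rcases hq12 with rfl | rfl
    · exact (scX_eq_one_iff _ v).mp (key.1 v)
    · exact (scX_eq_one_iff _ v).mp (key.2 v)

end Cover

end Cfsg.Agent.Helper11
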