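import Cfsg.Agent.Helper11.ChevCover

set_option autoImplicit false
set_option maxRecDepth 100000
set_option maxHeartbeats 0
set_option Elab.async false

/-! Generated witnesses for the perfectness of the Steinberg cover in types B₂, G₂ (tools/gen_cover.py). -/

namespace Cfsg.Agent.Helper11

open Cfsg.Lie

noncomputable def scW1_B2 : List (ℕ × ℕ) := [(0, 0), (0, 0), (0, 0), (0, 0), (0, 0), (0, 0), (0, 0), (0, 0)]

noncomputable def scW2_B2 : List SC2 := [(0, 5, 1, 1, 3, -1, 1, 2, []), (0, 6, 2, -1, 4, 1, 1, 2, []), (1, 4, 2, 1, 0, 1, 2, 1, []), (1, 7, 5, -1, 3, 1, 2, 1, []), (2, 7, 6, 1, 4, -1, 2, 1, []), (3, 6, 5, 1, 7, 1, 1, 2, [])]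

theorem scSmall_B2 : scSmallOK chevB2 scW1_B2 scW2_B2 = true := by decide +kernel

noncomputable def scW1_G2 : List (ℕ × ℕ) := [(1, 5), (0, 6), (0, 0), (0, 0), (0, 0), (0, 10), (1, 11), (0, 0), (0, 0), (0, 0), (5, 11), (6, 10)]

noncomputable def scW2_G2 : List SC2 := [(0, 8, 2, 1, 4, 1, 1, 2, [(6, -1, 1, 3), (1, -2, 2, 3)]), (0, 9, 3, -1, 7, -1, 1, 2, [(10, -1, 1, 3), (5, 2, 2, 3)]), (1, 9, 4, -1, 8, 1, 1, 2, [(11, 1, 1, 3), (6, -2, 2, 3)]), (3, 11, 9, 1, 7, 1, 2, 1, [(5, -1, 3, 1), (10, 1, 3, 2)])]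

theorem scSmall_G2 : scSmallOK chevG2 scW1_G2 scW2_G2 = true := by decide +kernel

end Cfsg.Agent.Helper11
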