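import Cfsg.Agent.Helper11.ChevRefl
import Cfsg.Prelude.Def_ChevStructure

set_option autoImplicit false

/-! Kernel checks of `reflOK` for the seven tabulated data. -/

namespace Cfsg.Agent.Helper11

open Cfsg.Lie

set_option maxRecDepth 100000
set_option maxHeartbeats 0
set_option Elab.async false

theorem reflOK_G2 : reflOK chevG2 = true := by decide +kernel
theorem reflOK_B2 : reflOK chevB2 = true := by decide +kernel
theorem reflOK_D4 : reflOK chevD4 = true := by decide +kernel
theorem reflOK_F4 : reflOK chevF4 = true := by decide +kernel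
theorem reflOK_E6 : reflOK chevE6 = true := by decide +kernel
theorem reflOK_E7 : reflOK chevE7 = true := by decide +kernel
theorem reflOK_E8 : reflOK chevE8 = true := by decide +kernel

theorem reflOK_seven (D : ChevalleyDatum)
    (hD : D ∈ [chevG2, chevB2, chevD4, chevF4, chevE6, chevE7, chevE8]) : reflOK D = true :=
  forall_seven (P := fun D => reflOK D = true) reflOK_G2 reflOK_B2 reflOK_D4 reflOK_F4 reflOK_E6
    reflOK_E7 reflOK_E8 D hD

theorem cor_refl7 {D : ChevalleyDatum} (hD : Seven D) (j r m : ℕ) (hj : j < D.rank)
    (hr : r < D.nroots) (hm : m < D.rank) (hne : m ≠ j) :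
    corD D (wAt D j r) m = corD D r m :=
  reflOK_spec (tabOK_seven D hD) (reflOK_seven D hD) j r m hj hr hm hne
    (by rw [wAt_eq7 hD j hj r hr]; exact reflect_lt7 hD j hj r hr)

end Cfsg.Agent.Helper11
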