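import Cfsg.Agent.Helper11.ChevGen
import Cfsg.Agent.Helper11.ChevReflAll

set_option autoImplicit false
set_option maxRecDepth 100000

/-!
Diagram symmetries of the simply laced types D₄ and E₆: the action on roots (through words of
fundamental reflections) and the images of the root elements under an automorphism that permutes the
fundamental root elements.
-/

namespace Cfsg.Agent.Helper11

open Cfsg.Lie

/-- Sum of `f 0, …, f (n-1)`, kernel-friendly. -/
noncomputable def sumN (n : ℕ) (f : ℕ → ℤ) : ℤ :=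
  @Nat.rec (fun _ => ℤ) 0 (fun m acc => Int.add acc (f m)) n

theorem sumN_spec (n : ℕ) (f : ℕ → ℤ) : sumN n f = ∑ m ∈ Finset.range n, f m := by
  induction n with
  | zero => rfl
  | succ n ih =>
    have e : sumN (n + 1) f = sumN n f + f n := rfl
    rw [e, ih, Finset.sum_range_succ]

/-- Simply laced checks: Cartan matrix entries, coroots of fundamental roots, the reflection formula
in the reflected coordinate, and injectivity of the coroot coordinates. -/
noncomputable def graphOK (D : ChevalleyDatum) : Bool :=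
  allN D.rank (fun i => allN D.rank (fun j =>
    cond (Nat.beq i j)
      (isZ (Int.sub (cartAt D i (D.simple j)) 2) && isZ (Int.sub (corAt D (D.simple j) i) 1))
      ((isZ (cartAt D i (D.simple j)) || isZ (Int.add (cartAt D i (D.simple j)) 1)) &&
        (isZ (Int.sub (cartAt D i (D.simple j)) (cartAt D j (D.simple i))) &&
          isZ (corAt D (D.simple j) i))))) &&
  (allN D.rank (fun k => allN D.nroots (fun s =>
    isZ (Int.sub (Int.add (corAt D (wAt D k s) k)
      (sumN D.rank (fun m => Int.mul (corAt D s m) (cartAt D m (D.simple k))))) (corAt D s k)))) &&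
  allN D.nroots (fun s => allN D.nroots (fun s' =>
    Nat.beq s s' || anyN D.rank (fun i => !(isZ (Int.sub (corAt D s i) (corAt D s' i)))))))

section GraphSpec
variable {D : ChevalleyDatum}

theorem cartAt_eq (hD : Seven D) (i s : ℕ) (hi : i < D.rank) (hs : s < D.nroots) :
    cartAt D i s = D.cartan i s :=
  tabOK_cart (tabOK_seven D hD) i s hi hs

theorem corAt_eq (hD : Seven D) (s i : ℕ) (hs : s < D.nroots) (hi : i < D.rank) :
    corAt D s i = corD D s i :=
  tabOK_cor (tabOK_seven D hD) s i hs hi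

theorem graph_entries (hD : Seven D) (h : graphOK D = true) (i j : ℕ) (hi : i < D.rank)
    (hj : j < D.rank) :
    (i = j → D.cartan i (D.simple j) = 2 ∧ corD D (D.simple j) i = 1) ∧
    (i ≠ j → D.cartan i (D.simple j) = - D.bonds i j ∧ corD D (D.simple j) i = 0) := by
  unfold graphOK at h
  simp only [Bool.and_eq_true] at h
  have h1 := (allN_spec _ _).mp ((allN_spec _ _).mp h.1 i hi) j hj
  rw [cartAt_eq hD i _ hi (simple_lt7 hD j hj), cartAt_eq hD j _ hj (simple_lt7 hD i hi),
    corAt_eq hD _ i (simple_lt7 hD j hj) hi] at h1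
  constructor
  · intro hij
    rw [(beq_iff i j).mpr hij, cond_true, Bool.and_eq_true] at h1
    have a : D.cartan i (D.simple j) - 2 = 0 := isZ_eq _ h1.1
    have b : corD D (D.simple j) i - 1 = 0 := isZ_eq _ h1.2
    exact ⟨by omega, by omega⟩
  · intro hij
    rw [beq_false_of_ne hij, cond_false] at h1
    simp only [Bool.and_eq_true, Bool.or_eq_true] at h1
    obtain ⟨h0, hsym, hc⟩ := h1
    have hsym' : D.cartan i (D.simple j) - D.cartan j (D.simple i) = 0 := isZ_eq _ hsym
    refine ⟨?_, isZ_eq _ hc⟩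
    unfold ChevalleyDatum.bonds
    rcases h0 with h0 | h0
    · have := isZ_eq _ h0; rw [this]; simp
    · have h0' : D.cartan i (D.simple j) + 1 = 0 := isZ_eq _ h0
      have e1 : D.cartan i (D.simple j) = -1 := by omega
      have e2 : D.cartan j (D.simple i) = -1 := by omega
      rw [e1, e2]; norm_num

theorem graph_refl (hD : Seven D) (h : graphOK D = true) (k s : ℕ) (hk : k < D.rank)
    (hs : s < D.nroots) :
    corD D (wAt D k s) k =
      corD D s k - ∑ m ∈ Finset.range D.rank, corD D s m * D.cartan m (D.simple k) := by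
  unfold graphOK at h
  simp only [Bool.and_eq_true] at h
  have h1 := isZ_eq _ ((allN_spec _ _).mp ((allN_spec _ _).mp h.2.1 k hk) s hs)
  have hw : wAt D k s < D.nroots := by rw [wAt_eq7 hD k hk s hs]; exact reflect_lt7 hD k hk s hs
  rw [corAt_eq hD _ k hw hk, corAt_eq hD s k hs hk, sumN_spec] at h1
  have h2 : ∑ m ∈ Finset.range D.rank, Int.mul (corAt D s m) (cartAt D m (D.simple k)) =
      ∑ m ∈ Finset.range D.rank, corD D s m * D.cartan m (D.simple k) := by
    apply Finset.sum_congr rfl
    intro m hm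
    rw [Finset.mem_range] at hm
    rw [corAt_eq hD s m hs hm, cartAt_eq hD m _ hm (simple_lt7 hD k hk)]
    rfl
  rw [h2] at h1
  have h3 : corD D (wAt D k s) k +
      (∑ m ∈ Finset.range D.rank, corD D s m * D.cartan m (D.simple k)) - corD D s k = 0 := h1
  linarith

theorem graph_inj (hD : Seven D) (h : graphOK D = true) (s s' : ℕ) (hs : s < D.nroots)
    (hs' : s' < D.nroots) (hc : ∀ i < D.rank, corD D s i = corD D s' i) : s = s' := by
  unfold graphOK at h
  simp only [Bool.and_eq_true] at h
  have h1 := (allN_spec _ _).mp ((allN_spec _ _).mp h.2.2 s hs) s' hs'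
  rw [Bool.or_eq_true] at h1
  rcases h1 with h1 | h1
  · exact (beq_iff _ _).mp h1
  · obtain ⟨i, hi, h2⟩ := (anyN_spec _ _).mp h1
    rw [corAt_eq hD s i hs hi, corAt_eq hD s' i hs' hi, hc i hi] at h2
    have : isZ (Int.sub (corD D s' i) (corD D s' i)) = true := (isZ_iff _).mpr (sub_self _)
    rw [this] at h2
    exact absurd h2 (by simp)

/-- `s'` is the image of the root `s` under the diagram symmetry `π` (on coroot coordinates). -/
def PiImg (D : ChevalleyDatum) (π : Equiv.Perm (Fin D.rank)) (s s' : ℕ) : Prop :=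
  ∀ i : Fin D.rank, corD D s' (π i) = corD D s i

theorem piImg_simple (hD : Seven D) (h : graphOK D = true) (π : Equiv.Perm (Fin D.rank))
    (j : Fin D.rank) : PiImg D π (D.simple j) (D.simple (π j)) := by
  intro i
  by_cases hij : i = j
  · subst hij
    rw [((graph_entries hD h (π i) (π i) (π i).isLt (π i).isLt).1 rfl).2,
      ((graph_entries hD h i i i.isLt i.isLt).1 rfl).2]
  · have hne : (i : ℕ) ≠ j := fun e => hij (Fin.ext e)
    have hne' : ((π i : Fin D.rank) : ℕ) ≠ π j := fun e => hij (π.injective (Fin.ext e))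
    rw [((graph_entries hD h (π i) (π j) (π i).isLt (π j).isLt).2 hne').2,
      ((graph_entries hD h i j i.isLt j.isLt).2 hne).2]

theorem cart_perm (hD : Seven D) (h : graphOK D = true) (π : Equiv.Perm (Fin D.rank))
    (hπ : D.IsDiagramSymmetry π) (m k : Fin D.rank) :
    D.cartan (π m) (D.simple (π k)) = D.cartan m (D.simple k) := by
  by_cases hmk : m = k
  · subst hmk
    rw [((graph_entries hD h (π m) (π m) (π m).isLt (π m).isLt).1 rfl).1,
      ((graph_entries hD h m m m.isLt m.isLt).1 rfl).1]
  · have hne : (m : ℕ) ≠ k := fun e => hmk (Fin.ext e)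
    have hne' : ((π m : Fin D.rank) : ℕ) ≠ π k := fun e => hmk (π.injective (Fin.ext e))
    rw [((graph_entries hD h (π m) (π k) (π m).isLt (π k).isLt).2 hne').1,
      ((graph_entries hD h m k m.isLt k.isLt).2 hne).1, hπ m k hmk]

theorem piImg_refl (hD : Seven D) (h : graphOK D = true) (π : Equiv.Perm (Fin D.rank))
    (hπ : D.IsDiagramSymmetry π) (k : Fin D.rank) (s s' : ℕ) (hs : s < D.nroots)
    (hs' : s' < D.nroots) (hp : PiImg D π s s') : PiImg D π (wAt D k s) (wAt D (π k) s') := by
  intro i
  by_cases hik : i = k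
  · subst hik
    rw [graph_refl hD h (π i) s' (π i).isLt hs', graph_refl hD h i s i.isLt hs, hp i]
    congr 1
    rw [Finset.sum_range (fun m => corD D s' m * D.cartan m (D.simple (π i))),
      Finset.sum_range (fun m => corD D s m * D.cartan m (D.simple i))]
    rw [← Equiv.sum_comp π]
    apply Finset.sum_congr rfl
    intro m _
    show corD D s' (π m) * D.cartan (π m) (D.simple (π i)) = corD D s m * D.cartan m (D.simple i)
    rw [hp m, cart_perm hD h π hπ m i]
  · have hne : (i : ℕ) ≠ k := fun e => hik (Fin.ext e)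
    have hne' : ((π i : Fin D.rank) : ℕ) ≠ π k := fun e => hik (π.injective (Fin.ext e))
    rw [cor_refl7 hD (π k) s' (π i) (π k).isLt hs' (π i).isLt hne',
      cor_refl7 hD k s i k.isLt hs i.isLt hne]
    exact hp i

/-- The permutation of the nodes, as a map of natural numbers. -/
noncomputable def piN (D : ChevalleyDatum) (π : Equiv.Perm (Fin D.rank)) (i : ℕ) : ℕ :=
  if h : i < D.rank then (π ⟨i, h⟩ : ℕ) else i

theorem piN_eq (π : Equiv.Perm (Fin D.rank)) (i : ℕ) (hi : i < D.rank) :
    piN D π i = (π ⟨i, hi⟩ : ℕ) := dif_pos hi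

theorem piN_lt (π : Equiv.Perm (Fin D.rank)) (i : ℕ) (hi : i < D.rank) : piN D π i < D.rank := by
  rw [piN_eq π i hi]; exact (π ⟨i, hi⟩).isLt

theorem piN_map_lt (π : Equiv.Perm (Fin D.rank)) (v : List ℕ) (hv : ∀ i ∈ v, i < D.rank) :
    ∀ i ∈ v.map (piN D π), i < D.rank := by
  intro i hi
  obtain ⟨i', hi', rfl⟩ := List.mem_map.mp hi
  exact piN_lt π i' (hv i' hi')

theorem piImg_word (hD : Seven D) (h : graphOK D = true) (π : Equiv.Perm (Fin D.rank))
    (hπ : D.IsDiagramSymmetry π) (v : List ℕ) (hv : ∀ i ∈ v, i < D.rank) (s s' : ℕ)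
    (hs : s < D.nroots) (hs' : s' < D.nroots) (hp : PiImg D π s s') :
    PiImg D π (wordApply D v s) (wordApply D (v.map (piN D π)) s') := by
  induction v with
  | nil => exact hp
  | cons i rest ih =>
    have hi := hv i List.mem_cons_self
    have hrest : ∀ j ∈ rest, j < D.rank := fun j hj => hv j (List.mem_cons_of_mem _ hj)
    rw [List.map_cons, wordApply_cons, wordApply_cons, piN_eq π i hi]
    exact piImg_refl hD h π hπ ⟨i, hi⟩ _ _ (wordApply_lt hD rest hrest s hs)
      (wordApply_lt hD _ (piN_map_lt π rest hrest) s' hs') (ih hrest)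

theorem permRoot_eq (hD : Seven D) (h : graphOK D = true) (π : Equiv.Perm (Fin D.rank))
    (r r' : ℕ) (hr' : r' < D.nroots) (hp : PiImg D π r r') : D.permRoot π r = r' := by
  unfold ChevalleyDatum.permRoot
  have hpred : ∀ s, ((List.finRange D.rank).all fun i =>
      (D.coroot.getD s #[]).getD (π i).val 0 == (D.coroot.getD r #[]).getD i.val 0) = true ↔
      PiImg D π r s := by
    intro s
    simp [List.all_eq_true, PiImg, corD]
  have hsome : ((List.range D.nroots).find? fun s => (List.finRange D.rank).all fun i =>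
      (D.coroot.getD s #[]).getD (π i).val 0 == (D.coroot.getD r #[]).getD i.val 0).isSome := by
    rw [List.find?_isSome]
    exact ⟨r', List.mem_range.mpr hr', (hpred r').mpr hp⟩
  obtain ⟨s, hs⟩ := Option.isSome_iff_exists.mp hsome
  rw [hs, Option.getD_some]
  have h0 := List.find?_some hs
  have h1 := (hpred s).mp h0
  have h2 := List.mem_range.mp (List.mem_of_find?_eq_some hs)
  apply graph_inj hD h s r' h2 hr'
  intro m hm
  have a := h1 (π.symm ⟨m, hm⟩)
  have b := hp (π.symm ⟨m, hm⟩)
  rw [π.apply_symm_apply] at a b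
  exact a.trans b.symm

end GraphSpec

section Signs
variable {F : Type*} [Field F] {D : ChevalleyDatum}

/-- Root elements as elements of the group. -/
noncomputable def xS (hD : Seven D) (r : ℕ) (t : F) : ↥(D.group F) :=
  ⟨xG hD r t, xG_mem_group hD r t⟩

/-- `n_{p_i}(1)` as an element of the group. -/
noncomputable def nS (hD : Seven D) (i : ℕ) : ↥(D.group F) :=
  xS hD (D.simple i) 1 * xS hD (D.neg (D.simple i)) (-1⁻¹) * xS hD (D.simple i) 1

theorem nS_val (hD : Seven D) (i : ℕ) :
    ((nS (F := F) hD i : ↥(D.group F)) : GL D.Idx F) = nG hD (D.simple i) 1 := by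
  rw [nG_eq]; rfl

/-- The product of the `n_{p_i}(1)` along a word, as an element of the group. -/
noncomputable def wordS (hD : Seven D) : List ℕ → ↥(D.group F)
  | [] => 1
  | i :: rest => nS hD i * wordS hD rest

theorem wordS_val (hD : Seven D) (v : List ℕ) :
    ((wordS (F := F) hD v : ↥(D.group F)) : GL D.Idx F) = wordN hD v := by
  induction v with
  | nil => rfl
  | cons i rest ih =>
    show ((nS hD i * wordS hD rest : ↥(D.group F)) : GL D.Idx F) =
      nG hD (D.simple i) 1 * wordN hD rest
    rw [Subgroup.coe_mul, nS_val, ih]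

theorem xS_conj_word (hD : Seven D) (v : List ℕ) (hv : ∀ i ∈ v, i < D.rank) (s : ℕ)
    (hs : s < D.nroots) :
    ∃ ε : F, ε * ε = 1 ∧
      (∀ t : F, xS hD (wordApply D v s) t = wordS hD v * xS hD s (ε * t) * (wordS hD v)⁻¹) ∧
      (∀ t : F, wordS hD v * xS hD s t * (wordS hD v)⁻¹ = xS hD (wordApply D v s) (ε * t)) := by
  obtain ⟨_, ε, hε, hc⟩ := wordN_conj (F := F) hD v hv s hs
  refine ⟨ε, hε, fun t => ?_, fun t => ?_⟩
  · apply Subtype.ext
    rw [Subgroup.coe_mul, Subgroup.coe_mul, Subgroup.coe_inv, wordS_val]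
    show xG hD (wordApply D v s) t = wordN hD v * xG hD s (ε * t) * (wordN hD v)⁻¹
    rw [hc, ← mul_assoc, hε, one_mul]
  · apply Subtype.ext
    rw [Subgroup.coe_mul, Subgroup.coe_mul, Subgroup.coe_inv, wordS_val]
    exact hc t

/-- An automorphism permuting the fundamental root elements along a diagram symmetry sends every
root element `x_r(t)` to `x_{π r}(± t)` (simply laced types). -/
theorem graph_signs (hD : Seven D) (hG : graphOK D = true)
    (π : Equiv.Perm (Fin D.rank)) (hπ : D.IsDiagramSymmetry π) (φ : ↥(D.group F) ≃* ↥(D.group F))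
    (hφ : ∀ (g : ↥(D.group F)) (i : Fin D.rank) (t : F),
      (((g : GL D.Idx F) : Matrix D.Idx D.Idx F) = D.x F (D.simple i) t →
        ((φ g : GL D.Idx F) : Matrix D.Idx D.Idx F) = D.x F (D.simple (π i)) t) ∧
      (((g : GL D.Idx F) : Matrix D.Idx D.Idx F) = D.x F (D.neg (D.simple i)) t →
        ((φ g : GL D.Idx F) : Matrix D.Idx D.Idx F) = D.x F (D.neg (D.simple (π i))) t))
    (r : ℕ) (hr : r < D.nroots) :
    ∃ ε : F, (ε = 1 ∨ ε = -1) ∧ ∀ (g : ↥(D.group F)) (t : F),
      ((g : GL D.Idx F) : Matrix D.Idx D.Idx F) = D.x F r t →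
        ((φ g : GL D.Idx F) : Matrix D.Idx D.Idx F) = D.x F (D.permRoot π r) (ε * t) := by
  have hx : ∀ i (hi : i < D.rank) (t : F),
      φ (xS hD (D.simple i) t) = xS hD (D.simple (piN D π i)) t := by
    intro i hi t
    apply Subtype.ext; apply Units.ext
    rw [piN_eq π i hi]
    exact (hφ (xS hD (D.simple i) t) ⟨i, hi⟩ t).1 rfl
  have hxn : ∀ i (hi : i < D.rank) (t : F),
      φ (xS hD (D.neg (D.simple i)) t) = xS hD (D.neg (D.simple (piN D π i))) t := by
    intro i hi t
    apply Subtype.ext; apply Units.ext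
    rw [piN_eq π i hi]
    exact (hφ (xS hD (D.neg (D.simple i)) t) ⟨i, hi⟩ t).2 rfl
  have hn : ∀ i (hi : i < D.rank), φ (nS hD i) = nS hD (piN D π i) := by
    intro i hi
    unfold nS
    rw [map_mul, map_mul, hx i hi, hxn i hi]
  have hw : ∀ v : List ℕ, (∀ i ∈ v, i < D.rank) →
      φ (wordS hD v) = wordS hD (v.map (piN D π)) := by
    intro v
    induction v with
    | nil => intro _; exact map_one φ
    | cons i rest ih =>
      intro hv
      show φ (nS hD i * wordS hD rest) = nS hD (piN D π i) * wordS hD (rest.map (piN D π))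
      rw [map_mul, hn i (hv i List.mem_cons_self),
        ih (fun j hj => hv j (List.mem_cons_of_mem _ hj))]
  obtain ⟨v, j, hv, hj, rfl⟩ := rootWords7 D hD r hr
  have hv' := piN_map_lt π v hv
  have hj' := simple_lt7 hD _ (piN_lt π j hj)
  obtain ⟨ε₁, hε₁, hc₁, _⟩ := xS_conj_word (F := F) hD v hv (D.simple j) (simple_lt7 hD j hj)
  obtain ⟨ε₂, hε₂, _, hc₂⟩ := xS_conj_word (F := F) hD (v.map (piN D π)) hv'
    (D.simple (piN D π j)) hj'
  have himg : D.permRoot π (wordApply D v (D.simple j)) =
      wordApply D (v.map (piN D π)) (D.simple (piN D π j)) := by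
    apply permRoot_eq hD hG π _ _ (wordApply_lt hD _ hv' _ hj')
    apply piImg_word hD hG π hπ v hv _ _ (simple_lt7 hD j hj) hj'
    rw [piN_eq π j hj]
    exact piImg_simple hD hG π ⟨j, hj⟩
  refine ⟨ε₂ * ε₁, ?_, ?_⟩
  · rcases mul_self_eq_one_iff.mp hε₁ with h1 | h1 <;>
      rcases mul_self_eq_one_iff.mp hε₂ with h2 | h2 <;> rw [h1, h2] <;> simp
  · intro g t hg
    have hg' : g = xS hD (wordApply D v (D.simple j)) t := Subtype.ext (eq_xG hD _ _ _ hg)
    have e := congrArg (fun y : ↥(D.group F) => ((y : GL D.Idx F) : Matrix D.Idx D.Idx F))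
      (show φ g = xS hD (wordApply D (v.map (piN D π)) (D.simple (piN D π j))) (ε₂ * (ε₁ * t)) by
        rw [hg', hc₁, map_mul, map_mul, map_inv, hw v hv, hx j hj, hc₂])
    rw [himg, mul_assoc]
    exact e

end Signs

theorem graphOK_D4 : graphOK chevD4 = true := by decide +kernel
theorem graphOK_E6 : graphOK chevE6 = true := by decide +kernel

end Cfsg.Agent.Helper11
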