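import Cfsg.Agent.Helper11.ChevGrp

set_option autoImplicit false

/-!
Parabolic subgroups: table condition `parOK D` (the coroot of `-p_j` is `-e_j`; every negative root is
moved towards the positive roots by a fundamental reflection in its support, which changes only one
coroot coordinate), and its consequences.
-/

namespace Cfsg.Agent.Helper11

open Cfsg.Lie

/-- Coroot coordinate, as in `InRootSub`. -/
noncomputable def corD (D : ChevalleyDatum) (r i : ℕ) : ℤ := (D.coroot.getD r #[]).getD i 0

noncomputable def parOK (D : ChevalleyDatum) : Bool :=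
  allN D.rank (fun j => allN D.rank (fun i => Nat.beq i j ||
    decide (corD D (D.neg (D.simple j)) i = 0))) &&
  allN (Nat.div D.nroots 2) (fun s => anyN D.rank (fun i =>
    decide (corD D s i ≠ 0) && (Nat.blt (nuF D (D.reflectRoot i s)) (nuF D s) &&
      allN D.rank (fun k => Nat.beq k i ||
        decide (corD D (D.reflectRoot i s) k = corD D s k)))))

section ParSound
variable {D : ChevalleyDatum}

theorem parOK_negsimple (h : parOK D = true) (j : ℕ) (hj : j < D.rank) (i : ℕ) (hi : i < D.rank)
    (hij : i ≠ j) : corD D (D.neg (D.simple j)) i = 0 := by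
  unfold parOK at h
  rw [Bool.and_eq_true] at h
  have h1 := (allN_spec _ _).mp ((allN_spec _ _).mp h.1 j hj) i hi
  rw [Bool.or_eq_true] at h1
  rcases h1 with h1 | h1
  · exact absurd ((beq_iff _ _).mp h1) hij
  · exact of_decide_eq_true h1

theorem parOK_step (h : parOK D = true) (s : ℕ) (hs : s < D.nroots / 2) :
    ∃ i < D.rank, corD D s i ≠ 0 ∧ nuF D (D.reflectRoot i s) < nuF D s ∧
      ∀ k < D.rank, k ≠ i → corD D (D.reflectRoot i s) k = corD D s k := by
  unfold parOK at h
  rw [Bool.and_eq_true] at h
  have h1 := (allN_spec _ _).mp h.2 s hs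
  obtain ⟨i, hi, h2⟩ := (anyN_spec _ _).mp h1
  rw [Bool.and_eq_true, Bool.and_eq_true] at h2
  refine ⟨i, hi, of_decide_eq_true h2.1, (blt_iff _ _).mp h2.2.1, fun k hk hki => ?_⟩
  have h3 := (allN_spec _ _).mp h2.2.2 k hk
  rw [Bool.or_eq_true] at h3
  rcases h3 with h3 | h3
  · exact absurd ((beq_iff _ _).mp h3) hki
  · exact of_decide_eq_true h3

end ParSound

end Cfsg.Agent.Helper11
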