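import Cfsg.Agent.Helper11.ChevPos
import Cfsg.Agent.Helper11.ChevPar

set_option autoImplicit false

/-!
Tables for the Levi decomposition: signs of the coroot coordinates (`leviOK`) and a grading of the
coordinate module by (scaled) root coordinates (`gradOK`).
-/

namespace Cfsg.Agent.Helper11

open Cfsg.Lie

noncomputable def isPos (z : ℤ) : Bool :=
  @Int.rec (fun _ => Bool) (fun n => Nat.blt 0 n) (fun _ => false) z

noncomputable def isNonneg (z : ℤ) : Bool :=
  @Int.rec (fun _ => Bool) (fun _ => true) (fun _ => false) z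

theorem isPos_iff (z : ℤ) : isPos z = true ↔ 0 < z := by
  cases z with
  | ofNat n =>
    show Nat.blt 0 n = true ↔ (0 : ℤ) < (n : ℤ)
    rw [blt_iff]; omega
  | negSucc n =>
    have h1 : Int.negSucc n < 0 := Int.negSucc_lt_zero n
    constructor
    · intro h; exact absurd (show false = true from h) (by simp)
    · intro h; omega

theorem isNonneg_iff (z : ℤ) : isNonneg z = true ↔ 0 ≤ z := by
  cases z with
  | ofNat n =>
    constructor
    · intro _; exact Int.natCast_nonneg n
    · intro _; rfl
  | negSucc n =>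
    have h1 : Int.negSucc n < 0 := Int.negSucc_lt_zero n
    constructor
    · intro h; exact absurd (show false = true from h) (by simp)
    · intro h; omega

theorem isZ_iff (z : ℤ) : isZ z = true ↔ z = 0 := by
  constructor
  · exact isZ_eq z
  · intro h; rw [h]; rfl

/-- Table facts on the coroot coordinates: the coroot of `-r` is minus that of `r`; negative roots
have non-positive, positive roots non-negative coordinates; the `i`-th coordinate of the `i`-th
fundamental root is positive; and for a positive root `s` and a root `r ≠ ± s`, the roots of the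
commutator word have a positive `k`-th coordinate whenever `s` has and `r` has a non-negative one. -/
noncomputable def leviOK (D : ChevalleyDatum) : Bool :=
  allN D.nroots (fun r => allN D.rank (fun k =>
    isZ (Int.add (corAt D (negAt D r) k) (corAt D r k)) &&
      cond (Nat.blt r (Nat.div D.nroots 2)) (isNonneg (Int.neg (corAt D r k)))
        (isNonneg (corAt D r k)))) &&
  (allN D.rank (fun i => isPos (corAt D (D.simple i) i)) &&
  allN D.nroots (fun r => allN D.nroots (fun s =>
    cond (Nat.blt s (Nat.div D.nroots 2)) true (cond (Nat.beq s r) true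
      (cond (Nat.beq s (negAt D r)) true
        (termsAll D r s (fun c => Nat.blt c D.nroots && allN D.rank (fun k =>
          cond (isPos (corAt D s k) && isNonneg (corAt D r k)) (isPos (corAt D c k)) true))))))))

/-- The grading coordinate of a coded index. -/
noncomputable def gradAt (D : ChevalleyDatum) (Lt : ℕ → ℤ) (v k : ℕ) : ℤ :=
  cond (Nat.blt v D.rank) 0 (Int.mul (corAt D (Nat.sub v D.rank) k) (Lt (Nat.sub v D.rank)))

noncomputable def sgnOK (c a b : ℤ) : Bool :=
  cond (isZ c) (isZ (Int.sub b a)) (cond (isPos c) (isPos (Int.sub b a)) true)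

/-- A non-zero entry `(a, b)` of `x_r(t) - 1` raises the `k`-th grading coordinate by an amount of
the same sign as the `k`-th coroot coordinate of `r` (for sign zero or plus). -/
noncomputable def gradOK (D : ChevalleyDatum) (Lt : ℕ → ℤ) : Bool :=
  allN D.nroots (fun r => allN (Nat.add D.rank D.nroots) (fun v =>
    allL (fun e => allN D.rank (fun k =>
      sgnOK (corAt D r k) (gradAt D Lt v k) (gradAt D Lt e.1 k))) (colF D r v)))

/-- Grading of a coordinate. -/
noncomputable def gI (D : ChevalleyDatum) (Lt : ℕ → ℤ) (a : D.Idx) (k : ℕ) : ℤ :=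
  gradAt D Lt (code D a) k

section LeviSound
variable {F : Type*} [Field F] {D : ChevalleyDatum}

theorem leviOK_neg (hT : tabOK D = true) (h : leviOK D = true) (r k : ℕ) (hr : r < D.nroots)
    (hnr : D.neg r < D.nroots) (hk : k < D.rank) : corD D (D.neg r) k = - corD D r k := by
  unfold leviOK at h
  rw [Bool.and_eq_true] at h
  have h1 := (allN_spec _ _).mp ((allN_spec _ _).mp h.1 r hr) k hk
  rw [Bool.and_eq_true] at h1
  have h2 := isZ_eq _ h1.1
  have e1 : negAt D r = D.neg r := tabOK_neg hT r hr
  rw [e1, tabOK_cor hT (D.neg r) k hnr hk, tabOK_cor hT r k hr hk] at h2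
  have h3 : corD D (D.neg r) k + corD D r k = 0 := h2
  omega

theorem leviOK_sign (hT : tabOK D = true) (h : leviOK D = true) (r k : ℕ) (hr : r < D.nroots)
    (hk : k < D.rank) :
    (r < D.nroots / 2 → corD D r k ≤ 0) ∧ (D.nroots / 2 ≤ r → 0 ≤ corD D r k) := by
  unfold leviOK at h
  rw [Bool.and_eq_true] at h
  have h1 := (allN_spec _ _).mp ((allN_spec _ _).mp h.1 r hr) k hk
  rw [Bool.and_eq_true] at h1
  have h2 := h1.2
  rw [tabOK_cor hT r k hr hk] at h2
  constructor
  · intro hlt
    rw [show Nat.blt r (Nat.div D.nroots 2) = true from (blt_iff _ _).mpr hlt, cond_true] at h2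
    have h3 : 0 ≤ - corD D r k := (isNonneg_iff _).mp h2
    omega
  · intro hge
    rw [show Nat.blt r (Nat.div D.nroots 2) = false from
      blt_false_of_not (show ¬ r < D.nroots / 2 by omega), cond_false] at h2
    exact (isNonneg_iff _).mp h2

theorem leviOK_simple (hT : tabOK D = true) (h : leviOK D = true) (i : ℕ) (hi : i < D.rank)
    (hp : D.simple i < D.nroots) : 0 < corD D (D.simple i) i := by
  unfold leviOK at h
  rw [Bool.and_eq_true, Bool.and_eq_true] at h
  have h1 := (allN_spec _ _).mp h.2.1 i hi
  rw [tabOK_cor hT _ i hp hi] at h1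
  exact (isPos_iff _).mp h1

theorem leviOK_comm (hT : tabOK D = true) (h : leviOK D = true) (r s : ℕ) (hr : r < D.nroots)
    (hs : s < D.nroots) (hs2 : D.nroots / 2 ≤ s) (hsr : s ≠ r) (hsn : s ≠ D.neg r) :
    ∀ c ∈ D.commTerms r s, c.1 < D.nroots ∧
      ∀ k < D.rank, 0 < corD D s k → 0 ≤ corD D r k → 0 < corD D c.1 k := by
  unfold leviOK at h
  rw [Bool.and_eq_true, Bool.and_eq_true] at h
  have h1 := (allN_spec _ _).mp ((allN_spec _ _).mp h.2.2 r hr) s hs
  have e1 : negAt D r = D.neg r := tabOK_neg hT r hr
  rw [show Nat.blt s (Nat.div D.nroots 2) = false from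
      blt_false_of_not (show ¬ s < D.nroots / 2 by omega), cond_false,
    beq_false_of_ne hsr, cond_false, e1, beq_false_of_ne hsn, cond_false] at h1
  intro c hc
  have h2 := termsAll_spec hT r s _ h1 c hc
  rw [Bool.and_eq_true] at h2
  have hcn : c.1 < D.nroots := (blt_iff _ _).mp h2.1
  refine ⟨hcn, fun k hk hsk hrk => ?_⟩
  have h3 := (allN_spec _ _).mp h2.2 k hk
  rw [tabOK_cor hT s k hs hk, tabOK_cor hT r k hr hk, tabOK_cor hT c.1 k hcn hk] at h3
  have e2 : isPos ((D.coroot.getD s #[]).getD k 0) = true := (isPos_iff _).mpr hsk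
  have e3 : isNonneg ((D.coroot.getD r #[]).getD k 0) = true := (isNonneg_iff _).mpr hrk
  rw [e2, e3] at h3
  exact (isPos_iff _).mp h3

theorem gradOK_spec (hT : tabOK D = true) (Lt : ℕ → ℤ) (h : gradOK D Lt = true) (r : ℕ)
    (hr : r < D.nroots) (t : F) (a b : D.Idx) (hne : (D.x F r t - 1) a b ≠ 0) (k : ℕ)
    (hk : k < D.rank) :
    (corD D r k = 0 → gI D Lt a k = gI D Lt b k) ∧
    (0 < corD D r k → gI D Lt b k < gI D Lt a k) := by
  obtain ⟨e, he, hea⟩ := x_sub_one_entry D r hr t a b hne
  rw [← colF_eq hT r hr] at he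
  have h0 := (allN_spec _ _).mp ((allN_spec _ _).mp h r hr) (code D b) (code_lt D b)
  have h1 := (allN_spec _ _).mp ((allL_spec _ _).mp h0 e he) k hk
  rw [hea, tabOK_cor hT r k hr hk] at h1
  have h1' : sgnOK (corD D r k) (gI D Lt b k) (gI D Lt a k) = true := h1
  unfold sgnOK at h1'
  constructor
  · intro hc
    rw [hc] at h1'
    have h2 : isZ (Int.sub (gI D Lt a k) (gI D Lt b k)) = true := h1'
    have h3 : gI D Lt a k - gI D Lt b k = 0 := isZ_eq _ h2
    omega
  · intro hc
    have hz : isZ (corD D r k) = false := by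
      cases hz : isZ (corD D r k) with
      | false => rfl
      | true => have := isZ_eq _ hz; omega
    rw [hz, (isPos_iff _).mpr hc] at h1'
    have h3 : 0 < gI D Lt a k - gI D Lt b k := (isPos_iff _).mp h1'
    omega

end LeviSound

end Cfsg.Agent.Helper11
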