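import Cfsg.Agent.Helper11.ChevPar

set_option autoImplicit false
set_option maxRecDepth 100000
set_option maxHeartbeats 0
set_option Elab.async false

/-! Kernel checks of `parOK` for the seven tabulated data, and the description of the parabolic
subgroups `P_J` by root subgroups. -/

namespace Cfsg.Agent.Helper11

open Cfsg.Lie

theorem parOK_G2 : parOK chevG2 = true := by decide +kernel
theorem parOK_B2 : parOK chevB2 = true := by decide +kernel
theorem parOK_D4 : parOK chevD4 = true := by decide +kernel
theorem parOK_F4 : parOK chevF4 = true := by decide +kernel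
theorem parOK_E6 : parOK chevE6 = true := by decide +kernel
theorem parOK_E7 : parOK chevE7 = true := by decide +kernel
theorem parOK_E8 : parOK chevE8 = true := by decide +kernel

theorem parOK_seven (D : ChevalleyDatum)
    (hD : D ∈ [chevG2, chevB2, chevD4, chevF4, chevE6, chevE7, chevE8]) : parOK D = true :=
  forall_seven (P := fun D => parOK D = true) parOK_G2 parOK_B2 parOK_D4 parOK_F4 parOK_E6 parOK_E7
    parOK_E8 D hD

section ParGrp
variable {F : Type*} [Field F] {D : ChevalleyDatum}

theorem par_x_mem (hD : Seven D) (J : Set ℕ) :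
    ∀ s, D.InRootSub J s → ∀ t : F, xG hD s t ∈ D.parabolicSubgroup F J := by
  have key : ∀ n s, nuF D s = n → D.InRootSub J s →
      ∀ t : F, xG hD s t ∈ D.parabolicSubgroup F J := by
    intro n
    induction n using Nat.strong_induction_on with
    | _ n ih =>
      intro s hn hs t
      have hsn : s < D.nroots := hs.1
      by_cases hpos : D.nroots / 2 ≤ s
      · have hp : D.IsPosRoot s := ((pos_iff7 hD s hsn).1).mpr hpos
        exact Subgroup.mem_sup_left (Subgroup.mem_sup_left (xG_mem_posU hD s hp t))
      · obtain ⟨i, hi, hc, hlt, hk⟩ := parOK_step (parOK_seven D hD) s (by omega)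
        have hiJ : i ∈ J := by
          by_contra hiJ
          exact hc (hs.2 i hi hiJ)
        have hs'n := reflect_lt7 hD i hi s hsn
        have hs' : D.InRootSub J (D.reflectRoot i s) := by
          refine ⟨hs'n, fun k hk1 hkJ => ?_⟩
          have hki : k ≠ i := fun e => hkJ (e ▸ hiJ)
          have h4 := hk k hk1 hki
          unfold corD at h4
          rw [h4]
          exact hs.2 k hk1 hkJ
        have h1 := ih _ (hn ▸ hlt) _ rfl hs' ((etaAt D i s : F) * t)
        have hc2 := nG_conj_x hD i hi s hsn t
        have hnm : nG hD (D.simple i) (1 : F) ∈ D.parabolicSubgroup F J :=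
          Subgroup.mem_sup_right (Subgroup.subset_closure ⟨i, hiJ, hi, nG_val hD _ _⟩)
        have e : xG hD s t = (nG hD (D.simple i) 1)⁻¹ *
            (nG hD (D.simple i) 1 * xG hD s t * (nG hD (D.simple i) 1)⁻¹) *
              nG hD (D.simple i) 1 := by group
        rw [e, hc2]
        exact mul_mem (mul_mem (inv_mem hnm) h1) hnm
  intro s hs t
  exact key _ s rfl hs t

theorem par_eq (hD : Seven D) (J : Set ℕ) :
    D.parabolicSubgroup F J = D.diagonalSubgroup F ⊔
      Subgroup.closure {g : GL D.Idx F | ∃ (r : ℕ) (t : F),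
        (D.IsPosRoot r ∨ D.InRootSub J r) ∧ (g : Matrix D.Idx D.Idx F) = D.x F r t} := by
  apply le_antisymm
  · unfold ChevalleyDatum.parabolicSubgroup ChevalleyDatum.borelSubgroup
    apply sup_le
    · apply sup_le
      · refine le_trans ?_ le_sup_right
        unfold ChevalleyDatum.posUnipotent
        apply Subgroup.closure_mono
        rintro g ⟨r, t, hr, hg⟩
        exact ⟨r, t, Or.inl hr, hg⟩
      · exact le_sup_left
    · refine le_trans ?_ le_sup_right
      rw [Subgroup.closure_le]
      rintro g ⟨j, hjJ, hj, hg⟩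
      have e : g = nG hD (D.simple j) 1 := Units.ext (by rw [hg, nG_val])
      rw [e, nG_eq]
      have hp : ∀ t : F, xG hD (D.simple j) t ∈ Subgroup.closure {g : GL D.Idx F |
          ∃ (r : ℕ) (t : F), (D.IsPosRoot r ∨ D.InRootSub J r) ∧
            (g : Matrix D.Idx D.Idx F) = D.x F r t} :=
        fun t => Subgroup.subset_closure ⟨_, t, Or.inl (simple_pos7 hD j hj), rfl⟩
      have hn : ∀ t : F, xG hD (D.neg (D.simple j)) t ∈ Subgroup.closure {g : GL D.Idx F |
          ∃ (r : ℕ) (t : F), (D.IsPosRoot r ∨ D.InRootSub J r) ∧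
            (g : Matrix D.Idx D.Idx F) = D.x F r t} :=
        fun t => Subgroup.subset_closure ⟨_, t, Or.inr ⟨neg_lt7 hD _ (simple_lt7 hD j hj),
          fun i hi hiJ => parOK_negsimple (parOK_seven D hD) j hj i hi (fun e => hiJ (e ▸ hjJ))⟩, rfl⟩
      exact mul_mem (mul_mem (hp _) (hn _)) (hp _)
  · apply sup_le
    · exact le_trans le_sup_right (le_sup_left : D.borelSubgroup F ≤ D.parabolicSubgroup F J)
    · rw [Subgroup.closure_le]
      rintro g ⟨r, t, hr, hg⟩
      rw [eq_xG hD g r t hg]
      rcases hr with hr | hr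
      · exact Subgroup.mem_sup_left (Subgroup.mem_sup_left (xG_mem_posU hD r hr t))
      · exact par_x_mem hD J r hr t

end ParGrp

end Cfsg.Agent.Helper11
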