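import Cfsg.Agent.Helper11.ChevLeviAll
import Cfsg.Agent.Helper11.ChevParAll
import Cfsg.Agent.Helper11.ChevBN3
import Cfsg.Agent.Helper2.BN2

set_option autoImplicit false

/-!
Levi decomposition of the standard parabolic subgroups, and the normaliser of `U_J`.
-/

namespace Cfsg.Agent.Helper11

open Cfsg.Lie

theorem closure_induction_inv {G : Type*} [Group G] {S : Set G} (hS : ∀ x ∈ S, x⁻¹ ∈ S)
    {p : G → Prop} (h1 : p 1) (hmem : ∀ x ∈ S, p x) (hmul : ∀ a b, p a → p b → p (a * b)) :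
    ∀ g ∈ Subgroup.closure S, p g := by
  intro g hg
  have hg' : g ∈ (Subgroup.closure S).toSubmonoid := hg
  clear hg
  rw [Subgroup.closure_toSubmonoid] at hg'
  induction hg' using Submonoid.closure_induction with
  | mem x hx =>
    rcases hx with hx | hx
    · exact hmem x hx
    · have h2 := hS _ (Set.mem_inv.mp hx)
      rw [inv_inv] at h2
      exact hmem x h2
  | one => exact h1
  | mul a b _ _ ha hb => exact hmul a b ha hb

section Forms
variable {F : Type*} [Field F] {D : ChevalleyDatum} {Lt : ℕ → ℤ} {J : Set ℕ}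

def JGT (D : ChevalleyDatum) (Lt : ℕ → ℤ) (J : Set ℕ) (a b : D.Idx) : Prop :=
  (∀ k < D.rank, gI D Lt b k ≤ gI D Lt a k) ∧ ∃ k < D.rank, k ∉ J ∧ gI D Lt b k < gI D Lt a k

def JEQ (D : ChevalleyDatum) (Lt : ℕ → ℤ) (J : Set ℕ) (a b : D.Idx) : Prop :=
  ∀ k < D.rank, k ∉ J → gI D Lt a k = gI D Lt b k

theorem JGT.trans {a b c : D.Idx} (h1 : JGT D Lt J a b) (h2 : JGT D Lt J b c) : JGT D Lt J a c := by
  obtain ⟨h1a, k, hk, hkJ, h1b⟩ := h1
  exact ⟨fun k' hk' => le_trans (h2.1 k' hk') (h1a k' hk'), k, hk, hkJ,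
    lt_of_le_of_lt (h2.1 k hk) h1b⟩

theorem JGT.irrefl {a : D.Idx} (h : JGT D Lt J a a) : False := by
  obtain ⟨_, k, _, _, hlt⟩ := h
  exact lt_irrefl _ hlt

theorem JEQ.refl (a : D.Idx) : JEQ D Lt J a a := fun _ _ _ => rfl

theorem JEQ.trans {a b c : D.Idx} (h1 : JEQ D Lt J a b) (h2 : JEQ D Lt J b c) : JEQ D Lt J a c :=
  fun k hk hkJ => (h1 k hk hkJ).trans (h2 k hk hkJ)

def UForm (D : ChevalleyDatum) (Lt : ℕ → ℤ) (J : Set ℕ) (M : Matrix D.Idx D.Idx F) : Prop :=
  (∀ a, M a a = 1) ∧ ∀ a b, M a b ≠ 0 → a = b ∨ JGT D Lt J a b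

def LForm (D : ChevalleyDatum) (Lt : ℕ → ℤ) (J : Set ℕ) (M : Matrix D.Idx D.Idx F) : Prop :=
  ∀ a b, M a b ≠ 0 → JEQ D Lt J a b

theorem UForm.one : UForm D Lt J (1 : Matrix D.Idx D.Idx F) := by
  refine ⟨fun a => Matrix.one_apply_eq a, fun a b h => ?_⟩
  by_cases hab : a = b
  · exact Or.inl hab
  · exact absurd (Matrix.one_apply_ne hab) h

theorem UForm.mul {M N : Matrix D.Idx D.Idx F} (hM : UForm D Lt J M) (hN : UForm D Lt J N) :
    UForm D Lt J (M * N) := by
  constructor
  · intro a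
    rw [Matrix.mul_apply, Finset.sum_eq_single a]
    · rw [hM.1 a, hN.1 a, mul_one]
    · intro c _ hca
      by_contra hne
      have h1 : M a c ≠ 0 := left_ne_zero_of_mul hne
      have h2 : N c a ≠ 0 := right_ne_zero_of_mul hne
      have h3 : JGT D Lt J a c := (hM.2 a c h1).resolve_left (fun e => hca e.symm)
      have h4 : JGT D Lt J c a := (hN.2 c a h2).resolve_left hca
      exact (h3.trans h4).irrefl
    · intro h; exact absurd (Finset.mem_univ a) h
  · intro a b h
    rw [Matrix.mul_apply] at h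
    obtain ⟨c, _, hc⟩ := Finset.exists_ne_zero_of_sum_ne_zero h
    have h1 : M a c ≠ 0 := left_ne_zero_of_mul hc
    have h2 : N c b ≠ 0 := right_ne_zero_of_mul hc
    rcases hM.2 a c h1 with hac | h3
    · rw [hac]; exact hN.2 c b h2
    · rcases hN.2 c b h2 with hcb | h4
      · rw [← hcb]; exact Or.inr h3
      · exact Or.inr (h3.trans h4)

theorem LForm.one : LForm D Lt J (1 : Matrix D.Idx D.Idx F) := by
  intro a b h
  by_cases hab : a = b
  · rw [hab]; exact JEQ.refl b
  · exact absurd (Matrix.one_apply_ne hab) h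

theorem LForm.mul {M N : Matrix D.Idx D.Idx F} (hM : LForm D Lt J M) (hN : LForm D Lt J N) :
    LForm D Lt J (M * N) := by
  intro a b h
  rw [Matrix.mul_apply] at h
  obtain ⟨c, _, hc⟩ := Finset.exists_ne_zero_of_sum_ne_zero h
  exact (hM a c (left_ne_zero_of_mul hc)).trans (hN c b (right_ne_zero_of_mul hc))

theorem x_UForm (hT : tabOK D = true) (hG : gradOK D Lt = true) (r : ℕ) (hr : r < D.nroots)
    (hpos : ∀ k < D.rank, 0 ≤ corD D r k) (k₀ : ℕ) (hk₀ : k₀ < D.rank) (hk₀J : k₀ ∉ J)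
    (hk₀p : 0 < corD D r k₀) (t : F) : UForm D Lt J (D.x F r t) := by
  have hent : ∀ a b, (D.x F r t - 1) a b ≠ 0 → JGT D Lt J a b := by
    intro a b h
    refine ⟨fun k hk => ?_, k₀, hk₀, hk₀J, (gradOK_spec hT Lt hG r hr t a b h k₀ hk₀).2 hk₀p⟩
    have hs := gradOK_spec hT Lt hG r hr t a b h k hk
    rcases (hpos k hk).lt_or_eq with h1 | h1
    · exact le_of_lt (hs.2 h1)
    · exact le_of_eq (hs.1 h1.symm).symm
  constructor
  · intro a
    by_contra hne
    have h1 : (D.x F r t - 1) a a ≠ 0 := by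
      rw [Matrix.sub_apply, Matrix.one_apply_eq]; exact sub_ne_zero.mpr hne
    exact (hent a a h1).irrefl
  · intro a b h
    by_cases hab : a = b
    · exact Or.inl hab
    · refine Or.inr (hent a b ?_)
      rw [Matrix.sub_apply, Matrix.one_apply_ne hab, sub_zero]; exact h

theorem x_LForm (hT : tabOK D = true) (hG : gradOK D Lt = true) (r : ℕ) (hr : r < D.nroots)
    (hJ : ∀ k < D.rank, k ∉ J → corD D r k = 0) (t : F) : LForm D Lt J (D.x F r t) := by
  intro a b h
  by_cases hab : a = b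
  · rw [hab]; exact JEQ.refl b
  · have h1 : (D.x F r t - 1) a b ≠ 0 := by
      rw [Matrix.sub_apply, Matrix.one_apply_ne hab, sub_zero]; exact h
    intro k hk hkJ
    exact (gradOK_spec hT Lt hG r hr t a b h1 k hk).1 (hJ k hk hkJ)

end Forms

section LeviGrp
variable {F : Type*} [Field F] {D : ChevalleyDatum}

theorem cor_neg7 (hD : Seven D) (r k : ℕ) (hr : r < D.nroots) (hk : k < D.rank) :
    corD D (D.neg r) k = - corD D r k :=
  leviOK_neg (tabOK_seven D hD) (leviOK_seven D hD) r k hr (neg_lt7 hD r hr) hk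

theorem cor_sign7 (hD : Seven D) (r k : ℕ) (hr : r < D.nroots) (hk : k < D.rank) :
    (r < D.nroots / 2 → corD D r k ≤ 0) ∧ (D.nroots / 2 ≤ r → 0 ≤ corD D r k) :=
  leviOK_sign (tabOK_seven D hD) (leviOK_seven D hD) r k hr hk

theorem cor_simple7 (hD : Seven D) (i : ℕ) (hi : i < D.rank) : 0 < corD D (D.simple i) i :=
  leviOK_simple (tabOK_seven D hD) (leviOK_seven D hD) i hi (simple_lt7 hD i hi)

theorem cor_comm7 (hD : Seven D) (r s : ℕ) (hr : r < D.nroots) (hs : s < D.nroots)
    (hs2 : D.nroots / 2 ≤ s) (hsr : s ≠ r) (hsn : s ≠ D.neg r) :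
    ∀ c ∈ D.commTerms r s, c.1 < D.nroots ∧
      ∀ k < D.rank, 0 < corD D s k → 0 ≤ corD D r k → 0 < corD D c.1 k :=
  leviOK_comm (tabOK_seven D hD) (leviOK_seven D hD) r s hr hs hs2 hsr hsn

theorem UJ_le_posU (J : Set ℕ) : D.unipotentRadical F J ≤ D.posUnipotent F := by
  apply Subgroup.closure_mono
  rintro g ⟨r, t, hp, _, hg⟩
  exact ⟨r, t, hp, hg⟩

theorem B_le_par (J : Set ℕ) : D.borelSubgroup F ≤ D.parabolicSubgroup F J := by
  unfold ChevalleyDatum.parabolicSubgroup
  exact le_sup_left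

theorem notJ_pos (hD : Seven D) {J : Set ℕ} {s : ℕ} (hs : D.IsPosRoot s)
    (hnJ : ¬ D.InRootSub J s) : ∃ k < D.rank, k ∉ J ∧ 0 < corD D s k := by
  have hsn := hs.1
  by_contra hcon
  apply hnJ
  refine ⟨hsn, fun i hi hiJ => ?_⟩
  by_contra hne
  apply hcon
  have h0 : 0 ≤ corD D s i := (cor_sign7 hD s i hsn hi).2 (((pos_iff7 hD s hsn).1).mp hs)
  exact ⟨i, hi, hiJ, lt_of_le_of_ne h0 (Ne.symm hne)⟩

theorem x_conj_UJ (hD : Seven D) (J : Set ℕ) (r : ℕ) (hr : D.IsPosRoot r ∨ D.InRootSub J r)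
    (t : F) : ∀ u ∈ D.unipotentRadical F J,
      xG hD r t * u * (xG hD r t)⁻¹ ∈ D.unipotentRadical F J := by
  have hrn : r < D.nroots := hr.elim (fun h => h.1) (fun h => h.1)
  intro u hu
  refine conj_closure_le _ _ _ ?_ u hu
  rintro x ⟨s, c, hpos, hnJ, hx⟩
  rw [eq_xG hD x s c hx]
  have hsn := hpos.1
  have hs2 : D.nroots / 2 ≤ s := ((pos_iff7 hD s hsn).1).mp hpos
  obtain ⟨k, hk, hkJ, hkp⟩ := notJ_pos hD hpos hnJ
  have hrk : 0 ≤ corD D r k := by
    rcases hr with h | h
    · exact (cor_sign7 hD r k hrn hk).2 (((pos_iff7 hD r hrn).1).mp h)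
    · exact le_of_eq (h.2 k hk hkJ).symm
  have hself : xG hD s c ∈ D.unipotentRadical F J :=
    Subgroup.subset_closure ⟨s, c, hpos, hnJ, xG_val hD s c⟩
  by_cases hsr : s = r
  · subst hsr
    have e : xG hD s t * xG hD s c * (xG hD s t)⁻¹ = xG hD s c := by
      rw [xG_inv, xG_mul, xG_mul]; congr 1; ring
    rw [e]; exact hself
  · have hsn' : s ≠ D.neg r := by
      intro he
      have h1 := cor_neg7 hD r k hrn hk
      rw [← he] at h1
      omega
    rw [xG_conj_x hD r s hrn hsn hsr hsn' t c]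
    refine mul_mem hself ?_
    unfold wG
    apply Subgroup.list_prod_mem
    intro y hy
    rw [List.mem_map] at hy
    obtain ⟨p, hp, rfl⟩ := hy
    unfold ChevalleyDatum.commWord at hp
    rw [List.mem_map] at hp
    obtain ⟨c', hc', rfl⟩ := hp
    obtain ⟨h3, h4⟩ := cor_comm7 hD r s hrn hsn hs2 hsr hsn' c' hc'
    have h5 := h4 k hk hkp hrk
    have hc'pos : D.IsPosRoot c'.1 := by
      apply ((pos_iff7 hD c'.1 h3).1).mpr
      by_contra hlt
      have := (cor_sign7 hD c'.1 k h3 hk).1 (by omega)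
      omega
    have hc'J : ¬ D.InRootSub J c'.1 := by
      intro h
      have := h.2 k hk hkJ
      have h6 : corD D c'.1 k = 0 := this
      omega
    exact Subgroup.subset_closure ⟨c'.1, _, hc'pos, hc'J, xG_val hD _ _⟩

theorem par_le_normalizer_UJ (hD : Seven D) (J : Set ℕ) :
    D.parabolicSubgroup F J ≤
      Subgroup.normalizer (D.unipotentRadical F J : Set (GL D.Idx F)) := by
  rw [par_eq hD J]
  apply sup_le
  · intro h hh
    have key : ∀ h' ∈ D.diagonalSubgroup F, ∀ u ∈ D.unipotentRadical F J,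
        h' * u * h'⁻¹ ∈ D.unipotentRadical F J := by
      intro h' hh' u hu
      refine conj_closure_le _ _ _ ?_ u hu
      rintro x ⟨s, c, hpos, hnJ, hx⟩
      rw [eq_xG hD x s c hx]
      obtain ⟨_, c', _, hc'⟩ := NConj.of_H hD hh' s hpos.1
      rw [hc']
      exact Subgroup.subset_closure ⟨s, c' * c, hpos, hnJ, xG_val hD s _⟩
    refine mem_normalizer_of_conj _ _ (key h hh) (fun u hu => ?_)
    have h1 := key h⁻¹ (inv_mem hh) u hu
    rwa [inv_inv] at h1
  · rw [Subgroup.closure_le]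
    rintro g ⟨r, t, hr, hg⟩
    rw [eq_xG hD g r t hg]
    refine mem_normalizer_of_conj _ _ (x_conj_UJ hD J r hr t) (fun u hu => ?_)
    have h1 := x_conj_UJ hD J r hr (-t) u hu
    rwa [← xG_inv, inv_inv] at h1

theorem levi_sup (hD : Seven D) (J : Set ℕ) :
    D.unipotentRadical F J ⊔ D.leviSubgroup F J = D.parabolicSubgroup F J := by
  rw [par_eq hD J]
  unfold ChevalleyDatum.leviSubgroup
  apply le_antisymm
  · apply sup_le
    · refine le_trans ?_ le_sup_right
      apply Subgroup.closure_mono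
      rintro g ⟨r, t, hp, _, hg⟩
      exact ⟨r, t, Or.inl hp, hg⟩
    · apply sup_le le_sup_left
      refine le_trans ?_ le_sup_right
      apply Subgroup.closure_mono
      rintro g ⟨r, t, hJ, hg⟩
      exact ⟨r, t, Or.inr hJ, hg⟩
  · apply sup_le
    · exact le_trans le_sup_left le_sup_right
    · rw [Subgroup.closure_le]
      rintro g ⟨r, t, hr, hg⟩
      by_cases hJ : D.InRootSub J r
      · exact Subgroup.mem_sup_right (Subgroup.mem_sup_right
          (Subgroup.subset_closure ⟨r, t, hJ, hg⟩))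
      · rcases hr with hp | hJ'
        · exact Subgroup.mem_sup_left (Subgroup.subset_closure ⟨r, t, hp, hJ, hg⟩)
        · exact absurd hJ' hJ

theorem UJ_UForm (hD : Seven D) {Lt : ℕ → ℤ} (hG : gradOK D Lt = true) (J : Set ℕ) :
    ∀ g ∈ D.unipotentRadical F J, UForm D Lt J (g : Matrix D.Idx D.Idx F) := by
  unfold ChevalleyDatum.unipotentRadical
  apply closure_induction_inv (p := fun g : GL D.Idx F => UForm D Lt J (g : Matrix D.Idx D.Idx F))
  · rintro x ⟨r, t, hpos, hnJ, hx⟩
    refine ⟨r, -t, hpos, hnJ, ?_⟩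
    rw [eq_xG hD x r t hx, xG_inv, xG_val]
  · exact UForm.one
  · rintro x ⟨r, t, hpos, hnJ, hx⟩
    obtain ⟨k, hk, hkJ, hkp⟩ := notJ_pos hD hpos hnJ
    have hrn := hpos.1
    show UForm D Lt J (x : Matrix D.Idx D.Idx F)
    rw [hx]
    exact x_UForm (tabOK_seven D hD) hG r hrn
      (fun k' hk' => (cor_sign7 hD r k' hrn hk').2 (((pos_iff7 hD r hrn).1).mp hpos)) k hk hkJ hkp t
  · intro a b ha hb
    show UForm D Lt J ((a * b : GL D.Idx F) : Matrix D.Idx D.Idx F)
    rw [Units.val_mul]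
    exact ha.mul hb

theorem LJ_LForm (hD : Seven D) {Lt : ℕ → ℤ} (hG : gradOK D Lt = true) (J : Set ℕ) :
    ∀ g ∈ D.leviSubgroup F J, LForm D Lt J (g : Matrix D.Idx D.Idx F) := by
  have e : D.leviSubgroup F J = Subgroup.closure ((D.diagonalSubgroup F : Set (GL D.Idx F)) ∪
      {g : GL D.Idx F | ∃ (r : ℕ) (t : F), D.InRootSub J r ∧
        (g : Matrix D.Idx D.Idx F) = D.x F r t}) := by
    unfold ChevalleyDatum.leviSubgroup
    rw [Subgroup.closure_union, Subgroup.closure_eq]
  rw [e]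
  apply closure_induction_inv (p := fun g : GL D.Idx F => LForm D Lt J (g : Matrix D.Idx D.Idx F))
  · rintro x (hx | ⟨r, t, hJ, hx⟩)
    · exact Or.inl (inv_mem hx)
    · refine Or.inr ⟨r, -t, hJ, ?_⟩
      rw [eq_xG hD x r t hx, xG_inv, xG_val]
  · exact LForm.one
  · rintro x (hx | ⟨r, t, hJ, hx⟩)
    · intro a b hab
      by_cases h : a = b
      · rw [h]; exact JEQ.refl b
      · exact absurd (H_le_diag hD hx a b h) hab
    · show LForm D Lt J (x : Matrix D.Idx D.Idx F)
      rw [hx]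
      exact x_LForm (tabOK_seven D hD) hG r hJ.1 (fun k hk hkJ => hJ.2 k hk hkJ) t
  · intro a b ha hb
    show LForm D Lt J ((a * b : GL D.Idx F) : Matrix D.Idx D.Idx F)
    rw [Units.val_mul]
    exact ha.mul hb

theorem UJ_inf_LJ (hD : Seven D) (J : Set ℕ) :
    D.unipotentRadical F J ⊓ D.leviSubgroup F J = ⊥ := by
  obtain ⟨Lt, hG⟩ := gradOK_seven D hD
  rw [eq_bot_iff]
  rintro g ⟨hgU, hgL⟩
  have hU := UJ_UForm hD hG J g hgU
  have hL := LJ_LForm hD hG J g hgL
  rw [Subgroup.mem_bot]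
  apply Units.ext
  ext a b
  rw [Units.val_one]
  by_cases hab : a = b
  · rw [hab, Matrix.one_apply_eq]; exact hU.1 b
  · rw [Matrix.one_apply_ne hab]
    by_contra hne
    obtain ⟨_, k, hk, hkJ, hlt⟩ := (hU.2 a b hne).resolve_left hab
    have h1 := hL a b hne k hk hkJ
    rw [h1] at hlt
    exact lt_irrefl _ hlt

theorem normalizer_UJ (hD : Seven D) (J : Set ℕ) :
    Subgroup.normalizer (D.unipotentRadical F J : Set (GL D.Idx F)) ⊓ D.group F =
      D.parabolicSubgroup F J := by
  have hPG : D.parabolicSubgroup F J ≤ D.group F := by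
    unfold ChevalleyDatum.parabolicSubgroup
    apply sup_le (B_le_group hD)
    rw [Subgroup.closure_le]
    rintro g ⟨j, _, _, hg⟩
    exact mem_group_of_val_word hD g (D.nWord (D.simple j) 1) hg
  apply le_antisymm
  · rintro g ⟨hgN, hgG⟩
    obtain ⟨P, hPB, hPN, hPS⟩ := chev_BN_exists (F := F) hD
    obtain ⟨M, hMdef⟩ : ∃ M : Subgroup ↥(D.group F), M =
        (Subgroup.normalizer (D.unipotentRadical F J : Set (GL D.Idx F))).subgroupOf (D.group F) :=
      ⟨_, rfl⟩
    have hBM : P.B ≤ M := by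
      rw [hPB, hMdef]
      intro x hx
      rw [Subgroup.mem_subgroupOf] at hx ⊢
      exact par_le_normalizer_UJ hD J (B_le_par J hx)
    have hM := Cfsg.Agent.Helper2.BN.eq_parabolic_of_B_le P M hBM
    have hgM : (⟨g, hgG⟩ : ↥(D.group F)) ∈ M := by
      rw [hMdef, Subgroup.mem_subgroupOf]; exact hgN
    have hle : P.parabolic (P.S ∩ (M : Set ↥(D.group F))) ≤
        (D.parabolicSubgroup F J).subgroupOf (D.group F) := by
      apply Cfsg.Agent.Helper2.BN.parabolic_le P
      · rw [hPB]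
        intro x hx
        rw [Subgroup.mem_subgroupOf] at hx ⊢
        exact B_le_par J hx
      · rintro s ⟨hsS, hsM⟩
        rw [hPS] at hsS
        obtain ⟨i, hi, hs⟩ := hsS
        have hsn : (s : GL D.Idx F) = nG hD (D.simple i) 1 :=
          Units.ext (by rw [hs]; exact (nG_val hD _ _).symm)
        have hnorm : nG hD (D.simple i) (1 : F) ∈
            Subgroup.normalizer (D.unipotentRadical F J : Set (GL D.Idx F)) := by
          rw [← hsn]
          have hsM' : s ∈ M := hsM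
          rw [hMdef] at hsM'
          exact Subgroup.mem_subgroupOf.mp hsM'
        have hiJ : i ∈ J := by
          by_contra hiJ
          have hp := simple_lt7 hD i hi
          have hpos := simple_pos7 hD i hi
          have hnotJ : ¬ D.InRootSub J (D.simple i) := by
            intro h
            have h1 : corD D (D.simple i) i = 0 := h.2 i hi hiJ
            have h2 := cor_simple7 hD i hi
            omega
          have hx : xG hD (D.simple i) (1 : F) ∈ D.unipotentRadical F J :=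
            Subgroup.subset_closure ⟨_, 1, hpos, hnotJ, xG_val hD _ _⟩
          have hc := (Subgroup.mem_normalizer_iff.mp hnorm _).mp hx
          obtain ⟨h1, ε, hε, hconj⟩ := ConjTo.simple (F := F) hD i hi (D.simple i) hp
          rw [hconj, wAt_eq7 hD i hi _ hp, reflect_self] at hc
          have hnp := neg_lt7 hD _ hp
          have hneg : D.IsNegRoot (D.neg (D.simple i)) := by
            apply ((pos_iff7 hD _ hnp).2).mpr
            have h2 := ((pos_iff7 hD _ hp).1).mp hpos
            have h3 := neg_eq7 hD _ hp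
            have h4 := nroots_even7 hD
            omega
          have hV := xG_mem_negU hD _ hneg (ε * 1)
          have hU := UJ_le_posU J hc
          have hbot : xG hD (D.neg (D.simple i)) (ε * 1) ∈
              D.borelSubgroup F ⊓ D.negUnipotent F := ⟨Subgroup.mem_sup_left hU, hV⟩
          rw [B_inf_negU hD, Subgroup.mem_bot] at hbot
          have h3 : D.x F (D.neg (D.simple i)) (ε * 1) = 1 := by
            rw [← xG_val hD, hbot]; rfl
          have h4 := (x_eq_one_iff7 hD _ hnp _).mp h3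
          rw [mul_one] at h4
          rw [h4, mul_zero] at hε
          exact zero_ne_one hε
        show s ∈ (D.parabolicSubgroup F J).subgroupOf (D.group F)
        rw [Subgroup.mem_subgroupOf]
        exact Subgroup.mem_sup_right (Subgroup.subset_closure ⟨i, hiJ, hi, hs⟩)
    rw [hM] at hgM
    exact Subgroup.mem_subgroupOf.mp (hle hgM)
  · exact le_inf (par_le_normalizer_UJ hD J) hPG

end LeviGrp

end Cfsg.Agent.Helper11
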