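import Cfsg.Agent.Helper11.ChevLevi

set_option autoImplicit false

/-! Kernel checks of the Levi tables for the seven tabulated data. -/

namespace Cfsg.Agent.Helper11

open Cfsg.Lie

set_option maxRecDepth 100000
set_option maxHeartbeats 0
set_option Elab.async false

/-- Lookup in a list of integers (default `1`). -/
noncomputable def nthZ (l : List ℤ) : ℕ → ℤ :=
  @List.rec ℤ (fun _ => ℕ → ℤ) (fun _ => 1)
    (fun x _ ih n => @Nat.rec (fun _ => ℤ) x (fun m _ => ih m) n) l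

theorem leviOK_G2 : leviOK chevG2 = true := by decide +kernel
theorem leviOK_B2 : leviOK chevB2 = true := by decide +kernel
theorem leviOK_D4 : leviOK chevD4 = true := by decide +kernel
theorem leviOK_F4 : leviOK chevF4 = true := by decide +kernel
theorem leviOK_E6 : leviOK chevE6 = true := by decide +kernel

theorem gradOK_G2 : gradOK chevG2 (nthZ [3, 3, 1, 1, 1, 3, 3, 1, 1, 1, 3, 3]) = true := by
  decide +kernel
theorem gradOK_B2 : gradOK chevB2 (nthZ [2, 1, 1, 2, 2, 1, 1, 2]) = true := by decide +kernel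
theorem gradOK_D4 : gradOK chevD4 (fun _ => 1) = true := by decide +kernel
theorem gradOK_F4 : gradOK chevF4 (nthZ [2, 2, 2, 1, 2, 2, 2, 1, 1, 1, 1, 1, 1, 1, 1, 2, 2, 2, 1, 1,
    1, 2, 2, 2, 2, 2, 2, 1, 1, 1, 2, 2, 2, 1, 1, 1, 1, 1, 1, 1, 1, 2, 2, 2, 1, 2, 2, 2]) = true := by
  decide +kernel
theorem gradOK_E6 : gradOK chevE6 (fun _ => 1) = true := by decide +kernel
theorem leviOK_E7 : leviOK chevE7 = true := by decide +kernel
theorem gradOK_E7 : gradOK chevE7 (fun _ => 1) = true := by decide +kernel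
theorem leviOK_E8 : leviOK chevE8 = true := by decide +kernel
theorem gradOK_E8 : gradOK chevE8 (fun _ => 1) = true := by decide +kernel

theorem leviOK_seven (D : ChevalleyDatum)
    (hD : D ∈ [chevG2, chevB2, chevD4, chevF4, chevE6, chevE7, chevE8]) : leviOK D = true :=
  forall_seven (P := fun D => leviOK D = true) leviOK_G2 leviOK_B2 leviOK_D4 leviOK_F4 leviOK_E6
    leviOK_E7 leviOK_E8 D hD

theorem gradOK_seven (D : ChevalleyDatum)
    (hD : D ∈ [chevG2, chevB2, chevD4, chevF4, chevE6, chevE7, chevE8]) :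
    ∃ Lt : ℕ → ℤ, gradOK D Lt = true :=
  forall_seven (P := fun D => ∃ Lt : ℕ → ℤ, gradOK D Lt = true) ⟨_, gradOK_G2⟩ ⟨_, gradOK_B2⟩
    ⟨_, gradOK_D4⟩ ⟨_, gradOK_F4⟩ ⟨_, gradOK_E6⟩ ⟨_, gradOK_E7⟩ ⟨_, gradOK_E8⟩ D hD

end Cfsg.Agent.Helper11
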