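import Cfsg.Agent.Helper11.ChevCox2
import Cfsg.Agent.Helper11.ChevCanon

set_option autoImplicit false

/-!
The order of a Chevalley group over a finite field, I: `|G| = |U| |H| ∑_{w ∈ N/H} q^{ℓ(w)}`, from the
canonical form `g = b n u` of its elements (`b ∈ B`, `n` a representative of `w`, `u ∈ U_w⁻`).
-/

namespace Cfsg.Agent.Helper11

open Cfsg.Lie

section GenCount
variable {G : Type*} [Group G]

theorem prod_inj_of_inf (A C : Subgroup G) (h : A ⊓ C = ⊥) (a a' c c' : G) (ha : a ∈ A)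
    (ha' : a' ∈ A) (hc : c ∈ C) (hc' : c' ∈ C) (e : a * c = a' * c') : a = a' ∧ c = c' := by
  have h1 : a'⁻¹ * a = c' * c⁻¹ := by
    rw [eq_mul_inv_iff_mul_eq, mul_assoc, e, ← mul_assoc, inv_mul_cancel, one_mul]
  have h2 : a'⁻¹ * a ∈ A ⊓ C :=
    Subgroup.mem_inf.mpr ⟨mul_mem (inv_mem ha') ha, by rw [h1]; exact mul_mem hc' (inv_mem hc)⟩
  rw [h, Subgroup.mem_bot] at h2
  have h3 : c' * c⁻¹ = 1 := by rw [← h1]; exact h2
  exact ⟨(inv_mul_eq_one.mp h2).symm, (mul_inv_eq_one.mp h3).symm⟩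

theorem card_mul_le [Finite G] (A C U : Subgroup G) (hA : A ≤ U) (hC : C ≤ U) (h : A ⊓ C = ⊥) :
    Nat.card ↥A * Nat.card ↥C ≤ Nat.card ↥U := by
  rw [← Nat.card_prod]
  apply Nat.card_le_card_of_injective
    (fun p : ↥A × ↥C => (⟨p.1.1 * p.2.1, mul_mem (hA p.1.2) (hC p.2.2)⟩ : ↥U))
  rintro ⟨a, c⟩ ⟨a', c'⟩ heq
  have e : a.1 * c.1 = a'.1 * c'.1 := congrArg Subtype.val heq
  obtain ⟨h1, h2⟩ := prod_inj_of_inf A C h a.1 a'.1 c.1 c'.1 a.2 a'.2 c.2 c'.2 e
  exact Prod.ext (Subtype.ext h1) (Subtype.ext h2)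

theorem card_eq_mul (A C U : Subgroup G) (hA : A ≤ U) (hC : C ≤ U) (h : A ⊓ C = ⊥)
    (hs : ∀ g ∈ U, ∃ a ∈ A, ∃ c ∈ C, g = a * c) :
    Nat.card ↥U = Nat.card ↥A * Nat.card ↥C := by
  rw [← Nat.card_prod]
  symm
  apply Nat.card_congr
  refine Equiv.ofBijective
    (fun p : ↥A × ↥C => (⟨p.1.1 * p.2.1, mul_mem (hA p.1.2) (hC p.2.2)⟩ : ↥U)) ⟨?_, ?_⟩
  · rintro ⟨a, c⟩ ⟨a', c'⟩ heq
    have e : a.1 * c.1 = a'.1 * c'.1 := congrArg Subtype.val heq
    obtain ⟨h1, h2⟩ := prod_inj_of_inf A C h a.1 a'.1 c.1 c'.1 a.2 a'.2 c.2 c'.2 e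
    exact Prod.ext (Subtype.ext h1) (Subtype.ext h2)
  · rintro ⟨g, hg⟩
    obtain ⟨a, ha, c, hc, rfl⟩ := hs g hg
    exact ⟨(⟨a, ha⟩, ⟨c, hc⟩), rfl⟩

end GenCount

theorem eq_of_mul_le {x y A B : ℕ} (h1 : A ≤ x) (h2 : B ≤ y) (hB : 0 < B) (h : x * y ≤ A * B) :
    x = A := by
  by_contra hne
  have h3 : A < x := lt_of_le_of_ne h1 (Ne.symm hne)
  have h4 : A * B < x * B := mul_lt_mul_of_pos_right h3 hB
  have h5 : x * B ≤ x * y := Nat.mul_le_mul_left x h2
  omega

/-- Extension by zero of a family indexed by a finite set of indices. -/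
def extZ {F : Type*} [Zero F] (S : Finset ℕ) (τ : ↥S → F) (r : ℕ) : F :=
  if h : r ∈ S then τ ⟨r, h⟩ else 0

theorem extZ_mem {F : Type*} [Zero F] (S : Finset ℕ) (τ : ↥S → F) {r : ℕ} (h : r ∈ S) :
    extZ S τ r = τ ⟨r, h⟩ := dif_pos h

theorem extZ_not_mem {F : Type*} [Zero F] (S : Finset ℕ) (τ : ↥S → F) {r : ℕ} (h : r ∉ S) :
    extZ S τ r = 0 := dif_neg h

section Ord1
variable {F : Type*} [Field F] {D : ChevalleyDatum}

/-- The positive roots, as a finite set of indices. -/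
def posR (D : ChevalleyDatum) : Finset ℕ :=
  (Finset.range D.nroots).filter (fun r => D.nroots / 2 ≤ r)

theorem mem_posR (D : ChevalleyDatum) (r : ℕ) : r ∈ posR D ↔ r < D.nroots ∧ D.nroots / 2 ≤ r := by
  unfold posR
  rw [Finset.mem_filter, Finset.mem_range]

theorem posR_card (hD : Seven D) : (posR D).card = D.nroots / 2 := by
  have hev := nroots_even7 hD
  have e : posR D = Finset.Ico (D.nroots / 2) D.nroots := by
    ext r
    rw [mem_posR, Finset.mem_Ico]
    exact ⟨fun h => ⟨h.2, h.1⟩, fun h => ⟨h.2, h.1⟩⟩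
  rw [e, Nat.card_Ico]
  omega

/-- The subgroup generated by the positive root elements whose root satisfies `Ψ`. -/
def UPsi (hD : Seven D) (Ψ : ℕ → Prop) : Subgroup (GL D.Idx F) :=
  Subgroup.closure {g : GL D.Idx F | ∃ (r : ℕ) (t : F), D.IsPosRoot r ∧ Ψ r ∧ g = xG hD r t}

theorem UPsi_le_posU (hD : Seven D) (Ψ : ℕ → Prop) : UPsi (F := F) hD Ψ ≤ D.posUnipotent F := by
  unfold UPsi
  rw [Subgroup.closure_le]
  rintro g ⟨r, t, hpos, _, rfl⟩
  exact xG_mem_posU hD r hpos t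

theorem UPsi_true (hD : Seven D) : UPsi (F := F) hD (fun _ => True) = D.posUnipotent F := by
  apply le_antisymm (UPsi_le_posU hD _)
  unfold ChevalleyDatum.posUnipotent UPsi
  rw [Subgroup.closure_le]
  rintro g ⟨r, t, hp, hg⟩
  exact Subgroup.subset_closure ⟨r, t, hp, trivial, eq_xG hD g r t hg⟩

theorem wG_ordWord_mem_UPsi (hD : Seven D) (Ψ : ℕ → Prop) (τ : ℕ → F) (m j : ℕ)
    (hm : D.nroots / 2 ≤ m) (hmj : m + j ≤ D.nroots) (hτ : ∀ r, ¬ Ψ r → τ r = 0) :
    wG hD (ordWord τ m j) ∈ UPsi (F := F) hD Ψ := by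
  unfold wG ordWord UPsi
  apply Subgroup.list_prod_mem
  intro y hy
  rw [List.mem_map] at hy
  obtain ⟨p, hp, rfl⟩ := hy
  rw [List.mem_map] at hp
  obtain ⟨r, hr, rfl⟩ := hp
  rw [List.mem_range'_1] at hr
  by_cases h : Ψ r
  · exact Subgroup.subset_closure
      ⟨r, τ r, ((pos_iff7 hD r (by omega)).1).mpr (by omega), h, rfl⟩
  · show xG hD r (τ r) ∈ _
    rw [hτ r h, xG_zero]
    exact one_mem _

theorem card_UPsi_ge (hD : Seven D) [Fintype F] (Ψ : ℕ → Prop) [DecidablePred Ψ] :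
    Fintype.card F ^ ((posR D).filter Ψ).card ≤ Nat.card ↥(UPsi (F := F) hD Ψ) := by
  have hev := nroots_even7 hD
  have hext : ∀ (τ : ↥((posR D).filter Ψ) → F) (r : ℕ), ¬ Ψ r →
      extZ ((posR D).filter Ψ) τ r = 0 := by
    intro τ r h
    exact extZ_not_mem _ _ (fun hr => h (Finset.mem_filter.mp hr).2)
  have hφ : Function.Injective (fun τ : ↥((posR D).filter Ψ) → F =>
      (⟨wG hD (ordWord (extZ ((posR D).filter Ψ) τ) (D.nroots / 2) (D.nroots / 2)),
        wG_ordWord_mem_UPsi hD Ψ _ _ _ le_rfl (by omega) (hext τ)⟩ :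
          ↥(UPsi (F := F) hD Ψ))) := by
    intro τ τ' h
    have h1 : wG hD (ordWord (extZ ((posR D).filter Ψ) τ) (D.nroots / 2) (D.nroots / 2)) =
        wG hD (ordWord (extZ ((posR D).filter Ψ) τ') (D.nroots / 2) (D.nroots / 2)) :=
      congrArg Subtype.val h
    have h2 := ordWord_unique hD (D.nroots / 2) (D.nroots / 2) (by omega) le_rfl _ _ h1
    funext ⟨r, hr⟩
    have hr' := (mem_posR D r).mp (Finset.mem_filter.mp hr).1
    have h3 := h2 r hr'.2 hr'.1
    rw [extZ_mem _ _ hr, extZ_mem _ _ hr] at h3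
    exact h3
  have h4 := Nat.card_le_card_of_injective _ hφ
  rw [Nat.card_fun, Nat.card_eq_fintype_card (α := F),
    Nat.card_eq_fintype_card (α := ↥((posR D).filter Ψ)), Fintype.card_coe] at h4
  exact h4

theorem card_posU (hD : Seven D) [Fintype F] :
    Nat.card ↥(D.posUnipotent F) = Fintype.card F ^ (D.nroots / 2) := by
  have hev := nroots_even7 hD
  apply le_antisymm
  · have hψ : Function.Surjective (fun τ : ↥(posR D) → F =>
        (⟨wG hD (ordWord (extZ (posR D) τ) (D.nroots / 2) (D.nroots / 2)), by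
          rw [posU_eq_Uge hD]; exact ordWord_mem hD _ _ _ (by omega)⟩ :
            ↥(D.posUnipotent F))) := by
      rintro ⟨g, hg⟩
      have hg' := hg
      rw [posU_eq_Uge hD] at hg'
      obtain ⟨τ₀, rfl⟩ := Uge_ordered hD (D.nroots / 2) (D.nroots / 2) (by omega) le_rfl g hg'
      have e : ordWord (extZ (posR D) (fun r : ↥(posR D) => τ₀ r.1)) (D.nroots / 2)
          (D.nroots / 2) = ordWord τ₀ (D.nroots / 2) (D.nroots / 2) :=
        ordWord_congr _ _ _ _
          (fun r h1 h2 => extZ_mem _ _ ((mem_posR D r).mpr ⟨by omega, h1⟩))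
      exact ⟨fun r => τ₀ r.1, Subtype.ext (congrArg (wG hD) e)⟩
    have h4 := Nat.card_le_card_of_surjective _ hψ
    rw [Nat.card_fun, Nat.card_eq_fintype_card (α := F),
      Nat.card_eq_fintype_card (α := ↥(posR D)), Fintype.card_coe, posR_card hD] at h4
    exact h4
  · have h := card_UPsi_ge (F := F) hD (fun _ => True)
    rw [Finset.filter_true_of_mem (fun _ _ => trivial), posR_card hD, UPsi_true hD] at h
    exact h

theorem card_UPsi_eq (hD : Seven D) [Fintype F] (Ψ : ℕ → Prop) [DecidablePred Ψ]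
    (hint : UPsi (F := F) hD Ψ ⊓ UPsi hD (fun r => ¬ Ψ r) = ⊥) :
    Nat.card ↥(UPsi (F := F) hD Ψ) = Fintype.card F ^ ((posR D).filter Ψ).card := by
  have h1 := card_UPsi_ge (F := F) hD Ψ
  have h2 := card_UPsi_ge (F := F) hD (fun r => ¬ Ψ r)
  have h3 := card_mul_le _ _ (D.posUnipotent F) (UPsi_le_posU hD Ψ) (UPsi_le_posU hD _) hint
  rw [card_posU hD, ← posR_card hD, ← Finset.card_filter_add_card_filter_not (s := posR D) Ψ,
    pow_add] at h3
  have hq : 0 < Fintype.card F ^ ((posR D).filter (fun r => ¬ Ψ r)).card :=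
    pow_pos Fintype.card_pos _
  exact eq_of_mul_le h1 h2 hq h3

/-- Conjugation by `n ∈ N` permutes the root subgroups as its image in `N/H` permutes the roots. -/
theorem N_conj_act (hD : Seven D) (n : ↥(D.monomialSubgroup F)) :
    NConj hD (n : GL D.Idx F)
      (actW hD (QuotientGroup.mk n : ↥(D.monomialSubgroup F) ⧸ HN D F)) := by
  obtain ⟨ω, hω⟩ := exists_word hD (QuotientGroup.mk n : ↥(D.monomialSubgroup F) ⧸ HN D F)
  have h1 : (wordN (F := F) hD (ω.map Fin.val))⁻¹ * (n : GL D.Idx F) ∈ D.diagonalSubgroup F := by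
    have h0 := hω
    rw [QuotientGroup.eq, Subgroup.mem_subgroupOf] at h0
    exact h0
  have hA := NConj.of_H hD h1
  have hB := (wordN_conj (F := F) hD (ω.map Fin.val) (vals_lt ω)).toNConj hD
  have h2 := NConj.comp hD hA hB
  have e : wordN (F := F) hD (ω.map Fin.val) *
      ((wordN (F := F) hD (ω.map Fin.val))⁻¹ * (n : GL D.Idx F)) = n := by
    rw [mul_inv_cancel_left]
  rw [e] at h2
  intro s hs
  have h3 := actW_mk (F := F) hD ω s hs
  rw [hω] at h3
  rw [h3]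
  exact h2 s hs

theorem conj_UPsi_neg (hD : Seven D) (n : ↥(D.monomialSubgroup F)) :
    ∀ g ∈ UPsi (F := F) hD (fun r =>
        actW hD (QuotientGroup.mk n : ↥(D.monomialSubgroup F) ⧸ HN D F) r < D.nroots / 2),
      (n : GL D.Idx F) * g * (n : GL D.Idx F)⁻¹ ∈ D.negUnipotent F := by
  intro g hg
  refine conj_closure_le _ _ _ ?_ g hg
  rintro x ⟨r, t, hpos, hΨ, rfl⟩
  obtain ⟨h1, c, hc0, hc⟩ := N_conj_act hD n r hpos.1
  rw [hc]
  exact xG_mem_negU hD _ (((pos_iff7 hD _ h1).2).mpr hΨ) _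

theorem conj_UPsi_pos (hD : Seven D) (n : ↥(D.monomialSubgroup F)) :
    ∀ g ∈ UPsi (F := F) hD (fun r =>
        ¬ (actW hD (QuotientGroup.mk n : ↥(D.monomialSubgroup F) ⧸ HN D F) r < D.nroots / 2)),
      (n : GL D.Idx F) * g * (n : GL D.Idx F)⁻¹ ∈ D.posUnipotent F := by
  intro g hg
  refine conj_closure_le _ _ _ ?_ g hg
  rintro x ⟨r, t, hpos, hΨ, rfl⟩
  obtain ⟨h1, c, hc0, hc⟩ := N_conj_act hD n r hpos.1
  rw [hc]
  exact xG_mem_posU hD _ (((pos_iff7 hD _ h1).1).mpr (by omega)) _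

theorem UPsi_inf (hD : Seven D) (n : ↥(D.monomialSubgroup F)) :
    UPsi (F := F) hD (fun r =>
        actW hD (QuotientGroup.mk n : ↥(D.monomialSubgroup F) ⧸ HN D F) r < D.nroots / 2) ⊓
      UPsi hD (fun r =>
        ¬ (actW hD (QuotientGroup.mk n : ↥(D.monomialSubgroup F) ⧸ HN D F) r < D.nroots / 2)) =
      ⊥ := by
  rw [eq_bot_iff]
  rintro g ⟨h1, h2⟩
  have h3 := conj_UPsi_neg hD n g h1
  have h4 := conj_UPsi_pos hD n g h2
  have h5 : (n : GL D.Idx F) * g * (n : GL D.Idx F)⁻¹ ∈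
      D.borelSubgroup F ⊓ D.negUnipotent F := ⟨Subgroup.mem_sup_left h4, h3⟩
  rw [B_inf_negU hD, Subgroup.mem_bot] at h5
  rw [Subgroup.mem_bot]
  have e : g = (n : GL D.Idx F)⁻¹ * ((n : GL D.Idx F) * g * (n : GL D.Idx F)⁻¹) *
      (n : GL D.Idx F) := by group
  rw [e, h5]; group

/-- The length of an element of `N/H`: the number of positive roots it makes negative. -/
noncomputable def ell (hD : Seven D) (w : ↥(D.monomialSubgroup F) ⧸ HN D F) : ℕ :=
  ((posR D).filter (fun r => actW hD w r < D.nroots / 2)).card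

theorem card_UPsi_act (hD : Seven D) [Fintype F] (w : ↥(D.monomialSubgroup F) ⧸ HN D F) :
    Nat.card ↥(UPsi (F := F) hD (fun r => actW hD w r < D.nroots / 2)) =
      Fintype.card F ^ ell hD w := by
  obtain ⟨n, rfl⟩ := QuotientGroup.mk_surjective w
  exact card_UPsi_eq hD _ (UPsi_inf hD n)

theorem canonU_eq (hD : Seven D) (n : ↥(D.monomialSubgroup F)) :
    Subgroup.closure {x : GL D.Idx F | ∃ (r : ℕ) (t : F), D.IsPosRoot r ∧
        (D.rootSubgroup F r).map (MulAut.conj (n : GL D.Idx F)).toMonoidHom ≤ D.negUnipotent F ∧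
        (x : Matrix D.Idx D.Idx F) = D.x F r t} =
      UPsi hD (fun r =>
        actW hD (QuotientGroup.mk n : ↥(D.monomialSubgroup F) ⧸ HN D F) r < D.nroots / 2) := by
  unfold UPsi
  congr 1
  ext x
  constructor
  · rintro ⟨r, t, hpos, hmap, hx⟩
    refine ⟨r, t, hpos, ?_, eq_xG hD x r t hx⟩
    obtain ⟨h1, c, hc0, hc⟩ := N_conj_act hD n r hpos.1
    by_contra hge
    have h2 : (n : GL D.Idx F) * xG hD r 1 * (n : GL D.Idx F)⁻¹ ∈ D.negUnipotent F :=
      hmap ⟨xG hD r 1, xG_mem_rootSubgroup hD r 1, rfl⟩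
    rw [hc] at h2
    have h3 : xG hD (actW hD (QuotientGroup.mk n : ↥(D.monomialSubgroup F) ⧸ HN D F) r) (c * 1) ∈
        D.borelSubgroup F ⊓ D.negUnipotent F :=
      ⟨Subgroup.mem_sup_left (xG_mem_posU hD _ (((pos_iff7 hD _ h1).1).mpr (by omega)) _), h2⟩
    rw [B_inf_negU hD, Subgroup.mem_bot] at h3
    have h4 : D.x F (actW hD (QuotientGroup.mk n : ↥(D.monomialSubgroup F) ⧸ HN D F) r) (c * 1) =
        1 := by
      have h5 : ((xG hD (actW hD (QuotientGroup.mk n : ↥(D.monomialSubgroup F) ⧸ HN D F) r)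
          (c * 1) : GL D.Idx F) : Matrix D.Idx D.Idx F) = 1 := by
        rw [h3]; rfl
      exact h5
    have h6 := (x_eq_one_iff7 hD _ h1 _).mp h4
    rw [mul_one] at h6
    exact hc0 h6
  · rintro ⟨r, t, hpos, hΨ, rfl⟩
    refine ⟨r, t, hpos, ?_, rfl⟩
    obtain ⟨h1, c, hc0, hc⟩ := N_conj_act hD n r hpos.1
    rw [Subgroup.map_le_iff_le_comap]
    unfold ChevalleyDatum.rootSubgroup
    rw [Subgroup.closure_le]
    rintro y ⟨t', hy⟩
    rw [eq_xG hD y r t' hy]
    show (n : GL D.Idx F) * xG hD r t' * (n : GL D.Idx F)⁻¹ ∈ D.negUnipotent F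
    rw [hc]
    exact xG_mem_negU hD _ (((pos_iff7 hD _ h1).2).mpr hΨ) _

/-- `|G| = q^N |H| ∑_w q^{ℓ(w)}`. -/
theorem card_group_eq (hD : Seven D) [Fintype F] [Fintype (↥(D.monomialSubgroup F) ⧸ HN D F)] :
    Nat.card ↥(D.group F) = Fintype.card F ^ (D.nroots / 2) * Nat.card ↥(D.diagonalSubgroup F) *
      ∑ w : ↥(D.monomialSubgroup F) ⧸ HN D F, Fintype.card F ^ ell hD w := by
  have hB : Nat.card ↥(D.borelSubgroup F) =
      Fintype.card F ^ (D.nroots / 2) * Nat.card ↥(D.diagonalSubgroup F) := by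
    rw [← card_posU hD]
    exact card_eq_mul (D.posUnipotent F) (D.diagonalSubgroup F) (D.borelSubgroup F) le_sup_left
      le_sup_right (posU_inf_H hD)
      (mem_sup_of_normalizes (D.diagonalSubgroup F) (D.posUnipotent F)
        (fun a ha n hn => ((Subgroup.mem_normalizer_iff.mp (H_le_normalizer_posU hD ha)) n).mp hn))
  have hbij : Function.Bijective (fun p : (Σ w : ↥(D.monomialSubgroup F) ⧸ HN D F,
      ↥(D.borelSubgroup F) × ↥(UPsi (F := F) hD (fun r => actW hD w r < D.nroots / 2))) =>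
      (⟨p.2.1.1 * (p.1.out : GL D.Idx F) * p.2.2.1,
        mul_mem (mul_mem (B_le_group hD p.2.1.2) (N_le_group hD p.1.out.2))
          (B_le_group hD (Subgroup.mem_sup_left (UPsi_le_posU hD _ p.2.2.2)))⟩ :
            ↥(D.group F))) := by
    constructor
    · rintro ⟨w, b, u⟩ ⟨w', b', u'⟩ h
      have e : b.1 * (w.out : GL D.Idx F) * u.1 = b'.1 * (w'.out : GL D.Idx F) * u'.1 :=
        congrArg Subtype.val h
      have hu : u.1 ∈ Subgroup.closure {x : GL D.Idx F | ∃ (r : ℕ) (t : F), D.IsPosRoot r ∧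
          (D.rootSubgroup F r).map (MulAut.conj (w.out : GL D.Idx F)).toMonoidHom ≤
            D.negUnipotent F ∧ (x : Matrix D.Idx D.Idx F) = D.x F r t} := by
        rw [canonU_eq hD w.out, QuotientGroup.out_eq']
        exact u.2
      have hu' : u'.1 ∈ Subgroup.closure {x : GL D.Idx F | ∃ (r : ℕ) (t : F), D.IsPosRoot r ∧
          (D.rootSubgroup F r).map (MulAut.conj (w'.out : GL D.Idx F)).toMonoidHom ≤
            D.negUnipotent F ∧ (x : Matrix D.Idx D.Idx F) = D.x F r t} := by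
        rw [canonU_eq hD w'.out, QuotientGroup.out_eq']
        exact u'.2
      obtain ⟨h1, h2⟩ := canon_unique hD b.1 b'.1 w.out.1 w'.out.1 u.1 u'.1 b.2 b'.2 w.out.2
        w'.out.2 hu hu' e
      have hw : w = w' := by
        have h3 : (QuotientGroup.mk w.out : ↥(D.monomialSubgroup F) ⧸ HN D F) =
            QuotientGroup.mk w'.out := QuotientGroup.eq.mpr (Subgroup.mem_subgroupOf.mpr h1)
        rwa [QuotientGroup.out_eq', QuotientGroup.out_eq'] at h3
      subst hw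
      obtain ⟨h3, h4⟩ := h2 rfl
      have hb : b = b' := Subtype.ext h3
      have hu2 : u = u' := Subtype.ext h4
      rw [hb, hu2]
    · rintro ⟨g, hg⟩
      obtain ⟨b, hb, n, hn, u, hu, rfl⟩ := canon_exists hD g hg
      obtain ⟨w, hw⟩ : ∃ w : ↥(D.monomialSubgroup F) ⧸ HN D F,
        w = QuotientGroup.mk ⟨n, hn⟩ := ⟨_, rfl⟩
      have h1 : (w.out : GL D.Idx F)⁻¹ * n ∈ D.diagonalSubgroup F := by
        have h2 : (QuotientGroup.mk w.out : ↥(D.monomialSubgroup F) ⧸ HN D F) =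
            QuotientGroup.mk ⟨n, hn⟩ := (QuotientGroup.out_eq' w).trans hw
        rw [QuotientGroup.eq, Subgroup.mem_subgroupOf] at h2
        exact h2
      have h3 : n * (w.out : GL D.Idx F)⁻¹ ∈ D.diagonalSubgroup F := by
        have h4 := N_conj_H hD w.out.2 h1
        have e : (w.out : GL D.Idx F) * ((w.out : GL D.Idx F)⁻¹ * n) * (w.out : GL D.Idx F)⁻¹ =
            n * (w.out : GL D.Idx F)⁻¹ := by group
        rwa [e] at h4
      have hu2 : u ∈ UPsi (F := F) hD (fun r => actW hD w r < D.nroots / 2) := by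
        rw [hw, ← canonU_eq hD ⟨n, hn⟩]
        exact hu
      refine ⟨⟨w, ⟨b * (n * (w.out : GL D.Idx F)⁻¹), mul_mem hb (Subgroup.mem_sup_right h3)⟩,
        ⟨u, hu2⟩⟩, Subtype.ext ?_⟩
      show b * (n * (w.out : GL D.Idx F)⁻¹) * (w.out : GL D.Idx F) * u = b * n * u
      group
  have hcard := Nat.card_congr (Equiv.ofBijective _ hbij)
  rw [← hcard, Nat.card_sigma, Finset.mul_sum]
  apply Finset.sum_congr rfl
  intro w _
  rw [Nat.card_prod, hB, card_UPsi_act hD w]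

end Ord1

end Cfsg.Agent.Helper11
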