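import Cfsg.Agent.Helper11.ChevOrd1
import Cfsg.Agent.Helper11.ChevReflAll

set_option autoImplicit false

/-!
The order of a Chevalley group, II: the sum `∑_w q^{ℓ(w)}` over the Weyl group `N/H` factorises along a
chain of parabolic subgroups `W_J`, each step being given by a (kernel-checked) table of minimal coset
representatives.
-/

namespace Cfsg.Agent.Helper11

open Cfsg.Lie

section WAct
variable {F : Type*} [Field F] {D : ChevalleyDatum}

theorem actW_lt (hD : Seven D) (w : ↥(D.monomialSubgroup F) ⧸ HN D F) (s : ℕ)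
    (hs : s < D.nroots) : actW hD w s < D.nroots := by
  obtain ⟨ω, rfl⟩ := exists_word hD w
  rw [actW_mk hD ω s hs]
  exact wordApply_lt hD _ (vals_lt ω) s hs

theorem actW_neg (hD : Seven D) (w : ↥(D.monomialSubgroup F) ⧸ HN D F) (s : ℕ)
    (hs : s < D.nroots) : actW hD w (D.neg s) = D.neg (actW hD w s) := by
  obtain ⟨ω, rfl⟩ := exists_word hD w
  rw [actW_mk hD ω s hs, actW_mk hD ω _ (neg_lt7 hD s hs)]
  exact wordApply_neg hD _ (vals_lt ω) s hs

theorem actW_ext (hD : Seven D) (w w' : ↥(D.monomialSubgroup F) ⧸ HN D F)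
    (h : ∀ s < D.nroots, actW hD w s = actW hD w' s) : w = w' := by
  obtain ⟨ω, rfl⟩ := exists_word hD w
  obtain ⟨ω', rfl⟩ := exists_word hD w'
  apply (mk_nW_eq_iff hD ω ω').mpr
  intro s hs
  exact (actW_mk (F := F) hD ω s hs).symm.trans ((h s hs).trans (actW_mk hD ω' s hs))

variable (hD : Seven D) [hNorm : (HN D F).Normal]

theorem actW_one (s : ℕ) (hs : s < D.nroots) :
    actW hD (1 : ↥(D.monomialSubgroup F) ⧸ HN D F) s = s := by
  rw [one_eq_mk hD, actW_mk hD [] s hs]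
  rfl

theorem actW_mul (w w' : ↥(D.monomialSubgroup F) ⧸ HN D F) (s : ℕ) (hs : s < D.nroots) :
    actW hD (w * w') s = actW hD w (actW hD w' s) := by
  obtain ⟨ω, rfl⟩ := exists_word hD w
  obtain ⟨ω', rfl⟩ := exists_word hD w'
  have e : (QuotientGroup.mk (nW hD ω) : ↥(D.monomialSubgroup F) ⧸ HN D F) *
      QuotientGroup.mk (nW hD ω') = QuotientGroup.mk (nW hD (ω ++ ω')) := by
    rw [nW_append]; rfl
  rw [e, actW_mk hD _ s hs, actW_mk hD ω' s hs,
    actW_mk hD ω _ (wordApply_lt hD _ (vals_lt ω') s hs), List.map_append, wordApply_append]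

theorem actW_sig (i : ℕ) (hi : i < D.rank) (s : ℕ) (hs : s < D.nroots) :
    actW hD (sigW (F := F) hD ⟨i, hi⟩) s = wAt D i s := by
  unfold sigW
  rw [actW_mk hD [⟨i, hi⟩] s hs]
  rfl

theorem actW_inv_left (w : ↥(D.monomialSubgroup F) ⧸ HN D F) (s : ℕ) (hs : s < D.nroots) :
    actW hD w⁻¹ (actW hD w s) = s := by
  rw [← actW_mul hD _ _ s hs, inv_mul_cancel, actW_one hD s hs]

theorem actW_inv_right (w : ↥(D.monomialSubgroup F) ⧸ HN D F) (s : ℕ) (hs : s < D.nroots) :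
    actW hD w (actW hD w⁻¹ s) = s := by
  rw [← actW_mul hD _ _ s hs, mul_inv_cancel, actW_one hD s hs]

theorem sig_inv (i : Fin D.rank) : (sigW (F := F) hD i)⁻¹ = sigW hD i :=
  inv_eq_of_mul_eq_one_right (sigW_sq hD i)

theorem ell_one : ell hD (1 : ↥(D.monomialSubgroup F) ⧸ HN D F) = 0 := by
  unfold ell
  rw [Finset.card_eq_zero, Finset.filter_eq_empty_iff]
  intro r hr
  rw [actW_one hD r ((mem_posR D r).mp hr).1]
  exact not_lt.mpr ((mem_posR D r).mp hr).2

theorem ell_eq_zero (w : ↥(D.monomialSubgroup F) ⧸ HN D F) (h : ell hD w = 0) : w = 1 := by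
  unfold ell at h
  rw [Finset.card_eq_zero, Finset.filter_eq_empty_iff] at h
  obtain ⟨ω, rfl⟩ := exists_word hD w
  have hpos : ∀ s, D.nroots / 2 ≤ s → s < D.nroots →
      D.nroots / 2 ≤ wordApply D (ω.map Fin.val) s := by
    intro s h1 h2
    have h3 := h ((mem_posR D s).mpr ⟨h2, h1⟩)
    rw [actW_mk hD ω s h2] at h3
    exact not_lt.mp h3
  have hH : wordN (F := F) hD (ω.map Fin.val) ∈ D.diagonalSubgroup F :=
    wordN_mem_H_of_B hD _ (ω.map Fin.val) rfl (vals_lt ω) (fun s hs1 hs2 t => by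
      obtain ⟨h1, ε, hε, hc⟩ := wordN_conj (F := F) hD _ (vals_lt ω) s hs2
      rw [hc]
      exact Subgroup.mem_sup_left
        (xG_mem_posU hD _ (((pos_iff7 hD _ h1).1).mpr (hpos s hs1 hs2)) _))
  rw [QuotientGroup.eq_one_iff, Subgroup.mem_subgroupOf]
  exact hH

/-- The parabolic subgroup of `N/H` generated by the fundamental reflections in the bit mask `m`. -/
def WJ (m : ℕ) : Subgroup (↥(D.monomialSubgroup F) ⧸ HN D F) :=
  Subgroup.closure {w | ∃ (i : ℕ) (hi : i < D.rank), fget m 1 i = 1 ∧ w = sigW hD ⟨i, hi⟩}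

theorem sig_mem_WJ (m : ℕ) (i : ℕ) (hi : i < D.rank) (h : fget m 1 i = 1) :
    sigW (F := F) hD ⟨i, hi⟩ ∈ WJ hD m :=
  Subgroup.subset_closure ⟨i, hi, h, rfl⟩

theorem WJ_mono (m m' : ℕ) (h : ∀ i < D.rank, fget m 1 i = 1 → fget m' 1 i = 1) :
    WJ (F := F) hD m ≤ WJ hD m' := by
  apply Subgroup.closure_mono
  rintro x ⟨i, hi, hm, rfl⟩
  exact ⟨i, hi, h i hi hm, rfl⟩

theorem WJ_top (m : ℕ) (hall : ∀ i < D.rank, fget m 1 i = 1)
    (w : ↥(D.monomialSubgroup F) ⧸ HN D F) : w ∈ WJ hD m := by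
  obtain ⟨ω, rfl⟩ := exists_word hD w
  induction ω with
  | nil => rw [← one_eq_mk hD]; exact one_mem _
  | cons i ω ih =>
    rw [← sig_mul_mk hD i ω]
    exact mul_mem (sig_mem_WJ hD m i.1 i.2 (hall i.1 i.2)) ih

theorem WJ_bot (m : ℕ) (hnone : ∀ i < D.rank, fget m 1 i ≠ 1)
    (w : ↥(D.monomialSubgroup F) ⧸ HN D F) (hw : w ∈ WJ hD m) : w = 1 := by
  have e : WJ (F := F) hD m = ⊥ := by
    unfold WJ
    rw [Subgroup.closure_eq_bot_iff]
    rintro x ⟨i, hi, h, _⟩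
    exact absurd h (hnone i hi)
  rw [e, Subgroup.mem_bot] at hw
  exact hw

theorem WJ_cor (m : ℕ) (u : ↥(D.monomialSubgroup F) ⧸ HN D F) (hu : u ∈ WJ hD m) :
    ∀ r < D.nroots, ∀ k < D.rank, fget m 1 k ≠ 1 → corD D (actW hD u r) k = corD D r k := by
  unfold WJ at hu
  induction hu using Subgroup.closure_induction with
  | mem x hx =>
    obtain ⟨i, hi, hm, rfl⟩ := hx
    intro r hr k hk hkm
    rw [actW_sig hD i hi r hr]
    exact cor_refl7 hD i r k hi hr hk (fun e => hkm (by rw [e]; exact hm))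
  | one =>
    intro r hr k hk hkm
    rw [actW_one hD r hr]
  | mul a b _ _ iha ihb =>
    intro r hr k hk hkm
    rw [actW_mul hD a b r hr, iha _ (actW_lt hD b r hr) k hk hkm, ihb r hr k hk hkm]
  | inv a _ ih =>
    intro r hr k hk hkm
    have h1 := ih _ (actW_lt hD a⁻¹ r hr) k hk hkm
    rw [actW_inv_right hD a r hr] at h1
    exact h1.symm

/-- Some coroot coordinate of `r` outside the mask `m` is non-zero. -/
def OutJ (D : ChevalleyDatum) (m r : ℕ) : Prop :=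
  ∃ k, k < D.rank ∧ fget m 1 k ≠ 1 ∧ corD D r k ≠ 0

omit hNorm in
theorem OutJ_neg (hD' : Seven D) (m r : ℕ) (hr : r < D.nroots) (h : OutJ D m (D.neg r)) :
    OutJ D m r := by
  obtain ⟨k, hk, hkm, hne⟩ := h
  refine ⟨k, hk, hkm, fun h0 => hne ?_⟩
  rw [cor_neg7 hD' r k hr hk, h0, neg_zero]

theorem WJ_out (m : ℕ) (u : ↥(D.monomialSubgroup F) ⧸ HN D F) (hu : u ∈ WJ hD m) (r : ℕ)
    (hr : r < D.nroots) (h : OutJ D m (actW hD u r)) : OutJ D m r := by
  obtain ⟨k, hk, hkm, hne⟩ := h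
  exact ⟨k, hk, hkm, by rwa [WJ_cor hD m u hu r hr k hk hkm] at hne⟩

theorem WJ_pos (m : ℕ) (u : ↥(D.monomialSubgroup F) ⧸ HN D F) (hu : u ∈ WJ hD m) (r : ℕ)
    (hr : r < D.nroots) (hpos : D.nroots / 2 ≤ r) (hout : OutJ D m r) :
    D.nroots / 2 ≤ actW hD u r := by
  obtain ⟨k, hk, hkm, hne⟩ := hout
  have h1 := (cor_sign7 hD r k hr hk).2 hpos
  have h2 : 0 < corD D r k := lt_of_le_of_ne h1 (Ne.symm hne)
  by_contra hlt
  have h3 := (cor_sign7 hD _ k (actW_lt hD u r hr) hk).1 (not_le.mp hlt)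
  rw [WJ_cor hD m u hu r hr k hk hkm] at h3
  omega

/-- Additivity of the length on `d W_J` for `d` positive on the positive roots of `J`. -/
theorem ell_mul (m : ℕ) (d : ↥(D.monomialSubgroup F) ⧸ HN D F)
    (hmin : ∀ s, s < D.nroots → D.nroots / 2 ≤ s → ¬ OutJ D m s → D.nroots / 2 ≤ actW hD d s)
    (u : ↥(D.monomialSubgroup F) ⧸ HN D F) (hu : u ∈ WJ hD m) :
    ell hD (d * u) = ell hD d + ell hD u := by
  have hev := nroots_even7 hD
  have hu' : u⁻¹ ∈ WJ hD m := inv_mem hu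
  have key : (posR D).filter (fun r => actW hD (d * u) r < D.nroots / 2) =
      (posR D).filter (fun r => actW hD u r < D.nroots / 2) ∪
        ((posR D).filter (fun r => actW hD d r < D.nroots / 2)).image (actW hD u⁻¹) := by
    ext r
    rw [Finset.mem_union, Finset.mem_filter, Finset.mem_filter, Finset.mem_image, mem_posR]
    constructor
    · rintro ⟨⟨hr, hpos⟩, hlt⟩
      rw [actW_mul hD d u r hr] at hlt
      by_cases h : actW hD u r < D.nroots / 2
      · exact Or.inl ⟨⟨hr, hpos⟩, h⟩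
      · refine Or.inr ⟨actW hD u r, ?_, actW_inv_left hD u r hr⟩
        rw [Finset.mem_filter, mem_posR]
        exact ⟨⟨actW_lt hD u r hr, not_lt.mp h⟩, hlt⟩
    · rintro (⟨⟨hr, hpos⟩, hlt⟩ | ⟨s, hs, rfl⟩)
      · refine ⟨⟨hr, hpos⟩, ?_⟩
        rw [actW_mul hD d u r hr]
        have hs := actW_lt hD u r hr
        have hnout : ¬ OutJ D m r :=
          fun ho => absurd (WJ_pos hD m u hu r hr hpos ho) (not_le.mpr hlt)
        have hnout2 : ¬ OutJ D m (actW hD u r) := fun ho => hnout (WJ_out hD m u hu r hr ho)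
        have hnout3 : ¬ OutJ D m (D.neg (actW hD u r)) :=
          fun ho => hnout2 (OutJ_neg hD m _ hs ho)
        have hn := neg_eq7 hD _ hs
        have h1 := hmin (D.neg (actW hD u r)) (neg_lt7 hD _ hs) (by rw [hn]; omega) hnout3
        rw [actW_neg hD d _ hs, neg_eq7 hD _ (actW_lt hD d _ hs)] at h1
        have h2 := actW_lt hD d _ hs
        omega
      · rw [Finset.mem_filter, mem_posR] at hs
        obtain ⟨⟨hs1, hs2⟩, hs3⟩ := hs
        have hout : OutJ D m s := by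
          by_contra hn
          exact absurd (hmin s hs1 hs2 hn) (not_le.mpr hs3)
        have h1 := WJ_pos hD m u⁻¹ hu' s hs1 hs2 hout
        have h2 := actW_lt hD u⁻¹ s hs1
        refine ⟨⟨h2, h1⟩, ?_⟩
        rw [actW_mul hD d u _ h2, actW_inv_right hD u s hs1]
        exact hs3
  have hdisj : Disjoint ((posR D).filter (fun r => actW hD u r < D.nroots / 2))
      (((posR D).filter (fun r => actW hD d r < D.nroots / 2)).image (actW hD u⁻¹)) := by
    rw [Finset.disjoint_left]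
    intro r h1 h2
    rw [Finset.mem_filter] at h1
    rw [Finset.mem_image] at h2
    obtain ⟨s, hs, rfl⟩ := h2
    rw [Finset.mem_filter, mem_posR] at hs
    have h3 := h1.2
    rw [actW_inv_right hD u s hs.1.1] at h3
    omega
  have hinj : Set.InjOn (actW hD u⁻¹)
      ↑((posR D).filter (fun r => actW hD d r < D.nroots / 2)) := by
    intro s hs s' hs' e
    rw [Finset.mem_coe, Finset.mem_filter, mem_posR] at hs hs'
    have h1 := actW_inv_right hD u s hs.1.1
    rw [e, actW_inv_right hD u s' hs'.1.1] at h1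
    exact h1.symm
  unfold ell
  rw [key, Finset.card_union_of_disjoint hdisj, Finset.card_image_of_injOn hinj, add_comm]

theorem sum_top (m : ℕ) (hall : ∀ i < D.rank, fget m 1 i = 1)
    [Fintype (↥(D.monomialSubgroup F) ⧸ HN D F)] [Fintype ↥(WJ (F := F) hD m)] (q : ℕ) :
    ∑ w : ↥(D.monomialSubgroup F) ⧸ HN D F, q ^ ell hD w =
      ∑ w : ↥(WJ (F := F) hD m), q ^ ell hD w.1 := by
  symm
  exact Fintype.sum_bijective (fun w : ↥(WJ (F := F) hD m) => w.1)
    ⟨Subtype.val_injective, fun w => ⟨⟨w, WJ_top hD m hall w⟩, rfl⟩⟩ _ _ (fun _ => rfl)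

theorem sum_bot (m : ℕ) (hnone : ∀ i < D.rank, fget m 1 i ≠ 1)
    [Fintype ↥(WJ (F := F) hD m)] (q : ℕ) :
    ∑ u : ↥(WJ (F := F) hD m), q ^ ell hD u.1 = 1 := by
  rw [Fintype.sum_eq_single (1 : ↥(WJ (F := F) hD m))]
  · show q ^ ell hD (1 : ↥(D.monomialSubgroup F) ⧸ HN D F) = 1
    rw [ell_one hD, pow_zero]
  · intro u hu
    exact absurd (Subtype.ext (WJ_bot hD m hnone u.1 u.2)) hu

end WAct

theorem sum_getD_range (l : List ℕ) (f : ℕ → ℕ) :
    ∑ k ∈ Finset.range l.length, f (l.getD k 0) = (l.map f).sum := by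
  induction l with
  | nil => simp
  | cons x l ih =>
    rw [List.length_cons, Finset.sum_range_succ', List.map_cons, List.sum_cons, ← ih, add_comm]
    rfl

section StageCore
variable {F : Type*} [Field F] {D : ChevalleyDatum} (hD : Seven D) [hNorm : (HN D F).Normal]

/-- One step of the chain, from abstract data on a table `R` of coset representatives. -/
theorem stage_core (mJ' mJ K : ℕ) (R : ℕ → ℕ → ℕ) (lens : List ℕ) (hK : 0 < K)
    (hsub : ∀ i < D.rank, fget mJ 1 i = 1 → fget mJ' 1 i = 1)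
    (hid : ∀ s < D.nroots, R 0 s = s)
    (hpar : ∀ k < K, k ≠ 0 → ∃ p < k, ∃ i, ∃ _ : i < D.rank, fget mJ' 1 i = 1 ∧
      ∀ s < D.nroots, R k s = wAt D i (R p s))
    (hclose : ∀ i (_ : i < D.rank), fget mJ' 1 i = 1 → ∀ k < K,
      (∃ c < K, ∀ s < D.nroots, wAt D i (R k s) = R c s) ∨
      (∃ j, ∃ _ : j < D.rank, fget mJ 1 j = 1 ∧ ∀ s < D.nroots, wAt D i (R k s) = R k (wAt D j s)))
    (hmin : ∀ k < K, ∀ s < D.nroots, D.nroots / 2 ≤ s → ¬ OutJ D mJ s → D.nroots / 2 ≤ R k s)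
    (hdist : ∀ k < K, ∀ k' < k, ∃ s < D.nroots, R k s ≠ R k' s)
    (hlen : lens.length = K ∧ ∀ k < K,
      ((posR D).filter (fun s => R k s < D.nroots / 2)).card = lens.getD k 0)
    [Fintype ↥(WJ (F := F) hD mJ')] [Fintype ↥(WJ (F := F) hD mJ)] (q : ℕ) :
    ∑ w : ↥(WJ (F := F) hD mJ'), q ^ ell hD w.1 =
      (lens.map (fun l => q ^ l)).sum * ∑ u : ↥(WJ (F := F) hD mJ), q ^ ell hD u.1 := by
  -- representatives
  have hrep : ∀ k, k < K → ∃ w : ↥(D.monomialSubgroup F) ⧸ HN D F, w ∈ WJ hD mJ' ∧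
      ∀ s < D.nroots, actW hD w s = R k s := by
    intro k
    induction k using Nat.strong_induction_on with
    | _ k ih =>
      intro hk
      by_cases h0 : k = 0
      · subst h0
        exact ⟨1, one_mem _, fun s hs => by rw [actW_one hD s hs, hid s hs]⟩
      · obtain ⟨p, hp, i, hi, hiJ, hrow⟩ := hpar k hk h0
        obtain ⟨w, hw, hact⟩ := ih p hp (lt_trans hp hk)
        refine ⟨sigW hD ⟨i, hi⟩ * w, mul_mem (sig_mem_WJ hD mJ' i hi hiJ) hw, fun s hs => ?_⟩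
        rw [actW_mul hD _ _ s hs, actW_sig hD i hi _ (actW_lt hD w s hs), hact s hs]
        exact (hrow s hs).symm
  choose! d hd using hrep
  have hd0 : d 0 = 1 := actW_ext hD _ _ (fun s hs => by
    rw [(hd 0 hK).2 s hs, hid s hs, actW_one hD s hs])
  -- closure under the generators
  have step : ∀ i (hi : i < D.rank), fget mJ' 1 i = 1 → ∀ k, k < K →
      ∀ u ∈ WJ (F := F) hD mJ, ∃ k', k' < K ∧ ∃ u' ∈ WJ (F := F) hD mJ,
        sigW hD ⟨i, hi⟩ * (d k * u) = d k' * u' := by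
    intro i hi hiJ k hk u hu
    rcases hclose i hi hiJ k hk with ⟨c, hc, hrow⟩ | ⟨j, hj, hjJ, hrow⟩
    · refine ⟨c, hc, u, hu, ?_⟩
      have e : sigW hD ⟨i, hi⟩ * d k = d c := actW_ext hD _ _ (fun s hs => by
        rw [actW_mul hD _ _ s hs, actW_sig hD i hi _ (actW_lt hD _ s hs), (hd k hk).2 s hs,
          (hd c hc).2 s hs]
        exact hrow s hs)
      rw [← mul_assoc, e]
    · refine ⟨k, hk, sigW hD ⟨j, hj⟩ * u, mul_mem (sig_mem_WJ hD mJ j hj hjJ) hu, ?_⟩
      have hws : ∀ s < D.nroots, wAt D j s < D.nroots := fun s hs => by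
        rw [wAt_eq7 hD j hj s hs]; exact reflect_lt7 hD j hj s hs
      have e : sigW hD ⟨i, hi⟩ * d k = d k * sigW hD ⟨j, hj⟩ := actW_ext hD _ _ (fun s hs => by
        rw [actW_mul hD _ _ s hs, actW_sig hD i hi _ (actW_lt hD _ s hs), (hd k hk).2 s hs,
          actW_mul hD _ _ s hs, actW_sig hD j hj s hs, (hd k hk).2 (wAt D j s) (hws s hs)]
        exact hrow s hs)
      rw [← mul_assoc, e, mul_assoc]
  have hcl : ∀ w ∈ WJ (F := F) hD mJ', ∃ k, k < K ∧ ∃ u ∈ WJ (F := F) hD mJ, w = d k * u := by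
    intro w hw
    have hw' : w ∈ Subgroup.closure {w : ↥(D.monomialSubgroup F) ⧸ HN D F |
        ∃ (i : ℕ) (hi : i < D.rank), fget mJ' 1 i = 1 ∧ w = sigW hD ⟨i, hi⟩} := hw
    clear hw
    induction hw' using Subgroup.closure_induction_left with
    | one => exact ⟨0, hK, 1, one_mem _, by rw [hd0, mul_one]⟩
    | mul_left x hx y hy ih =>
      obtain ⟨i, hi, hiJ, rfl⟩ := hx
      obtain ⟨k, hk, u, hu, rfl⟩ := ih
      exact step i hi hiJ k hk u hu
    | inv_mul_cancel x hx y hy ih =>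
      obtain ⟨i, hi, hiJ, rfl⟩ := hx
      obtain ⟨k, hk, u, hu, rfl⟩ := ih
      rw [sig_inv hD]
      exact step i hi hiJ k hk u hu
  -- minimality, lengths
  have hminK : ∀ k, k < K → ∀ s, s < D.nroots → D.nroots / 2 ≤ s → ¬ OutJ D mJ s →
      D.nroots / 2 ≤ actW hD (d k) s := by
    intro k hk s hs h1 h2
    rw [(hd k hk).2 s hs]
    exact hmin k hk s hs h1 h2
  have hell : ∀ k, k < K → ell hD (d k) = lens.getD k 0 := by
    intro k hk
    rw [← hlen.2 k hk]
    unfold ell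
    congr 1
    apply Finset.filter_congr
    intro s hs
    rw [(hd k hk).2 s ((mem_posR D s).mp hs).1]
  -- uniqueness
  have hinj : ∀ k, k < K → ∀ k', k' < K → ∀ u ∈ WJ (F := F) hD mJ, ∀ u' ∈ WJ (F := F) hD mJ,
      d k * u = d k' * u' → k = k' ∧ u = u' := by
    intro k hk k' hk' u hu u' hu' e
    have e1 : d k = d k' * (u' * u⁻¹) := by
      rw [← mul_assoc, ← e, mul_assoc, mul_inv_cancel, mul_one]
    have e2 : d k' = d k * (u * u'⁻¹) := by
      rw [← mul_assoc, e, mul_assoc, mul_inv_cancel, mul_one]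
    have l1 := ell_mul hD mJ (d k') (hminK k' hk') (u' * u⁻¹) (mul_mem hu' (inv_mem hu))
    have l2 := ell_mul hD mJ (d k) (hminK k hk) (u * u'⁻¹) (mul_mem hu (inv_mem hu'))
    rw [← e1] at l1
    rw [← e2] at l2
    have l3 : ell hD (u' * u⁻¹) = 0 := by omega
    have e3 := ell_eq_zero hD _ l3
    have e4 : u' = u := mul_inv_eq_one.mp e3
    have e5 : d k = d k' := by rw [e1, e3, mul_one]
    refine ⟨?_, e4.symm⟩
    by_contra hne
    rcases Nat.lt_or_gt_of_ne hne with hlt | hgt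
    · obtain ⟨s, hs, hdiff⟩ := hdist k' hk' k hlt
      apply hdiff
      rw [← (hd k' hk').2 s hs, ← (hd k hk).2 s hs, e5]
    · obtain ⟨s, hs, hdiff⟩ := hdist k hk k' hgt
      apply hdiff
      rw [← (hd k hk).2 s hs, ← (hd k' hk').2 s hs, e5]
  -- the sum
  have hbij : Function.Bijective (fun p : Fin K × ↥(WJ (F := F) hD mJ) =>
      (⟨d p.1.1 * p.2.1, mul_mem (hd p.1.1 p.1.2).1 (WJ_mono hD mJ mJ' hsub p.2.2)⟩ :
        ↥(WJ (F := F) hD mJ'))) := by
    constructor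
    · rintro ⟨k, u⟩ ⟨k', u'⟩ h
      have e : d k.1 * u.1 = d k'.1 * u'.1 := congrArg Subtype.val h
      obtain ⟨h1, h2⟩ := hinj k.1 k.2 k'.1 k'.2 u.1 u.2 u'.1 u'.2 e
      exact Prod.ext (Fin.ext h1) (Subtype.ext h2)
    · rintro ⟨w, hw⟩
      obtain ⟨k, hk, u, hu, rfl⟩ := hcl w hw
      exact ⟨(⟨k, hk⟩, ⟨u, hu⟩), rfl⟩
  calc ∑ w : ↥(WJ (F := F) hD mJ'), q ^ ell hD w.1
      = ∑ p : Fin K × ↥(WJ (F := F) hD mJ), q ^ lens.getD p.1.1 0 * q ^ ell hD p.2.1 := by
        symm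
        apply Fintype.sum_bijective _ hbij
        intro p
        show q ^ lens.getD p.1.1 0 * q ^ ell hD p.2.1 = q ^ ell hD (d p.1.1 * p.2.1)
        rw [ell_mul hD mJ (d p.1.1) (hminK p.1.1 p.1.2) p.2.1 p.2.2, hell p.1.1 p.1.2, pow_add]
    _ = ∑ k : Fin K, ∑ u : ↥(WJ (F := F) hD mJ), q ^ lens.getD k.1 0 * q ^ ell hD u.1 :=
        Fintype.sum_prod_type _
    _ = ∑ k : Fin K, q ^ lens.getD k.1 0 * ∑ u : ↥(WJ (F := F) hD mJ), q ^ ell hD u.1 := by
        apply Finset.sum_congr rfl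
        intro k _
        rw [Finset.mul_sum]
    _ = (∑ k : Fin K, q ^ lens.getD k.1 0) * ∑ u : ↥(WJ (F := F) hD mJ), q ^ ell hD u.1 := by
        rw [Finset.sum_mul]
    _ = (lens.map (fun l => q ^ l)).sum * ∑ u : ↥(WJ (F := F) hD mJ), q ^ ell hD u.1 := by
        rw [Fin.sum_univ_eq_sum_range (fun k => q ^ lens.getD k 0) K, ← hlen.1,
          sum_getD_range lens (fun l => q ^ l)]

end StageCore

end Cfsg.Agent.Helper11
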