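import Cfsg.Agent.Helper11.ChevOrd2

set_option autoImplicit false

/-!
The order of a Chevalley group, III: the kernel-checkable form of the tables of minimal coset
representatives, and the final arithmetic.
-/

namespace Cfsg.Agent.Helper11

open Cfsg.Lie

/-- Entry `s` of row `k` of a packed table (rows of width `W`, entries of 9 bits). -/
def rg (big W k s : ℕ) : ℕ := fget (fget big W k) 9 s

def pOf (par k : ℕ) : ℕ := Nat.mod (fget par 12 k) 256

def iOf (par k : ℕ) : ℕ := Nat.div (fget par 12 k) 256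

def nxOf (nx K i k : ℕ) : ℕ := fget nx 8 (Nat.add (Nat.mul i K) k)

def inM (m i : ℕ) : Bool := Nat.beq (fget m 1 i) 1

theorem inM_iff (m i : ℕ) : inM m i = true ↔ fget m 1 i = 1 := beq_iff _ _

noncomputable def cntN (n : ℕ) (p : ℕ → Bool) : ℕ :=
  @Nat.rec (fun _ => ℕ) 0 (fun k ih => cond (p k) (Nat.succ ih) ih) n

theorem cntN_spec (n : ℕ) (p : ℕ → Bool) :
    cntN n p = ((Finset.range n).filter (fun s => p s = true)).card := by
  induction n with
  | zero => rfl
  | succ n ih =>
    have e : cntN (n + 1) p = cond (p n) (Nat.succ (cntN n p)) (cntN n p) := rfl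
    rw [e, Finset.range_add_one, Finset.filter_insert]
    cases hp : p n with
    | true =>
      rw [if_pos rfl, Finset.card_insert_of_notMem (by simp), ih]
      rfl
    | false =>
      rw [if_neg (by simp), ih]
      rfl

noncomputable def nthN (l : List ℕ) : ℕ → ℕ :=
  @List.rec ℕ (fun _ => ℕ → ℕ) (fun _ => 0)
    (fun x _ ih => fun k => @Nat.rec (fun _ => ℕ) x (fun k' _ => ih k') k) l

theorem nthN_eq (l : List ℕ) (k : ℕ) : nthN l k = l.getD k 0 := by
  induction l generalizing k with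
  | nil =>
    show (0 : ℕ) = _
    simp
  | cons x l ih =>
    cases k with
    | zero =>
      show x = _
      simp
    | succ k =>
      show nthN l k = _
      rw [ih k]
      simp

noncomputable def subOK (D : ChevalleyDatum) (mJ' mJ : ℕ) : Bool :=
  allN D.rank (fun i => cond (inM mJ i) (inM mJ' i) true)

noncomputable def idOK (D : ChevalleyDatum) (big W : ℕ) : Bool :=
  allN D.nroots (fun s => Nat.beq (rg big W 0 s) s)

noncomputable def stParOK (D : ChevalleyDatum) (mJ' K big W par : ℕ) : Bool :=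
  allN K (fun k => cond (Nat.beq k 0) true
    (Nat.blt (pOf par k) k && (Nat.blt (iOf par k) D.rank && (inM mJ' (iOf par k) &&
      allN D.nroots (fun s =>
        Nat.beq (rg big W k s) (wAt D (iOf par k) (rg big W (pOf par k) s)))))))

noncomputable def stClose1 (D : ChevalleyDatum) (mJ K big W i k c : ℕ) : Bool :=
  cond (Nat.blt c K)
    (allN D.nroots (fun s => Nat.beq (wAt D i (rg big W k s)) (rg big W c s)))
    (Nat.blt (Nat.sub c K) D.rank && (inM mJ (Nat.sub c K) &&
      allN D.nroots (fun s =>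
        Nat.beq (wAt D i (rg big W k s)) (rg big W k (wAt D (Nat.sub c K) s)))))

noncomputable def stCloseOK (D : ChevalleyDatum) (mJ' mJ K big W nx : ℕ) : Bool :=
  allN D.rank (fun i => cond (inM mJ' i)
    (allN K (fun k => stClose1 D mJ K big W i k (nxOf nx K i k))) true)

noncomputable def outJb (D : ChevalleyDatum) (mJ s : ℕ) : Bool :=
  anyN D.rank (fun m => cond (inM mJ m) false (cond (isZ (corAt D s m)) false true))

noncomputable def stMinOK (D : ChevalleyDatum) (mJ K big W : ℕ) : Bool :=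
  allN K (fun k => allN D.nroots (fun s => cond (Nat.ble (Nat.div D.nroots 2) s)
    (cond (outJb D mJ s) true (Nat.ble (Nat.div D.nroots 2) (rg big W k s))) true))

noncomputable def stDistOK (D : ChevalleyDatum) (K big W : ℕ) : Bool :=
  allN K (fun k => allN k (fun k' => anyN D.nroots (fun s =>
    cond (Nat.beq (rg big W k s) (rg big W k' s)) false true)))

noncomputable def stLenOK (D : ChevalleyDatum) (K big W : ℕ) (lens : List ℕ) : Bool :=
  Nat.beq lens.length K && allN K (fun k =>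
    Nat.beq (cntN D.nroots (fun s => Nat.ble (Nat.div D.nroots 2) s &&
      Nat.blt (rg big W k s) (Nat.div D.nroots 2))) (nthN lens k))

/-- The full check of one step of the chain. -/
noncomputable def stageOK (D : ChevalleyDatum) (mJ' mJ K big W par nx : ℕ) (lens : List ℕ) : Bool :=
  Nat.blt 0 K && (subOK D mJ' mJ && (idOK D big W && (stParOK D mJ' K big W par &&
    (stCloseOK D mJ' mJ K big W nx && (stMinOK D mJ K big W &&
      (stDistOK D K big W && stLenOK D K big W lens))))))

section Specs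
variable {D : ChevalleyDatum} {mJ' mJ K big W par nx : ℕ} {lens : List ℕ}

theorem subOK_spec (h : subOK D mJ' mJ = true) :
    ∀ i < D.rank, fget mJ 1 i = 1 → fget mJ' 1 i = 1 := by
  intro i hi hm
  have h1 := (allN_spec _ _).mp h i hi
  rw [(inM_iff mJ i).mpr hm, cond_true] at h1
  exact (inM_iff mJ' i).mp h1

theorem stParOK_spec (h : stParOK D mJ' K big W par = true) (k : ℕ) (hk : k < K) (h0 : k ≠ 0) :
    ∃ p < k, ∃ i, ∃ _ : i < D.rank, fget mJ' 1 i = 1 ∧
      ∀ s < D.nroots, rg big W k s = wAt D i (rg big W p s) := by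
  have h1 := (allN_spec _ _).mp h k hk
  rw [beq_false_of_ne h0, cond_false, Bool.and_eq_true, Bool.and_eq_true, Bool.and_eq_true] at h1
  obtain ⟨h2, h3, h4, h5⟩ := h1
  exact ⟨pOf par k, (blt_iff _ _).mp h2, iOf par k, (blt_iff _ _).mp h3, (inM_iff _ _).mp h4,
    fun s hs => (beq_iff _ _).mp ((allN_spec _ _).mp h5 s hs)⟩

theorem stCloseOK_spec (h : stCloseOK D mJ' mJ K big W nx = true) (i : ℕ) (hi : i < D.rank)
    (hiJ : fget mJ' 1 i = 1) (k : ℕ) (hk : k < K) :
    (∃ c < K, ∀ s < D.nroots, wAt D i (rg big W k s) = rg big W c s) ∨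
    (∃ j, ∃ _ : j < D.rank, fget mJ 1 j = 1 ∧
      ∀ s < D.nroots, wAt D i (rg big W k s) = rg big W k (wAt D j s)) := by
  have h1 := (allN_spec _ _).mp h i hi
  rw [(inM_iff mJ' i).mpr hiJ, cond_true] at h1
  have h2 := (allN_spec _ _).mp h1 k hk
  unfold stClose1 at h2
  cases hc : Nat.blt (nxOf nx K i k) K with
  | true =>
    rw [hc, cond_true] at h2
    exact Or.inl ⟨nxOf nx K i k, (blt_iff _ _).mp hc,
      fun s hs => (beq_iff _ _).mp ((allN_spec _ _).mp h2 s hs)⟩
  | false =>
    rw [hc, cond_false, Bool.and_eq_true, Bool.and_eq_true] at h2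
    obtain ⟨h3, h4, h5⟩ := h2
    exact Or.inr ⟨Nat.sub (nxOf nx K i k) K, (blt_iff _ _).mp h3, (inM_iff _ _).mp h4,
      fun s hs => (beq_iff _ _).mp ((allN_spec _ _).mp h5 s hs)⟩

theorem OutJ_of_outJb (hT : tabOK D = true) (mJ s : ℕ) (hs : s < D.nroots)
    (h : outJb D mJ s = true) : OutJ D mJ s := by
  unfold outJb at h
  rw [anyN_spec] at h
  obtain ⟨k, hk, h1⟩ := h
  cases hb : inM mJ k with
  | true =>
    rw [hb] at h1
    simp at h1
  | false =>
    rw [hb] at h1
    cases hz : isZ (corAt D s k) with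
    | true =>
      rw [hz] at h1
      simp at h1
    | false =>
      refine ⟨k, hk, fun h2 => ?_, fun h2 => ?_⟩
      · rw [(inM_iff _ _).mpr h2] at hb
        simp at hb
      · have h3 : corAt D s k = 0 := by
          rw [tabOK_cor hT s k hs hk]; exact h2
        rw [(isZ_iff _).mpr h3] at hz
        simp at hz

theorem stMinOK_spec (hT : tabOK D = true) (h : stMinOK D mJ K big W = true) (k : ℕ)
    (hk : k < K) (s : ℕ) (hs : s < D.nroots) (hpos : D.nroots / 2 ≤ s)
    (hout : ¬ OutJ D mJ s) : D.nroots / 2 ≤ rg big W k s := by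
  have h1 := (allN_spec _ _).mp ((allN_spec _ _).mp h k hk) s hs
  rw [show Nat.ble (Nat.div D.nroots 2) s = true from Nat.ble_eq_true_of_le hpos,
    cond_true] at h1
  cases hb : outJb D mJ s with
  | true => exact absurd (OutJ_of_outJb hT mJ s hs hb) hout
  | false =>
    rw [hb, cond_false] at h1
    exact Nat.le_of_ble_eq_true h1

theorem stDistOK_spec (h : stDistOK D K big W = true) (k : ℕ) (hk : k < K) (k' : ℕ)
    (hk' : k' < k) : ∃ s < D.nroots, rg big W k s ≠ rg big W k' s := by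
  have h1 := (allN_spec _ _).mp ((allN_spec _ _).mp h k hk) k' hk'
  rw [anyN_spec] at h1
  obtain ⟨s, hs, h2⟩ := h1
  refine ⟨s, hs, fun e => ?_⟩
  rw [(beq_iff _ _).mpr e] at h2
  simp at h2

theorem stLenOK_spec (h : stLenOK D K big W lens = true) :
    lens.length = K ∧ ∀ k < K,
      ((posR D).filter (fun s => rg big W k s < D.nroots / 2)).card = lens.getD k 0 := by
  unfold stLenOK at h
  rw [Bool.and_eq_true] at h
  refine ⟨(beq_iff _ _).mp h.1, fun k hk => ?_⟩
  have h1 := (beq_iff _ _).mp ((allN_spec _ _).mp h.2 k hk)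
  rw [cntN_spec, nthN_eq] at h1
  rw [← h1]
  congr 1
  ext s
  unfold posR
  rw [Finset.mem_filter, Finset.mem_filter, Finset.mem_filter, Bool.and_eq_true]
  constructor
  · rintro ⟨⟨hs, h2⟩, h3⟩
    exact ⟨hs, Nat.ble_eq_true_of_le h2, (blt_iff _ _).mpr h3⟩
  · rintro ⟨hs, h2, h3⟩
    exact ⟨⟨hs, Nat.le_of_ble_eq_true h2⟩, (blt_iff _ _).mp h3⟩

end Specs

section StageSum
variable {F : Type*} [Field F] {D : ChevalleyDatum} (hD : Seven D) [hNorm : (HN D F).Normal]

/-- One step of the chain, from a kernel-checked table. -/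
theorem stage_sum (mJ' mJ K big W par nx : ℕ) (lens : List ℕ)
    (hOK : stageOK D mJ' mJ K big W par nx lens = true)
    [Fintype ↥(WJ (F := F) hD mJ')] [Fintype ↥(WJ (F := F) hD mJ)] (q : ℕ) :
    ∑ w : ↥(WJ (F := F) hD mJ'), q ^ ell hD w.1 =
      (lens.map (fun l => q ^ l)).sum * ∑ u : ↥(WJ (F := F) hD mJ), q ^ ell hD u.1 := by
  unfold stageOK at hOK
  simp only [Bool.and_eq_true] at hOK
  obtain ⟨hK, h0, hid, hpar, hcl, hmin, hdist, hlen⟩ := hOK
  have hT := tabOK_seven D hD
  exact stage_core hD mJ' mJ K (rg big W) lens ((blt_iff _ _).mp hK) (subOK_spec h0)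
    (fun s hs => (beq_iff _ _).mp ((allN_spec _ _).mp hid s hs))
    (stParOK_spec hpar) (stCloseOK_spec hcl) (stMinOK_spec hT hmin) (stDistOK_spec hdist)
    (stLenOK_spec hlen) q

end StageSum

theorem cast_pow_sub_one (q k : ℕ) (hq : 0 < q) : ((q ^ k - 1 : ℕ) : ℤ) = (q : ℤ) ^ k - 1 := by
  rw [Nat.cast_sub (Nat.one_le_pow _ _ hq), Nat.cast_pow, Nat.cast_one]

/-- The final arithmetic. -/
theorem order_core (G H q N r d P R : ℕ) (hG : G = q ^ N * H * P) (hH : d * H = (q - 1) ^ r)
    (hq : 0 < q) (hR : ((q : ℤ) - 1) ^ r * (P : ℤ) = (R : ℤ)) : d * G = q ^ N * R := by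
  have h1 : ((q - 1 : ℕ) : ℤ) = (q : ℤ) - 1 := by
    rw [Nat.cast_sub hq, Nat.cast_one]
  have h2 : (d : ℤ) * (H : ℤ) = ((q : ℤ) - 1) ^ r := by
    rw [← h1, ← Nat.cast_pow, ← hH, Nat.cast_mul]
  apply Nat.cast_injective (R := ℤ)
  rw [hG, Nat.cast_mul, Nat.cast_mul, Nat.cast_mul, Nat.cast_mul, Nat.cast_pow, ← hR]
  linear_combination ((q : ℤ) ^ N * (P : ℤ)) * h2

end Cfsg.Agent.Helper11
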