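import Cfsg.Agent.Helper11.ChevOrd3

set_option autoImplicit false

/-!
The order of a Chevalley group, IV: a variant of the table check of `ChevOrd3` that reads the
fundamental reflections off a packed table (itself checked against the data), for the large types.
-/

namespace Cfsg.Agent.Helper11

open Cfsg.Lie

/-- A packed table of the fundamental reflections agrees with `wAt`. -/
noncomputable def reflTabOK (D : ChevalleyDatum) (rf W : ℕ) : Bool :=
  allN D.rank (fun i => allN D.nroots (fun s => Nat.beq (wAt D i s) (rg rf W i s)))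

noncomputable def stRangeOK (D : ChevalleyDatum) (K big W : ℕ) : Bool :=
  allN K (fun k => allN D.nroots (fun s => Nat.blt (rg big W k s) D.nroots))

noncomputable def stParOK2 (D : ChevalleyDatum) (rf mJ' K big W par : ℕ) : Bool :=
  allN K (fun k => cond (Nat.beq k 0) true
    (Nat.blt (pOf par k) k && (Nat.blt (iOf par k) D.rank && (inM mJ' (iOf par k) &&
      allN D.nroots (fun s =>
        Nat.beq (rg big W k s) (rg rf W (iOf par k) (rg big W (pOf par k) s)))))))

noncomputable def stClose2 (D : ChevalleyDatum) (rf mJ K big W i k c : ℕ) : Bool :=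
  cond (Nat.blt c K)
    (allN D.nroots (fun s => Nat.beq (rg rf W i (rg big W k s)) (rg big W c s)))
    (Nat.blt (Nat.sub c K) D.rank && (inM mJ (Nat.sub c K) &&
      allN D.nroots (fun s =>
        Nat.beq (rg rf W i (rg big W k s)) (rg big W k (rg rf W (Nat.sub c K) s)))))

noncomputable def stCloseOK2 (D : ChevalleyDatum) (rf mJ' mJ K big W nx : ℕ) : Bool :=
  allN D.rank (fun i => cond (inM mJ' i)
    (allN K (fun k => stClose2 D rf mJ K big W i k (nxOf nx K i k))) true)

noncomputable def stageOK2 (D : ChevalleyDatum) (rf mJ' mJ K big W par nx : ℕ) (lens : List ℕ) :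
    Bool :=
  Nat.blt 0 K && (subOK D mJ' mJ && (idOK D big W && (stRangeOK D K big W &&
    (stParOK2 D rf mJ' K big W par && (stCloseOK2 D rf mJ' mJ K big W nx &&
      (stMinOK D mJ K big W && (stDistOK D K big W && stLenOK D K big W lens)))))))

section Specs2
variable {D : ChevalleyDatum} {rf mJ' mJ K big W par nx : ℕ} {lens : List ℕ}

theorem reflTabOK_spec (h : reflTabOK D rf W = true) (i s : ℕ) (hi : i < D.rank)
    (hs : s < D.nroots) : rg rf W i s = wAt D i s :=
  ((beq_iff _ _).mp ((allN_spec _ _).mp ((allN_spec _ _).mp h i hi) s hs)).symm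

theorem stParOK2_spec (hR : reflTabOK D rf W = true) (hrange : stRangeOK D K big W = true)
    (h : stParOK2 D rf mJ' K big W par = true) (k : ℕ) (hk : k < K) (h0 : k ≠ 0) :
    ∃ p < k, ∃ i, ∃ _ : i < D.rank, fget mJ' 1 i = 1 ∧
      ∀ s < D.nroots, rg big W k s = wAt D i (rg big W p s) := by
  have h1 := (allN_spec _ _).mp h k hk
  rw [beq_false_of_ne h0, cond_false, Bool.and_eq_true, Bool.and_eq_true, Bool.and_eq_true] at h1
  obtain ⟨h2, h3, h4, h5⟩ := h1
  have hp : pOf par k < k := (blt_iff _ _).mp h2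
  have hi : iOf par k < D.rank := (blt_iff _ _).mp h3
  refine ⟨pOf par k, hp, iOf par k, hi, (inM_iff _ _).mp h4, fun s hs => ?_⟩
  have h6 := (beq_iff _ _).mp ((allN_spec _ _).mp h5 s hs)
  have h7 : rg big W (pOf par k) s < D.nroots :=
    (blt_iff _ _).mp ((allN_spec _ _).mp ((allN_spec _ _).mp hrange _ (lt_trans hp hk)) s hs)
  rw [h6, reflTabOK_spec hR _ _ hi h7]

theorem stCloseOK2_spec (hR : reflTabOK D rf W = true) (hrange : stRangeOK D K big W = true)
    (h : stCloseOK2 D rf mJ' mJ K big W nx = true) (i : ℕ) (hi : i < D.rank)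
    (hiJ : fget mJ' 1 i = 1) (k : ℕ) (hk : k < K) :
    (∃ c < K, ∀ s < D.nroots, wAt D i (rg big W k s) = rg big W c s) ∨
    (∃ j, ∃ _ : j < D.rank, fget mJ 1 j = 1 ∧
      ∀ s < D.nroots, wAt D i (rg big W k s) = rg big W k (wAt D j s)) := by
  have h1 := (allN_spec _ _).mp h i hi
  rw [(inM_iff mJ' i).mpr hiJ, cond_true] at h1
  have h2 := (allN_spec _ _).mp h1 k hk
  unfold stClose2 at h2
  have hks : ∀ s < D.nroots, rg big W k s < D.nroots := fun s hs =>
    (blt_iff _ _).mp ((allN_spec _ _).mp ((allN_spec _ _).mp hrange k hk) s hs)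
  cases hc : Nat.blt (nxOf nx K i k) K with
  | true =>
    rw [hc, cond_true] at h2
    refine Or.inl ⟨nxOf nx K i k, (blt_iff _ _).mp hc, fun s hs => ?_⟩
    rw [← reflTabOK_spec hR i _ hi (hks s hs)]
    exact (beq_iff _ _).mp ((allN_spec _ _).mp h2 s hs)
  | false =>
    rw [hc, cond_false, Bool.and_eq_true, Bool.and_eq_true] at h2
    obtain ⟨h3, h4, h5⟩ := h2
    have hj : Nat.sub (nxOf nx K i k) K < D.rank := (blt_iff _ _).mp h3
    refine Or.inr ⟨Nat.sub (nxOf nx K i k) K, hj, (inM_iff _ _).mp h4, fun s hs => ?_⟩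
    rw [← reflTabOK_spec hR i _ hi (hks s hs), ← reflTabOK_spec hR _ s hj hs]
    exact (beq_iff _ _).mp ((allN_spec _ _).mp h5 s hs)

end Specs2

section StageSum2
variable {F : Type*} [Field F] {D : ChevalleyDatum} (hD : Seven D) [hNorm : (HN D F).Normal]

/-- One step of the chain, from a kernel-checked table (reflections read off a table). -/
theorem stage_sum2 (rf mJ' mJ K big W par nx : ℕ) (lens : List ℕ)
    (hR : reflTabOK D rf W = true)
    (hOK : stageOK2 D rf mJ' mJ K big W par nx lens = true)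
    [Fintype ↥(WJ (F := F) hD mJ')] [Fintype ↥(WJ (F := F) hD mJ)] (q : ℕ) :
    ∑ w : ↥(WJ (F := F) hD mJ'), q ^ ell hD w.1 =
      (lens.map (fun l => q ^ l)).sum * ∑ u : ↥(WJ (F := F) hD mJ), q ^ ell hD u.1 := by
  unfold stageOK2 at hOK
  simp only [Bool.and_eq_true] at hOK
  obtain ⟨hK, h0, hid, hrange, hpar, hcl, hmin, hdist, hlen⟩ := hOK
  have hT := tabOK_seven D hD
  exact stage_core hD mJ' mJ K (rg big W) lens ((blt_iff _ _).mp hK) (subOK_spec h0)
    (fun s hs => (beq_iff _ _).mp ((allN_spec _ _).mp hid s hs))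
    (stParOK2_spec hR hrange hpar) (stCloseOK2_spec hR hrange hcl) (stMinOK_spec hT hmin)
    (stDistOK_spec hdist) (stLenOK_spec hlen) q

end StageSum2

end Cfsg.Agent.Helper11
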