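import Cfsg.Agent.Helper11.ChevOrdTabD4

set_option autoImplicit false
set_option maxRecDepth 100000
set_option maxHeartbeats 0
set_option Elab.async false

namespace Cfsg.Agent.Helper11

open Cfsg.Lie

theorem weyl_sum_D4 {F : Type*} [Field F] [Fintype F] (hD : Seven chevD4)
    [hNorm : (HN chevD4 F).Normal] [Fintype (↥(chevD4.monomialSubgroup F) ⧸ HN chevD4 F)] (q : ℕ) :
    ∑ w : ↥(chevD4.monomialSubgroup F) ⧸ HN chevD4 F, q ^ ell hD w =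
      (ordLens_D4_1.map (fun l => q ^ l)).sum * ((ordLens_D4_2.map (fun l => q ^ l)).sum * ((ordLens_D4_3.map (fun l => q ^ l)).sum * ((ordLens_D4_4.map (fun l => q ^ l)).sum))) := by
  letI : ∀ m : ℕ, Fintype ↥(WJ (F := F) hD m) := fun m => Fintype.ofFinite _
  rw [sum_top hD 15 (by decide) q,
    stage_sum hD 15 14 8 ordBig_D4_1 216 ordPar_D4_1 ordNx_D4_1 ordLens_D4_1 ordSt_D4_1 q,
    stage_sum hD 14 10 4 ordBig_D4_2 216 ordPar_D4_2 ordNx_D4_2 ordLens_D4_2 ordSt_D4_2 q,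
    stage_sum hD 10 8 3 ordBig_D4_3 216 ordPar_D4_3 ordNx_D4_3 ordLens_D4_3 ordSt_D4_3 q,
    stage_sum hD 8 0 2 ordBig_D4_4 216 ordPar_D4_4 ordNx_D4_4 ordLens_D4_4 ordSt_D4_4 q,
    sum_bot hD 0 (by decide) q,
    mul_one]

theorem ordPoly_D4 (q : ℕ) (hq : 0 < q) :
    ((q : ℤ) - 1) ^ 4 * ((((ordLens_D4_1.map (fun l => q ^ l)).sum * ((ordLens_D4_2.map (fun l => q ^ l)).sum * ((ordLens_D4_3.map (fun l => q ^ l)).sum * ((ordLens_D4_4.map (fun l => q ^ l)).sum)))) : ℕ) : ℤ) =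
      ((((q ^ 2 - 1) * (q ^ 4 - 1) * (q ^ 4 - 1) * (q ^ 6 - 1)) : ℕ) : ℤ) := by
  simp only [ordLens_D4_1, ordLens_D4_2, ordLens_D4_3, ordLens_D4_4, List.map_cons, List.map_nil, List.sum_cons, List.sum_nil]
  push_cast [cast_pow_sub_one _ _ hq]
  ring

end Cfsg.Agent.Helper11
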