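import Cfsg.Agent.Helper11.ChevOrdTabE6

set_option autoImplicit false
set_option maxRecDepth 100000
set_option maxHeartbeats 0
set_option Elab.async false

namespace Cfsg.Agent.Helper11

open Cfsg.Lie

theorem weyl_sum_E6 {F : Type*} [Field F] [Fintype F] (hD : Seven chevE6)
    [hNorm : (HN chevE6 F).Normal] [Fintype (↥(chevE6.monomialSubgroup F) ⧸ HN chevE6 F)] (q : ℕ) :
    ∑ w : ↥(chevE6.monomialSubgroup F) ⧸ HN chevE6 F, q ^ ell hD w =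
      (ordLens_E6_1.map (fun l => q ^ l)).sum * ((ordLens_E6_2.map (fun l => q ^ l)).sum * ((ordLens_E6_3.map (fun l => q ^ l)).sum * ((ordLens_E6_4.map (fun l => q ^ l)).sum * ((ordLens_E6_5.map (fun l => q ^ l)).sum * ((ordLens_E6_6.map (fun l => q ^ l)).sum))))) := by
  letI : ∀ m : ℕ, Fintype ↥(WJ (F := F) hD m) := fun m => Fintype.ofFinite _
  rw [sum_top hD 63 (by decide) q,
    stage_sum hD 63 62 27 ordBig_E6_1 648 ordPar_E6_1 ordNx_E6_1 ordLens_E6_1 ordSt_E6_1 q,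
    stage_sum hD 62 30 10 ordBig_E6_2 648 ordPar_E6_2 ordNx_E6_2 ordLens_E6_2 ordSt_E6_2 q,
    stage_sum hD 30 28 8 ordBig_E6_3 648 ordPar_E6_3 ordNx_E6_3 ordLens_E6_3 ordSt_E6_3 q,
    stage_sum hD 28 24 4 ordBig_E6_4 648 ordPar_E6_4 ordNx_E6_4 ordLens_E6_4 ordSt_E6_4 q,
    stage_sum hD 24 16 3 ordBig_E6_5 648 ordPar_E6_5 ordNx_E6_5 ordLens_E6_5 ordSt_E6_5 q,
    stage_sum hD 16 0 2 ordBig_E6_6 648 ordPar_E6_6 ordNx_E6_6 ordLens_E6_6 ordSt_E6_6 q,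
    sum_bot hD 0 (by decide) q,
    mul_one]

theorem ordPoly_E6 (q : ℕ) (hq : 0 < q) :
    ((q : ℤ) - 1) ^ 6 * ((((ordLens_E6_1.map (fun l => q ^ l)).sum * ((ordLens_E6_2.map (fun l => q ^ l)).sum * ((ordLens_E6_3.map (fun l => q ^ l)).sum * ((ordLens_E6_4.map (fun l => q ^ l)).sum * ((ordLens_E6_5.map (fun l => q ^ l)).sum * ((ordLens_E6_6.map (fun l => q ^ l)).sum)))))) : ℕ) : ℤ) =
      ((((q ^ 2 - 1) * (q ^ 5 - 1) * (q ^ 6 - 1) * (q ^ 8 - 1) * (q ^ 9 - 1) * (q ^ 12 - 1)) : ℕ) : ℤ) := by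
  simp only [ordLens_E6_1, ordLens_E6_2, ordLens_E6_3, ordLens_E6_4, ordLens_E6_5, ordLens_E6_6, List.map_cons, List.map_nil, List.sum_cons, List.sum_nil]
  push_cast [cast_pow_sub_one _ _ hq]
  ring

end Cfsg.Agent.Helper11
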