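import Cfsg.Agent.Helper11.ChevOrdTabE8a
import Cfsg.Agent.Helper11.ChevOrdTabE8

set_option autoImplicit false
set_option maxRecDepth 100000
set_option maxHeartbeats 0
set_option Elab.async false

namespace Cfsg.Agent.Helper11

open Cfsg.Lie

theorem weyl_sum_E8 {F : Type*} [Field F] [Fintype F] (hD : Seven chevE8)
    [hNorm : (HN chevE8 F).Normal] [Fintype (↥(chevE8.monomialSubgroup F) ⧸ HN chevE8 F)] (q : ℕ) :
    ∑ w : ↥(chevE8.monomialSubgroup F) ⧸ HN chevE8 F, q ^ ell hD w =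
      (ordLens_E8_1.map (fun l => q ^ l)).sum * ((ordLens_E8_2.map (fun l => q ^ l)).sum * ((ordLens_E8_3.map (fun l => q ^ l)).sum * ((ordLens_E8_4.map (fun l => q ^ l)).sum * ((ordLens_E8_5.map (fun l => q ^ l)).sum * ((ordLens_E8_6.map (fun l => q ^ l)).sum * ((ordLens_E8_7.map (fun l => q ^ l)).sum * ((ordLens_E8_8.map (fun l => q ^ l)).sum))))))) := by
  letI : ∀ m : ℕ, Fintype ↥(WJ (F := F) hD m) := fun m => Fintype.ofFinite _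
  rw [sum_top hD 255 (by decide) q,
    stage_sum2 hD ordRf_E8 255 127 240 ordBig_E8_1 2160 ordPar_E8_1 ordNx_E8_1 ordLens_E8_1 ordRfOK_E8 ordSt_E8_1 q,
    stage_sum2 hD ordRf_E8 127 63 56 ordBig_E8_2 2160 ordPar_E8_2 ordNx_E8_2 ordLens_E8_2 ordRfOK_E8 ordSt_E8_2 q,
    stage_sum2 hD ordRf_E8 63 62 27 ordBig_E8_3 2160 ordPar_E8_3 ordNx_E8_3 ordLens_E8_3 ordRfOK_E8 ordSt_E8_3 q,
    stage_sum2 hD ordRf_E8 62 30 10 ordBig_E8_4 2160 ordPar_E8_4 ordNx_E8_4 ordLens_E8_4 ordRfOK_E8 ordSt_E8_4 q,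
    stage_sum2 hD ordRf_E8 30 28 8 ordBig_E8_5 2160 ordPar_E8_5 ordNx_E8_5 ordLens_E8_5 ordRfOK_E8 ordSt_E8_5 q,
    stage_sum2 hD ordRf_E8 28 24 4 ordBig_E8_6 2160 ordPar_E8_6 ordNx_E8_6 ordLens_E8_6 ordRfOK_E8 ordSt_E8_6 q,
    stage_sum2 hD ordRf_E8 24 16 3 ordBig_E8_7 2160 ordPar_E8_7 ordNx_E8_7 ordLens_E8_7 ordRfOK_E8 ordSt_E8_7 q,
    stage_sum2 hD ordRf_E8 16 0 2 ordBig_E8_8 2160 ordPar_E8_8 ordNx_E8_8 ordLens_E8_8 ordRfOK_E8 ordSt_E8_8 q,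
    sum_bot hD 0 (by decide) q,
    mul_one]

theorem ordPoly_E8 (q : ℕ) (hq : 0 < q) :
    ((q : ℤ) - 1) ^ 8 * ((((ordLens_E8_1.map (fun l => q ^ l)).sum * ((ordLens_E8_2.map (fun l => q ^ l)).sum * ((ordLens_E8_3.map (fun l => q ^ l)).sum * ((ordLens_E8_4.map (fun l => q ^ l)).sum * ((ordLens_E8_5.map (fun l => q ^ l)).sum * ((ordLens_E8_6.map (fun l => q ^ l)).sum * ((ordLens_E8_7.map (fun l => q ^ l)).sum * ((ordLens_E8_8.map (fun l => q ^ l)).sum)))))))) : ℕ) : ℤ) =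
      ((((q ^ 2 - 1) * (q ^ 8 - 1) * (q ^ 12 - 1) * (q ^ 14 - 1) * (q ^ 18 - 1) * (q ^ 20 - 1) * (q ^ 24 - 1) * (q ^ 30 - 1)) : ℕ) : ℤ) := by
  simp only [ordLens_E8_1, ordLens_E8_2, ordLens_E8_3, ordLens_E8_4, ordLens_E8_5, ordLens_E8_6, ordLens_E8_7, ordLens_E8_8, List.map_cons, List.map_nil, List.sum_cons, List.sum_nil]
  push_cast [cast_pow_sub_one _ _ hq]
  ring

end Cfsg.Agent.Helper11
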