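import Cfsg.Agent.Helper11.ChevOrdTabF4

set_option autoImplicit false
set_option maxRecDepth 100000
set_option maxHeartbeats 0
set_option Elab.async false

namespace Cfsg.Agent.Helper11

open Cfsg.Lie

theorem weyl_sum_F4 {F : Type*} [Field F] [Fintype F] (hD : Seven chevF4)
    [hNorm : (HN chevF4 F).Normal] [Fintype (↥(chevF4.monomialSubgroup F) ⧸ HN chevF4 F)] (q : ℕ) :
    ∑ w : ↥(chevF4.monomialSubgroup F) ⧸ HN chevF4 F, q ^ ell hD w =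
      (ordLens_F4_1.map (fun l => q ^ l)).sum * ((ordLens_F4_2.map (fun l => q ^ l)).sum * ((ordLens_F4_3.map (fun l => q ^ l)).sum * ((ordLens_F4_4.map (fun l => q ^ l)).sum))) := by
  letI : ∀ m : ℕ, Fintype ↥(WJ (F := F) hD m) := fun m => Fintype.ofFinite _
  rw [sum_top hD 15 (by decide) q,
    stage_sum hD 15 14 24 ordBig_F4_1 432 ordPar_F4_1 ordNx_F4_1 ordLens_F4_1 ordSt_F4_1 q,
    stage_sum hD 14 6 6 ordBig_F4_2 432 ordPar_F4_2 ordNx_F4_2 ordLens_F4_2 ordSt_F4_2 q,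
    stage_sum hD 6 4 4 ordBig_F4_3 432 ordPar_F4_3 ordNx_F4_3 ordLens_F4_3 ordSt_F4_3 q,
    stage_sum hD 4 0 2 ordBig_F4_4 432 ordPar_F4_4 ordNx_F4_4 ordLens_F4_4 ordSt_F4_4 q,
    sum_bot hD 0 (by decide) q,
    mul_one]

theorem ordPoly_F4 (q : ℕ) (hq : 0 < q) :
    ((q : ℤ) - 1) ^ 4 * ((((ordLens_F4_1.map (fun l => q ^ l)).sum * ((ordLens_F4_2.map (fun l => q ^ l)).sum * ((ordLens_F4_3.map (fun l => q ^ l)).sum * ((ordLens_F4_4.map (fun l => q ^ l)).sum)))) : ℕ) : ℤ) =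
      ((((q ^ 2 - 1) * (q ^ 6 - 1) * (q ^ 8 - 1) * (q ^ 12 - 1)) : ℕ) : ℤ) := by
  simp only [ordLens_F4_1, ordLens_F4_2, ordLens_F4_3, ordLens_F4_4, List.map_cons, List.map_nil, List.sum_cons, List.sum_nil]
  push_cast [cast_pow_sub_one _ _ hq]
  ring

end Cfsg.Agent.Helper11
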