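import Cfsg.Agent.Helper11.ChevOrdTabG2

set_option autoImplicit false
set_option maxRecDepth 100000
set_option maxHeartbeats 0
set_option Elab.async false

namespace Cfsg.Agent.Helper11

open Cfsg.Lie

theorem weyl_sum_G2 {F : Type*} [Field F] [Fintype F] (hD : Seven chevG2)
    [hNorm : (HN chevG2 F).Normal] [Fintype (↥(chevG2.monomialSubgroup F) ⧸ HN chevG2 F)] (q : ℕ) :
    ∑ w : ↥(chevG2.monomialSubgroup F) ⧸ HN chevG2 F, q ^ ell hD w =
      (ordLens_G2_1.map (fun l => q ^ l)).sum * ((ordLens_G2_2.map (fun l => q ^ l)).sum) := by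
  letI : ∀ m : ℕ, Fintype ↥(WJ (F := F) hD m) := fun m => Fintype.ofFinite _
  rw [sum_top hD 3 (by decide) q,
    stage_sum hD 3 2 6 ordBig_G2_1 108 ordPar_G2_1 ordNx_G2_1 ordLens_G2_1 ordSt_G2_1 q,
    stage_sum hD 2 0 2 ordBig_G2_2 108 ordPar_G2_2 ordNx_G2_2 ordLens_G2_2 ordSt_G2_2 q,
    sum_bot hD 0 (by decide) q,
    mul_one]

theorem ordPoly_G2 (q : ℕ) (hq : 0 < q) :
    ((q : ℤ) - 1) ^ 2 * ((((ordLens_G2_1.map (fun l => q ^ l)).sum * ((ordLens_G2_2.map (fun l => q ^ l)).sum)) : ℕ) : ℤ) =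
      ((((q ^ 2 - 1) * (q ^ 6 - 1)) : ℕ) : ℤ) := by
  simp only [ordLens_G2_1, ordLens_G2_2, List.map_cons, List.map_nil, List.sum_cons, List.sum_nil]
  push_cast [cast_pow_sub_one _ _ hq]
  ring

end Cfsg.Agent.Helper11
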