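import Cfsg.Agent.Helper11.ChevOrd3

set_option autoImplicit false
set_option maxRecDepth 100000
set_option maxHeartbeats 0
set_option Elab.async false

namespace Cfsg.Agent.Helper11

open Cfsg.Lie

def ordBig_B2_1 : ℕ := 0x80204018180a07018140207000180404020180407000140203038180a04018080200
def ordPar_B2_1 : ℕ := 0x2101000000
def ordNx_B2_1 : ℕ := 0x501020502030001
def ordLens_B2_1 : List ℕ := [0, 1, 2, 3]
theorem ordSt_B2_1 : stageOK chevB2 3 2 4 ordBig_B2_1 72 ordPar_B2_1 ordNx_B2_1 ordLens_B2_1 = true := by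
  decide +kernel

def ordBig_B2_2 : ℕ := 0x38140c03020040400038180a04018080200
def ordPar_B2_2 : ℕ := 0x100000
def ordNx_B2_2 : ℕ := 0x10000
def ordLens_B2_2 : List ℕ := [0, 1]
theorem ordSt_B2_2 : stageOK chevB2 2 0 2 ordBig_B2_2 72 ordPar_B2_2 ordNx_B2_2 ordLens_B2_2 = true := by
  decide +kernel

end Cfsg.Agent.Helper11
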