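import Cfsg.Agent.Helper11.ChevOrd3

set_option autoImplicit false
set_option maxRecDepth 100000
set_option maxHeartbeats 0
set_option Elab.async false

namespace Cfsg.Agent.Helper11

open Cfsg.Lie

def ordBig_G2_1 : ℕ := 0x8000404018180a0803824160a0280006070102802090202016060300408080102c00090181c1405050140e090182c0008010100c010581810090202802070100c0a00058281208038180a04018080200
def ordPar_G2_1 : ℕ := 0x4103002101000000
def ordNx_G2_1 : ℕ := 0x70304010207040502030001
def ordLens_G2_1 : List ℕ := [0, 1, 2, 3, 4, 5]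
theorem ordSt_G2_1 : stageOK chevG2 3 2 6 ordBig_G2_1 108 ordPar_G2_1 ordNx_G2_1 ordLens_G2_1 = true := by
  decide +kernel

def ordBig_G2_2 : ℕ := 0x502c1207040140c03020080001058281208038180a04018080200
def ordPar_G2_2 : ℕ := 0x100000
def ordNx_G2_2 : ℕ := 0x10000
def ordLens_G2_2 : List ℕ := [0, 1]
theorem ordSt_G2_2 : stageOK chevG2 2 0 2 ordBig_G2_2 108 ordPar_G2_2 ordNx_G2_2 ordLens_G2_2 = true := by
  decide +kernel

end Cfsg.Agent.Helper11
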