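import Cfsg.Agent.Helper11.ChevLevi2
import Cfsg.Agent.Helper11.ChevCox

set_option autoImplicit false

/-!
Table fact: the `j`-th fundamental reflection changes only the `j`-th coroot coordinate of a root.
-/

namespace Cfsg.Agent.Helper11

open Cfsg.Lie

noncomputable def reflOK (D : ChevalleyDatum) : Bool :=
  allN D.rank (fun j => allN D.nroots (fun r => allN D.rank (fun m =>
    cond (Nat.beq m j) true (isZ (Int.sub (corAt D (wAt D j r) m) (corAt D r m))))))

theorem reflOK_spec {D : ChevalleyDatum} (hT : tabOK D = true) (h : reflOK D = true) (j r m : ℕ)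
    (hj : j < D.rank) (hr : r < D.nroots) (hm : m < D.rank) (hne : m ≠ j)
    (hw : wAt D j r < D.nroots) : corD D (wAt D j r) m = corD D r m := by
  have h1 := (allN_spec _ _).mp ((allN_spec _ _).mp ((allN_spec _ _).mp h j hj) r hr) m hm
  rw [beq_false_of_ne hne, cond_false] at h1
  have h2 := isZ_eq _ h1
  rw [tabOK_cor hT _ m hw hm, tabOK_cor hT r m hr hm] at h2
  exact sub_eq_zero.mp h2

end Cfsg.Agent.Helper11
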