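import Mathlib

set_option autoImplicit false

/-!
A presentation-style criterion for homomorphisms out of `SL₂(F)`: four families `X`, `Y`, `N`, `H`
in a group that satisfy the rank-one Steinberg relations give a homomorphism sending the upper and
lower elementary matrices to `X t` and `Y t`.
-/

namespace Cfsg.Agent.Helper11

section SL2
variable {F : Type*} [Field F]

/-- The upper elementary matrix. -/
def sl2U (t : F) : Matrix.SpecialLinearGroup (Fin 2) F :=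
  ⟨!![1, t; 0, 1], by simp [Matrix.det_fin_two]⟩

/-- The lower elementary matrix. -/
def sl2L (t : F) : Matrix.SpecialLinearGroup (Fin 2) F :=
  ⟨!![1, 0; t, 1], by simp [Matrix.det_fin_two]⟩

/-- The Weyl element. -/
def sl2W : Matrix.SpecialLinearGroup (Fin 2) F :=
  ⟨!![0, 1; -1, 0], by simp [Matrix.det_fin_two]⟩

/-- The inverse Weyl element. -/
def sl2V : Matrix.SpecialLinearGroup (Fin 2) F :=
  ⟨!![0, -1; 1, 0], by simp [Matrix.det_fin_two]⟩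

theorem sl2_mul_entry (A g : Matrix.SpecialLinearGroup (Fin 2) F) (i j : Fin 2) :
    (A * g).1 i j = A.1 i 0 * g.1 0 j + A.1 i 1 * g.1 1 j := by
  show (A.1 * g.1) i j = _
  rw [Matrix.mul_apply, Fin.sum_univ_two]

theorem sl2_ext {g h : Matrix.SpecialLinearGroup (Fin 2) F} (h00 : g.1 0 0 = h.1 0 0)
    (h01 : g.1 0 1 = h.1 0 1) (h10 : g.1 1 0 = h.1 1 0) (h11 : g.1 1 1 = h.1 1 1) : g = h := by
  apply Subtype.ext
  ext i j
  fin_cases i <;> fin_cases j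
  · exact h00
  · exact h01
  · exact h10
  · exact h11

theorem sl2U_00 (t : F) : (sl2U t).1 0 0 = 1 := rfl
theorem sl2U_01 (t : F) : (sl2U t).1 0 1 = t := rfl
theorem sl2U_10 (t : F) : (sl2U t).1 1 0 = 0 := rfl
theorem sl2U_11 (t : F) : (sl2U t).1 1 1 = 1 := rfl
theorem sl2L_00 (t : F) : (sl2L t).1 0 0 = 1 := rfl
theorem sl2L_01 (t : F) : (sl2L t).1 0 1 = 0 := rfl
theorem sl2L_10 (t : F) : (sl2L t).1 1 0 = t := rfl
theorem sl2L_11 (t : F) : (sl2L t).1 1 1 = 1 := rfl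
theorem sl2W_00 : (sl2W (F := F)).1 0 0 = 0 := rfl
theorem sl2W_01 : (sl2W (F := F)).1 0 1 = 1 := rfl
theorem sl2W_10 : (sl2W (F := F)).1 1 0 = -1 := rfl
theorem sl2W_11 : (sl2W (F := F)).1 1 1 = 0 := rfl
theorem sl2V_00 : (sl2V (F := F)).1 0 0 = 0 := rfl
theorem sl2V_01 : (sl2V (F := F)).1 0 1 = -1 := rfl
theorem sl2V_10 : (sl2V (F := F)).1 1 0 = 1 := rfl
theorem sl2V_11 : (sl2V (F := F)).1 1 1 = 0 := rfl

theorem sl2U_mul_00 (t : F) (g : Matrix.SpecialLinearGroup (Fin 2) F) :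
    (sl2U t * g).1 0 0 = g.1 0 0 + t * g.1 1 0 := by
  rw [sl2_mul_entry, sl2U_00, sl2U_01, one_mul]
theorem sl2U_mul_01 (t : F) (g : Matrix.SpecialLinearGroup (Fin 2) F) :
    (sl2U t * g).1 0 1 = g.1 0 1 + t * g.1 1 1 := by
  rw [sl2_mul_entry, sl2U_00, sl2U_01, one_mul]
theorem sl2U_mul_10 (t : F) (g : Matrix.SpecialLinearGroup (Fin 2) F) :
    (sl2U t * g).1 1 0 = g.1 1 0 := by
  rw [sl2_mul_entry, sl2U_10, sl2U_11, one_mul, zero_mul, zero_add]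
theorem sl2U_mul_11 (t : F) (g : Matrix.SpecialLinearGroup (Fin 2) F) :
    (sl2U t * g).1 1 1 = g.1 1 1 := by
  rw [sl2_mul_entry, sl2U_10, sl2U_11, one_mul, zero_mul, zero_add]

theorem sl2L_mul_00 (t : F) (g : Matrix.SpecialLinearGroup (Fin 2) F) :
    (sl2L t * g).1 0 0 = g.1 0 0 := by
  rw [sl2_mul_entry, sl2L_00, sl2L_01, one_mul, zero_mul, add_zero]
theorem sl2L_mul_01 (t : F) (g : Matrix.SpecialLinearGroup (Fin 2) F) :
    (sl2L t * g).1 0 1 = g.1 0 1 := by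
  rw [sl2_mul_entry, sl2L_00, sl2L_01, one_mul, zero_mul, add_zero]
theorem sl2L_mul_10 (t : F) (g : Matrix.SpecialLinearGroup (Fin 2) F) :
    (sl2L t * g).1 1 0 = t * g.1 0 0 + g.1 1 0 := by
  rw [sl2_mul_entry, sl2L_10, sl2L_11, one_mul]
theorem sl2L_mul_11 (t : F) (g : Matrix.SpecialLinearGroup (Fin 2) F) :
    (sl2L t * g).1 1 1 = t * g.1 0 1 + g.1 1 1 := by
  rw [sl2_mul_entry, sl2L_10, sl2L_11, one_mul]

theorem sl2W_mul_00 (g : Matrix.SpecialLinearGroup (Fin 2) F) : (sl2W * g).1 0 0 = g.1 1 0 := by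
  rw [sl2_mul_entry, sl2W_00, sl2W_01, one_mul, zero_mul, zero_add]
theorem sl2W_mul_01 (g : Matrix.SpecialLinearGroup (Fin 2) F) : (sl2W * g).1 0 1 = g.1 1 1 := by
  rw [sl2_mul_entry, sl2W_00, sl2W_01, one_mul, zero_mul, zero_add]
theorem sl2W_mul_10 (g : Matrix.SpecialLinearGroup (Fin 2) F) : (sl2W * g).1 1 0 = -g.1 0 0 := by
  rw [sl2_mul_entry, sl2W_10, sl2W_11, neg_one_mul, zero_mul, add_zero]
theorem sl2W_mul_11 (g : Matrix.SpecialLinearGroup (Fin 2) F) : (sl2W * g).1 1 1 = -g.1 0 1 := by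
  rw [sl2_mul_entry, sl2W_10, sl2W_11, neg_one_mul, zero_mul, add_zero]

theorem sl2V_mul_00 (g : Matrix.SpecialLinearGroup (Fin 2) F) : (sl2V * g).1 0 0 = -g.1 1 0 := by
  rw [sl2_mul_entry, sl2V_00, sl2V_01, neg_one_mul, zero_mul, zero_add]
theorem sl2V_mul_01 (g : Matrix.SpecialLinearGroup (Fin 2) F) : (sl2V * g).1 0 1 = -g.1 1 1 := by
  rw [sl2_mul_entry, sl2V_00, sl2V_01, neg_one_mul, zero_mul, zero_add]
theorem sl2V_mul_10 (g : Matrix.SpecialLinearGroup (Fin 2) F) : (sl2V * g).1 1 0 = g.1 0 0 := by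
  rw [sl2_mul_entry, sl2V_10, sl2V_11, one_mul, zero_mul, add_zero]
theorem sl2V_mul_11 (g : Matrix.SpecialLinearGroup (Fin 2) F) : (sl2V * g).1 1 1 = g.1 0 1 := by
  rw [sl2_mul_entry, sl2V_10, sl2V_11, one_mul, zero_mul, add_zero]

theorem sl2W_sl2V_mul (g : Matrix.SpecialLinearGroup (Fin 2) F) : sl2W * (sl2V * g) = g := by
  apply sl2_ext
  · rw [sl2W_mul_00, sl2V_mul_10]
  · rw [sl2W_mul_01, sl2V_mul_11]
  · rw [sl2W_mul_10, sl2V_mul_00, neg_neg]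
  · rw [sl2W_mul_11, sl2V_mul_01, neg_neg]

theorem sl2L_eq_mul (t : F) (g : Matrix.SpecialLinearGroup (Fin 2) F) :
    sl2L t * g = sl2W * (sl2U (-t) * (sl2V * g)) := by
  apply sl2_ext
  · rw [sl2L_mul_00, sl2W_mul_00, sl2U_mul_10, sl2V_mul_10]
  · rw [sl2L_mul_01, sl2W_mul_01, sl2U_mul_11, sl2V_mul_11]
  · rw [sl2L_mul_10, sl2W_mul_10, sl2U_mul_00, sl2V_mul_00, sl2V_mul_10]; ring
  · rw [sl2L_mul_11, sl2W_mul_11, sl2U_mul_01, sl2V_mul_01, sl2V_mul_11]; ring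

theorem sl2L_cancel (g : Matrix.SpecialLinearGroup (Fin 2) F) : sl2L 1 * (sl2L (-1) * g) = g := by
  apply sl2_ext
  · rw [sl2L_mul_00, sl2L_mul_00]
  · rw [sl2L_mul_01, sl2L_mul_01]
  · rw [sl2L_mul_10, sl2L_mul_00, sl2L_mul_10]; ring
  · rw [sl2L_mul_11, sl2L_mul_01, sl2L_mul_11]; ring

theorem sl2_det (g : Matrix.SpecialLinearGroup (Fin 2) F) :
    g.1 0 0 * g.1 1 1 - g.1 0 1 * g.1 1 0 = 1 := by
  have h := g.2
  rw [Matrix.det_fin_two] at h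
  exact h

theorem sl2_decomp (g : Matrix.SpecialLinearGroup (Fin 2) F) (hc : g.1 1 0 ≠ 0) :
    g = sl2U ((g.1 0 0 - 1) * (g.1 1 0)⁻¹) *
      (sl2L (g.1 1 0) * sl2U ((g.1 1 1 - 1) * (g.1 1 0)⁻¹)) := by
  have hd := sl2_det g
  obtain ⟨a, ha⟩ : ∃ a, a = g.1 0 0 := ⟨_, rfl⟩
  obtain ⟨b, hb⟩ : ∃ b, b = g.1 0 1 := ⟨_, rfl⟩
  obtain ⟨c, hc'⟩ : ∃ c, c = g.1 1 0 := ⟨_, rfl⟩
  obtain ⟨d, hd'⟩ : ∃ d, d = g.1 1 1 := ⟨_, rfl⟩
  rw [← ha, ← hb, ← hc', ← hd'] at hd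
  rw [← hc'] at hc
  have hxc : (a - 1) * c⁻¹ * c = a - 1 := by rw [mul_assoc, inv_mul_cancel₀ hc, mul_one]
  have hyc : c * ((d - 1) * c⁻¹) = d - 1 := by
    rw [mul_comm, mul_assoc, inv_mul_cancel₀ hc, mul_one]
  have hb2 : b = (a * d - 1) * c⁻¹ := by
    rw [eq_mul_inv_iff_mul_eq₀ hc]; linear_combination (-1 : F) * hd
  apply sl2_ext
  · rw [sl2U_mul_00, sl2L_mul_00, sl2L_mul_10, sl2U_00, sl2U_10, ← ha, ← hc', mul_one, add_zero,
      hxc]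
    ring
  · rw [sl2U_mul_01, sl2L_mul_01, sl2L_mul_11, sl2U_01, sl2U_11, ← ha, ← hb, ← hc', ← hd', hyc,
      hb2]
    ring
  · rw [sl2U_mul_10, sl2L_mul_10, sl2U_00, sl2U_10, mul_one, add_zero]
  · rw [sl2U_mul_11, sl2L_mul_11, sl2U_01, sl2U_11, ← hc', ← hd', hyc]
    ring

/-- Rank-one Steinberg relations give a homomorphism out of `SL₂(F)`. -/
theorem sl2_hom_of_rel {G : Type*} [Group G] (X Y N H : F → G)
    (hX : ∀ t u, X t * X u = X (t + u)) (hY : ∀ t u, Y t * Y u = Y (t + u))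
    (hN : ∀ t, N t = X t * Y (-t⁻¹) * X t) (hH : ∀ t, H t = N t * N (-1))
    (hNinv : ∀ t, (N t)⁻¹ = N (-t))
    (hHmul : ∀ a b, a ≠ 0 → b ≠ 0 → H a * H b = H (a * b))
    (hHX : ∀ c t, c ≠ 0 → H c * X t * (H c)⁻¹ = X (c * c * t))
    (hHY : ∀ c t, c ≠ 0 → H c * Y t * (H c)⁻¹ = Y ((c * c)⁻¹ * t))
    (hNX : ∀ u, N 1 * X u * (N 1)⁻¹ = Y (-u))
    (hNY : ∀ u, N 1 * Y u * (N 1)⁻¹ = X (-u)) :
    ∃ φ : Matrix.SpecialLinearGroup (Fin 2) F →* G,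
      (∀ t, φ (sl2U t) = X t) ∧ (∀ t, φ (sl2L t) = Y t) ∧
      ∀ g, φ g ∈ Subgroup.closure (Set.range X ∪ Set.range Y) := by
  classical
  have X0 : X 0 = 1 := by
    have h := hX 0 0
    rw [add_zero] at h
    exact mul_left_cancel (a := X 0) (by rw [h, mul_one])
  have Xinv : ∀ t, (X t)⁻¹ = X (-t) := fun t =>
    inv_eq_of_mul_eq_one_right (by rw [hX, add_neg_cancel, X0])
  have Ninv1 : (N 1)⁻¹ = N (-1) := hNinv 1
  have N1' : N 1 = (N (-1))⁻¹ := by rw [hNinv, neg_neg]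
  have H1 : H 1 = 1 := by rw [hH, ← Ninv1, mul_inv_cancel]
  have Hinv : ∀ c, c ≠ 0 → (H c)⁻¹ = H c⁻¹ := fun c hc =>
    inv_eq_of_mul_eq_one_right (by rw [hHmul c c⁻¹ hc (inv_ne_zero hc), mul_inv_cancel₀ hc, H1])
  have HXc : ∀ c t, c ≠ 0 → H c * X t = X (c * c * t) * H c := fun c t hc => by
    rw [← hHX c t hc]; group
  have XH : ∀ c s, c ≠ 0 → X s * H c = H c * X ((c * c)⁻¹ * s) := fun c s hc => by
    have e : c * c * ((c * c)⁻¹ * s) = s := by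
      rw [← mul_assoc, mul_inv_cancel₀ (mul_ne_zero hc hc), one_mul]
    rw [HXc c _ hc, e]
  have Nf : ∀ t, N t = H t * N 1 := fun t => by
    rw [hH, N1']; group
  have NN1 : N 1 * N 1 = H (-1) := by
    have h2 : H (-1) = N (-1) * N (-1) := hH (-1)
    have e : ((-1 : F))⁻¹ = -1 := by rw [inv_neg, inv_one]
    have h3 : (H (-1))⁻¹ = H (-1) := by
      rw [Hinv (-1) (neg_ne_zero.mpr one_ne_zero), e]
    rw [← h3, h2, N1']; group
  have NXt : ∀ t u, t ≠ 0 → N t * X u * (N t)⁻¹ = Y ((t * t)⁻¹ * (-u)) := fun t u ht => by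
    have e : N t * X u * (N t)⁻¹ = H t * (N 1 * X u * (N 1)⁻¹) * (H t)⁻¹ := by
      rw [Nf t]; group
    rw [e, hNX, hHY t _ ht]
  have NYt : ∀ t u, t ≠ 0 → N t * Y u * (N t)⁻¹ = X (t * t * (-u)) := fun t u ht => by
    have e : N t * Y u * (N t)⁻¹ = H t * (N 1 * Y u * (N 1)⁻¹) * (H t)⁻¹ := by
      rw [Nf t]; group
    rw [e, hNY, hHX t _ ht]
  have braid : ∀ t, t ≠ 0 → N t = Y (-t⁻¹) * X t * Y (-t⁻¹) := fun t ht => by
    have e : N t = (N t * X t * (N t)⁻¹) * (N t * Y (-t⁻¹) * (N t)⁻¹) * (N t * X t * (N t)⁻¹) := by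
      have h := hN t
      have e2 : (N t * X t * (N t)⁻¹) * (N t * Y (-t⁻¹) * (N t)⁻¹) * (N t * X t * (N t)⁻¹)
          = N t * (X t * Y (-t⁻¹) * X t) * (N t)⁻¹ := by group
      rw [e2, ← h]; group
    have e1 : (t * t)⁻¹ * (-t) = -t⁻¹ := by
      rw [mul_inv, mul_neg, mul_assoc, inv_mul_cancel₀ ht, mul_one]
    have e3 : t * t * (-(-t⁻¹)) = t := by
      rw [neg_neg, mul_assoc, mul_inv_cancel₀ ht, mul_one]
    rw [NXt t t ht, NYt t _ ht, e1, e3] at e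
    exact e
  have NHc : ∀ a, a ≠ 0 → N 1 * H a = H a⁻¹ * N 1 := fun a ha => by
    have e0 : N 1 * N a * (N 1)⁻¹ = N a⁻¹ := by
      have e : N 1 * N a * (N 1)⁻¹ =
          (N 1 * X a * (N 1)⁻¹) * (N 1 * Y (-a⁻¹) * (N 1)⁻¹) * (N 1 * X a * (N 1)⁻¹) := by
        rw [hN a]; group
      rw [e, hNX, hNY, braid a⁻¹ (inv_ne_zero ha), inv_inv, neg_neg]
    have e1 : N 1 * H a * (N 1)⁻¹ = H a⁻¹ := by
      have e : N 1 * H a * (N 1)⁻¹ = (N 1 * N a * (N 1)⁻¹) * N (-1) := by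
        rw [hH a, ← Ninv1]; group
      rw [e, e0, ← hH]
    rw [← e1]; group
  have NNc : ∀ c, c ≠ 0 → N 1 * N (-c⁻¹) = H c := fun c hc => by
    have hc' : -c⁻¹ ≠ 0 := neg_ne_zero.mpr (inv_ne_zero hc)
    have e1 : (-c⁻¹)⁻¹ = -c := by rw [inv_neg, inv_inv]
    have e2 : -c * -1 = c := by ring
    have e3 : N 1 * (H (-c⁻¹) * N 1) = (N 1 * H (-c⁻¹)) * N 1 := by group
    have e4 : H (-c) * N 1 * N 1 = H (-c) * (N 1 * N 1) := by group
    rw [Nf (-c⁻¹), e3, NHc _ hc', e1, e4, NN1,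
      hHmul _ _ (neg_ne_zero.mpr hc) (neg_ne_zero.mpr one_ne_zero), e2]
  have cell : ∀ t, Y (-t⁻¹) = X (-t) * N t * X (-t) := fun t => by
    rw [hN t, ← Xinv]; group
  have K1 : ∀ z c, z ≠ 0 → c ≠ 0 →
      N 1 * X z * N (-c⁻¹) = X (-z⁻¹) * N ((z * c)⁻¹) * X (-(z * (c * c))⁻¹) := fun z c hz hc => by
    have hzi : z⁻¹ ≠ 0 := inv_ne_zero hz
    have hci : c⁻¹ ≠ 0 := inv_ne_zero hc
    have s1 : N 1 * X z = Y (-z) * N 1 := by rw [← hNX z]; group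
    have s2 : Y (-z) = X (-z⁻¹) * N z⁻¹ * X (-z⁻¹) := by
      have h := cell z⁻¹
      rw [inv_inv] at h
      exact h
    have s3 : X (-z⁻¹) * H c = H c * X ((c * c)⁻¹ * (-z⁻¹)) := XH c _ hc
    have s4 : N z⁻¹ * H c = N ((z * c)⁻¹) := by
      have e5 : H z⁻¹ * N 1 * H c = H z⁻¹ * (N 1 * H c) := by group
      have e6 : H z⁻¹ * (H c⁻¹ * N 1) = (H z⁻¹ * H c⁻¹) * N 1 := by group
      have e7 : z⁻¹ * c⁻¹ = (z * c)⁻¹ := by rw [mul_inv]
      rw [Nf z⁻¹, e5, NHc c hc, e6, hHmul _ _ hzi hci, e7, ← Nf]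
    have s5 : (c * c)⁻¹ * (-z⁻¹) = -(z * (c * c))⁻¹ := by
      rw [mul_neg, ← mul_inv, mul_comm (c * c) z]
    have e9 : X (-z⁻¹) * N z⁻¹ * X (-z⁻¹) * N 1 * N (-c⁻¹)
        = X (-z⁻¹) * N z⁻¹ * X (-z⁻¹) * (N 1 * N (-c⁻¹)) := by group
    have e10 : X (-z⁻¹) * N z⁻¹ * X (-z⁻¹) * H c
        = X (-z⁻¹) * N z⁻¹ * (X (-z⁻¹) * H c) := by group
    have e11 : X (-z⁻¹) * N z⁻¹ * (H c * X ((c * c)⁻¹ * (-z⁻¹)))
        = X (-z⁻¹) * (N z⁻¹ * H c) * X ((c * c)⁻¹ * (-z⁻¹)) := by group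
    rw [s1, s2, e9, NNc c hc, e10, s3, e11, s4, s5]
  obtain ⟨ψ, hψ⟩ : ∃ ψ : Matrix.SpecialLinearGroup (Fin 2) F → G, ∀ g, ψ g =
      if g.1 1 0 = 0 then X (g.1 0 0 * g.1 0 1) * H (g.1 0 0)
      else X (g.1 0 0 * (g.1 1 0)⁻¹) * N (-(g.1 1 0)⁻¹) * X (g.1 1 1 * (g.1 1 0)⁻¹) :=
    ⟨_, fun g => rfl⟩
  have L1 : ∀ t g, ψ (sl2U t * g) = X t * ψ g := fun t g => by
    rw [hψ, hψ g, sl2U_mul_00, sl2U_mul_01, sl2U_mul_10, sl2U_mul_11]
    by_cases hc : g.1 1 0 = 0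
    · rw [if_pos hc, if_pos hc, hc, mul_zero, add_zero]
      have had : g.1 0 0 * g.1 1 1 = 1 := by
        have h := sl2_det g
        rw [hc, mul_zero, sub_zero] at h
        exact h
      have e : g.1 0 0 * (g.1 0 1 + t * g.1 1 1) = t + g.1 0 0 * g.1 0 1 := by
        linear_combination t * had
      rw [e, ← hX]; group
    · rw [if_neg hc, if_neg hc]
      have e : (g.1 0 0 + t * g.1 1 0) * (g.1 1 0)⁻¹ = t + g.1 0 0 * (g.1 1 0)⁻¹ := by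
        rw [add_mul, mul_assoc, mul_inv_cancel₀ hc, mul_one, add_comm]
      rw [e, ← hX]; group
  have L3 : ∀ g, ψ (sl2W * g) = N 1 * ψ g := fun g => by
    rw [hψ, hψ g, sl2W_mul_00, sl2W_mul_01, sl2W_mul_10, sl2W_mul_11]
    have hdt := sl2_det g
    obtain ⟨a, ha⟩ : ∃ a, a = g.1 0 0 := ⟨_, rfl⟩
    obtain ⟨b, hb⟩ : ∃ b, b = g.1 0 1 := ⟨_, rfl⟩
    obtain ⟨c, hc⟩ : ∃ c, c = g.1 1 0 := ⟨_, rfl⟩
    obtain ⟨d, hd⟩ : ∃ d, d = g.1 1 1 := ⟨_, rfl⟩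
    rw [← ha, ← hb, ← hc, ← hd] at hdt
    rw [← ha, ← hb, ← hc, ← hd]
    by_cases hc0 : c = 0
    · have had : a * d = 1 := by rw [hc0, mul_zero, sub_zero] at hdt; exact hdt
      have ha0 : a ≠ 0 := fun h => by rw [h, zero_mul] at had; exact zero_ne_one had
      have hna : ¬ (-a = 0) := fun h => ha0 (neg_eq_zero.mp h)
      rw [if_neg hna, if_pos hc0, hc0, zero_mul, X0, one_mul]
      have e1 : -(-a)⁻¹ = a⁻¹ := by rw [inv_neg, neg_neg]
      have e2 : -b * (-a)⁻¹ = (a * a)⁻¹ * (a * b) := by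
        first | (field_simp; ring) | field_simp
      have e3 : N 1 * (H a * X ((a * a)⁻¹ * (a * b)))
          = (N 1 * H a) * X ((a * a)⁻¹ * (a * b)) := by group
      rw [e1, e2, XH a _ ha0, e3, NHc a ha0, ← Nf]
    · by_cases ha0 : a = 0
      · have hna : -a = 0 := by rw [ha0, neg_zero]
        rw [if_pos hna, if_neg hc0, ha0, zero_mul, X0, one_mul]
        have e1 : N 1 * (N (-c⁻¹) * X (d * c⁻¹)) = (N 1 * N (-c⁻¹)) * X (d * c⁻¹) := by group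
        have e2 : (c * c)⁻¹ * (c * d) = d * c⁻¹ := by
          first | (field_simp; ring) | field_simp
        rw [e1, NNc c hc0, XH c _ hc0, e2]
      · have hna : ¬ (-a = 0) := fun h => ha0 (neg_eq_zero.mp h)
        rw [if_neg hna, if_neg hc0]
        have hz : a * c⁻¹ ≠ 0 := mul_ne_zero ha0 (inv_ne_zero hc0)
        have hb' : b = (a * d - 1) * c⁻¹ := by
          rw [eq_mul_inv_iff_mul_eq₀ hc0]; linear_combination (-1 : F) * hdt
        have e1 : N 1 * (X (a * c⁻¹) * N (-c⁻¹) * X (d * c⁻¹))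
            = (N 1 * X (a * c⁻¹) * N (-c⁻¹)) * X (d * c⁻¹) := by group
        have e2 : X (-(a * c⁻¹)⁻¹) * N ((a * c⁻¹ * c)⁻¹) * X (-(a * c⁻¹ * (c * c))⁻¹)
            * X (d * c⁻¹) = X (-(a * c⁻¹)⁻¹) * N ((a * c⁻¹ * c)⁻¹)
            * (X (-(a * c⁻¹ * (c * c))⁻¹) * X (d * c⁻¹)) := by group
        have f1 : c * (-a)⁻¹ = -(a * c⁻¹)⁻¹ := by
          first | (field_simp; ring) | field_simp
        have f2 : -(-a)⁻¹ = (a * c⁻¹ * c)⁻¹ := by
          first | (field_simp; ring) | field_simp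
        have f3 : -b * (-a)⁻¹ = -(a * c⁻¹ * (c * c))⁻¹ + d * c⁻¹ := by
          rw [hb']
          first | (field_simp; ring) | field_simp
        rw [e1, K1 _ c hz hc0, e2, hX, f1, f2, f3]
  have L3' : ∀ g, ψ (sl2V * g) = (N 1)⁻¹ * ψ g := fun g => by
    have h := L3 (sl2V * g)
    rw [sl2W_sl2V_mul] at h
    rw [h]; group
  have L2 : ∀ t g, ψ (sl2L t * g) = Y t * ψ g := fun t g => by
    have e2 : N 1 * (X (-t) * ((N 1)⁻¹ * ψ g)) = (N 1 * X (-t) * (N 1)⁻¹) * ψ g := by group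
    rw [sl2L_eq_mul, L3, L1, L3', e2, hNX, neg_neg]
  have hψ1 : ψ 1 = 1 := by
    have h10 : (1 : Matrix.SpecialLinearGroup (Fin 2) F).1 1 0 = 0 := by
      show (1 : Matrix (Fin 2) (Fin 2) F) 1 0 = 0
      exact Matrix.one_apply_ne (by decide)
    have h00 : (1 : Matrix.SpecialLinearGroup (Fin 2) F).1 0 0 = 1 := by
      show (1 : Matrix (Fin 2) (Fin 2) F) 0 0 = 1
      exact Matrix.one_apply_eq 0
    have h01 : (1 : Matrix.SpecialLinearGroup (Fin 2) F).1 0 1 = 0 := by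
      show (1 : Matrix (Fin 2) (Fin 2) F) 0 1 = 0
      exact Matrix.one_apply_ne (by decide)
    rw [hψ, if_pos h10, h00, h01, mul_zero, X0, H1, one_mul]
  have hstep : ∀ (p : F ⊕ F) g, ψ (Sum.elim sl2U sl2L p * g) = Sum.elim X Y p * ψ g := by
    rintro (t | t) g
    · exact L1 t g
    · exact L2 t g
  have hword : ∀ (w : List (F ⊕ F)) g,
      ψ ((w.map (Sum.elim sl2U sl2L)).prod * g) = (w.map (Sum.elim X Y)).prod * ψ g := by
    intro w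
    induction w with
    | nil =>
      intro g
      rw [List.map_nil, List.prod_nil, List.map_nil, List.prod_nil, one_mul, one_mul]
    | cons p w ih =>
      intro g
      have e1 : ((p :: w).map (Sum.elim sl2U sl2L)).prod * g
          = Sum.elim sl2U sl2L p * ((w.map (Sum.elim sl2U sl2L)).prod * g) := by
        rw [List.map_cons, List.prod_cons, mul_assoc]
      have e2 : ((p :: w).map (Sum.elim X Y)).prod * ψ g
          = Sum.elim X Y p * ((w.map (Sum.elim X Y)).prod * ψ g) := by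
        rw [List.map_cons, List.prod_cons, mul_assoc]
      rw [e1, e2, hstep, ih]
  have hword1 : ∀ (w : List (F ⊕ F)),
      ψ ((w.map (Sum.elim sl2U sl2L)).prod) = (w.map (Sum.elim X Y)).prod := by
    intro w
    have h2 := hword w 1
    rw [mul_one, hψ1, mul_one] at h2
    exact h2
  have hsurj1 : ∀ g : Matrix.SpecialLinearGroup (Fin 2) F, g.1 1 0 ≠ 0 →
      ∃ w : List (F ⊕ F), g = (w.map (Sum.elim sl2U sl2L)).prod := by
    intro g hc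
    have h := sl2_decomp g hc
    refine ⟨[Sum.inl ((g.1 0 0 - 1) * (g.1 1 0)⁻¹), Sum.inr (g.1 1 0),
      Sum.inl ((g.1 1 1 - 1) * (g.1 1 0)⁻¹)], ?_⟩
    simp only [List.map_cons, List.map_nil, List.prod_cons, List.prod_nil, mul_one,
      Sum.elim_inl, Sum.elim_inr]
    exact h
  have hsurj : ∀ g : Matrix.SpecialLinearGroup (Fin 2) F,
      ∃ w : List (F ⊕ F), g = (w.map (Sum.elim sl2U sl2L)).prod := by
    intro g
    by_cases hc : g.1 1 0 = 0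
    · have ha : g.1 0 0 ≠ 0 := by
        intro h
        have hd := sl2_det g
        rw [h, hc, zero_mul, mul_zero, sub_zero] at hd
        exact zero_ne_one hd
      have hc' : (sl2L (-1) * g).1 1 0 ≠ 0 := by
        rw [sl2L_mul_10, hc, add_zero, neg_one_mul]
        exact neg_ne_zero.mpr ha
      obtain ⟨w, hw⟩ := hsurj1 _ hc'
      refine ⟨Sum.inr 1 :: w, ?_⟩
      rw [List.map_cons, List.prod_cons, ← hw]
      exact (sl2L_cancel g).symm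
    · exact hsurj1 g hc
  have hmul : ∀ g h, ψ (g * h) = ψ g * ψ h := by
    intro g h
    obtain ⟨w, hw⟩ := hsurj g
    rw [hw, hword w h, hword1 w]
  refine ⟨MonoidHom.mk' ψ hmul, fun t => ?_, fun t => ?_, fun g => ?_⟩
  · show ψ (sl2U t) = X t
    have h := L1 t 1
    rw [mul_one, hψ1, mul_one] at h
    exact h
  · show ψ (sl2L t) = Y t
    have h := L2 t 1
    rw [mul_one, hψ1, mul_one] at h
    exact h
  · show ψ g ∈ _
    obtain ⟨w, hw⟩ := hsurj g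
    rw [hw, hword1 w]
    apply Subgroup.list_prod_mem
    intro x hx
    rw [List.mem_map] at hx
    obtain ⟨p, -, rfl⟩ := hx
    apply Subgroup.subset_closure
    rcases p with t | t
    · exact Or.inl ⟨t, rfl⟩
    · exact Or.inr ⟨t, rfl⟩

end SL2

end Cfsg.Agent.Helper11
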