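import Cfsg.Agent.Helper11.ChevGrp
import Cfsg.Agent.Helper11.ChevSL2a

set_option autoImplicit false

/-!
The rank-one subgroups `⟨X_r, X_{-r}⟩` of the Chevalley groups of the seven tabulated data are
homomorphic images of `SL₂(F)`.
-/

namespace Cfsg.Agent.Helper11

open Cfsg.Lie

/-- Table check: `⟨r, r⟩ = 2` and `⟨r, -r⟩ = -2` for every root. -/
noncomputable def pairSelfOK (D : ChevalleyDatum) : Bool :=
  allN D.nroots (fun r => decide (D.pairing r r = 2) && decide (D.pairing r (D.neg r) = -2))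

set_option maxRecDepth 100000 in
set_option maxHeartbeats 0 in
theorem pairSelfOK_G2 : pairSelfOK chevG2 = true := by decide +kernel
set_option maxRecDepth 100000 in
set_option maxHeartbeats 0 in
theorem pairSelfOK_B2 : pairSelfOK chevB2 = true := by decide +kernel
set_option maxRecDepth 100000 in
set_option maxHeartbeats 0 in
theorem pairSelfOK_D4 : pairSelfOK chevD4 = true := by decide +kernel
set_option maxRecDepth 100000 in
set_option maxHeartbeats 0 in
theorem pairSelfOK_F4 : pairSelfOK chevF4 = true := by decide +kernel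
set_option maxRecDepth 100000 in
set_option maxHeartbeats 0 in
theorem pairSelfOK_E6 : pairSelfOK chevE6 = true := by decide +kernel
set_option maxRecDepth 100000 in
set_option maxHeartbeats 0 in
theorem pairSelfOK_E7 : pairSelfOK chevE7 = true := by decide +kernel
set_option maxRecDepth 100000 in
set_option maxHeartbeats 0 in
theorem pairSelfOK_E8 : pairSelfOK chevE8 = true := by decide +kernel

theorem pairSelfOK_seven (D : ChevalleyDatum)
    (hD : D ∈ [chevG2, chevB2, chevD4, chevF4, chevE6, chevE7, chevE8]) : pairSelfOK D = true :=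
  forall_seven (P := fun D => pairSelfOK D = true) pairSelfOK_G2 pairSelfOK_B2 pairSelfOK_D4
    pairSelfOK_F4 pairSelfOK_E6 pairSelfOK_E7 pairSelfOK_E8 D hD

section
variable {F : Type*} [Field F] {D : ChevalleyDatum}

theorem pairSelf7 (hD : Seven D) (r : ℕ) (hr : r < D.nroots) :
    D.pairing r r = 2 ∧ D.pairing r (D.neg r) = -2 := by
  have h := (allN_spec _ _).mp (pairSelfOK_seven D hD) r hr
  rw [Bool.and_eq_true, decide_eq_true_eq, decide_eq_true_eq] at h
  exact h

theorem sl2_reflect_self (D : ChevalleyDatum) (i : ℕ) :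
    D.reflectRoot i (D.simple i) = D.neg (D.simple i) := by
  show (if D.simple i = D.simple i then D.neg (D.simple i) else _) = _
  rw [if_pos rfl]

theorem sl2_reflect_neg_self (hD : Seven D) (i : ℕ) (hi : i < D.rank) :
    D.reflectRoot i (D.neg (D.simple i)) = D.simple i := by
  have h := reflect_neg7 hD i hi (D.simple i) (simple_lt7 hD i hi)
  rw [sl2_reflect_self] at h
  rw [h, neg_neg7 hD _ (simple_lt7 hD i hi)]

theorem sl2_xG_mem_rootSubgroup (hD : Seven D) (r : ℕ) (t : F) :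
    xG hD r t ∈ D.rootSubgroup F r :=
  Subgroup.subset_closure ⟨t, rfl⟩

theorem hG_conj_self (hD : Seven D) (r : ℕ) (hr : r < D.nroots) (c t : F) (hc : c ≠ 0) :
    hG hD r c * xG hD r t * (hG hD r c)⁻¹ = xG hD r (c * c * t) := by
  rw [hG_conj_x hD r hr r hr c hc t, (pairSelf7 hD r hr).1, zpow_two]

theorem hG_conj_neg_self (hD : Seven D) (r : ℕ) (hr : r < D.nroots) (c t : F) (hc : c ≠ 0) :
    hG hD r c * xG hD (D.neg r) t * (hG hD r c)⁻¹ = xG hD (D.neg r) ((c * c)⁻¹ * t) := by
  rw [hG_conj_x hD r hr (D.neg r) (neg_lt7 hD r hr) c hc t, (pairSelf7 hD r hr).2, zpow_neg,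
    zpow_two]

/-- `n_s(1)` swaps `x_s(u)` and `x_{-s}(-u)`, for every root `s`. -/
theorem nG_conj_self (hD : Seven D) : ∀ s < D.nroots, ∀ u : F,
    nG hD s 1 * xG hD s u * (nG hD s 1)⁻¹ = xG hD (D.neg s) (-u) ∧
    nG hD s 1 * xG hD (D.neg s) u * (nG hD s 1)⁻¹ = xG hD s (-u) := by
  apply reach7 hD (fun s => ∀ u : F,
    nG hD s 1 * xG hD s u * (nG hD s 1)⁻¹ = xG hD (D.neg s) (-u) ∧
    nG hD s 1 * xG hD (D.neg s) u * (nG hD s 1)⁻¹ = xG hD s (-u))
  · intro i hi u
    have hs := simple_lt7 hD i hi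
    have h1 := nG_conj_x hD i hi (D.simple i) hs u
    have h2 := nG_conj_x hD i hi (D.neg (D.simple i)) (neg_lt7 hD _ hs) u
    rw [sl2_reflect_self, (eta_simple7 hD i hi).1, Int.cast_neg, Int.cast_one, neg_one_mul] at h1
    rw [sl2_reflect_neg_self hD i hi, (eta_simple7 hD i hi).2, Int.cast_neg, Int.cast_one,
      neg_one_mul] at h2
    exact ⟨h1, h2⟩
  · intro i hi s hs ih u
    have hns := neg_lt7 hD s hs
    have cx := nG_conj_x hD i hi s hs u
    have cy := nG_conj_x hD i hi (D.neg s) hns u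
    rw [reflect_neg7 hD i hi s hs, eta_neg7 hD i hi s hs] at cy
    have cn := nG_conj_n hD i hi s hs (1 : F)
    rw [mul_one] at cn
    have cx' := nG_conj_x hD i hi (D.neg s) hns (-u)
    have cy' := nG_conj_x hD i hi s hs (-u)
    rw [reflect_neg7 hD i hi s hs, eta_neg7 hD i hi s hs] at cx'
    obtain ⟨n, hn⟩ : ∃ n, n = nG hD (D.simple i) (1 : F) := ⟨_, rfl⟩
    rw [← hn] at cx cy cn cx' cy'
    have key : ∀ a b : GL D.Idx F, n * a * n⁻¹ = n * b * n⁻¹ → a = b := by
      intro a b h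
      have e : a = n⁻¹ * (n * a * n⁻¹) * n := by group
      rw [e, h]; group
    have e1 : n * (nG hD s 1 * xG hD s u * (nG hD s 1)⁻¹) * n⁻¹ =
        (n * nG hD s 1 * n⁻¹) * (n * xG hD s u * n⁻¹) * (n * nG hD s 1 * n⁻¹)⁻¹ := by group
    have e2 : n * (nG hD s 1 * xG hD (D.neg s) u * (nG hD s 1)⁻¹) * n⁻¹ =
        (n * nG hD s 1 * n⁻¹) * (n * xG hD (D.neg s) u * n⁻¹) * (n * nG hD s 1 * n⁻¹)⁻¹ := by
      group
    constructor
    · apply key
      rw [e1, cn, cx, cx']
      rcases eta_F_cases (F := F) hD i hi s hs with h | h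
      · rw [h, one_mul, one_mul]
        exact (ih u).1
      · rw [h, neg_one_mul, neg_one_mul, neg_neg, ← nG_inv, inv_inv]
        rw [← (ih u).2]; group
    · apply key
      rw [e2, cn, cy, cy']
      rcases eta_F_cases (F := F) hD i hi s hs with h | h
      · rw [h, one_mul, one_mul]
        exact (ih u).2
      · rw [h, neg_one_mul, neg_one_mul, neg_neg, ← nG_inv, inv_inv]
        rw [← (ih u).1]; group

/-- The homomorphism `SL₂(F) → ⟨X_r, X_{-r}⟩`. -/
theorem sl2_root_pair (hD : Seven D) (r : ℕ) (hr : r < D.nroots) :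
    ∃ φ : Matrix.SpecialLinearGroup (Fin 2) F →* GL D.Idx F,
      (∀ t, φ (sl2U t) = xG hD r t) ∧ (∀ t, φ (sl2L t) = xG hD (D.neg r) t) ∧
      ∀ g, φ g ∈ Subgroup.closure
        (Set.range (xG (F := F) hD r) ∪ Set.range (xG (F := F) hD (D.neg r))) :=
  sl2_hom_of_rel (xG hD r) (xG hD (D.neg r)) (nG hD r) (hG hD r)
    (xG_mul hD r) (xG_mul hD (D.neg r)) (nG_eq hD r) (hG_eq hD r) (nG_inv hD r)
    (fun a b ha hb => hG_mul hD r hr a b ha hb)
    (fun c t hc => hG_conj_self hD r hr c t hc)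
    (fun c t hc => hG_conj_neg_self hD r hr c t hc)
    (fun u => (nG_conj_self hD r hr u).1)
    (fun u => (nG_conj_self hD r hr u).2)

theorem sl2_root_pair_range (hD : Seven D) (r : ℕ) (hr : r < D.nroots) :
    ∃ φ : Matrix.SpecialLinearGroup (Fin 2) F →* GL D.Idx F,
      φ.range = D.rootSubgroup F r ⊔ D.rootSubgroup F (D.neg r) ∧
      ∀ (g : Matrix.SpecialLinearGroup (Fin 2) F) (t : F),
        ((g : Matrix (Fin 2) (Fin 2) F) = !![1, t; 0, 1] →
          ((φ g : GL D.Idx F) : Matrix D.Idx D.Idx F) = D.x F r t) ∧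
        ((g : Matrix (Fin 2) (Fin 2) F) = !![1, 0; t, 1] →
          ((φ g : GL D.Idx F) : Matrix D.Idx D.Idx F) = D.x F (D.neg r) t) := by
  obtain ⟨φ, hU, hL, hmem⟩ := sl2_root_pair (F := F) hD r hr
  refine ⟨φ, ?_, ?_⟩
  · apply le_antisymm
    · intro x hx
      obtain ⟨g, rfl⟩ := MonoidHom.mem_range.mp hx
      refine (Subgroup.closure_le (D.rootSubgroup F r ⊔ D.rootSubgroup F (D.neg r))).mpr ?_
        (hmem g)
      rintro y (⟨t, rfl⟩ | ⟨t, rfl⟩)
      · exact Subgroup.mem_sup_left (sl2_xG_mem_rootSubgroup hD r t)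
      · exact Subgroup.mem_sup_right (sl2_xG_mem_rootSubgroup hD (D.neg r) t)
    · rw [sup_le_iff]
      constructor
      · unfold ChevalleyDatum.rootSubgroup
        rw [Subgroup.closure_le]
        rintro x ⟨t, hx⟩
        rw [eq_xG hD x r t hx, ← hU t]
        exact MonoidHom.mem_range.mpr ⟨_, rfl⟩
      · unfold ChevalleyDatum.rootSubgroup
        rw [Subgroup.closure_le]
        rintro x ⟨t, hx⟩
        rw [eq_xG hD x (D.neg r) t hx, ← hL t]
        exact MonoidHom.mem_range.mpr ⟨_, rfl⟩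
  · intro g t
    constructor
    · intro hg
      have e : g = sl2U t := Subtype.ext hg
      rw [e, hU t, xG_val]
    · intro hg
      have e : g = sl2L t := Subtype.ext hg
      rw [e, hL t, xG_val]

end

end Cfsg.Agent.Helper11
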