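import Cfsg.Agent.Helper11.ChevOrd2
import Cfsg.Agent.S1035

set_option autoImplicit false

/-!
The subgroup `U` generated by the positive root elements is a Sylow `p`-subgroup of the Chevalley group
over a finite field of characteristic `p`.
-/

namespace Cfsg.Agent.Helper11

open Cfsg.Lie

theorem torus_card_dvd {F : Type*} [Field F] [Fintype F] {D : ChevalleyDatum} (hD : Seven D) :
    Nat.card ↥(D.diagonalSubgroup F) ∣ (Fintype.card F - 1) ^ D.rank := by
  have h := fun p hp => Cfsg.Agent.S1035.result (F := F) (q := Fintype.card F) rfl p hp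
  simp only [List.mem_cons, List.not_mem_nil, or_false] at hD
  rcases hD with rfl | rfl | rfl | rfl | rfl | rfl | rfl
  · exact Dvd.intro_left _ (h (chevG2, 1) (by simp))
  · exact Dvd.intro_left _ (h (chevB2, Nat.gcd 2 (Fintype.card F - 1)) (by simp))
  · exact Dvd.intro_left _ (h (chevD4, Nat.gcd 2 (Fintype.card F - 1) ^ 2) (by simp))
  · exact Dvd.intro_left _ (h (chevF4, 1) (by simp))
  · exact Dvd.intro_left _ (h (chevE6, Nat.gcd 3 (Fintype.card F - 1)) (by simp))
  · exact Dvd.intro_left _ (h (chevE7, Nat.gcd 2 (Fintype.card F - 1)) (by simp))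
  · exact Dvd.intro_left _ (h (chevE8, 1) (by simp))

theorem posU_sylow {F : Type*} [Field F] [Fintype F] (p : ℕ) [Fact p.Prime] [CharP F p]
    {D : ChevalleyDatum} (hD : Seven D) :
    ∃ P : Sylow p ↥(D.group F),
      (P : Subgroup ↥(D.group F)) = (D.posUnipotent F).subgroupOf (D.group F) := by
  classical
  haveI hNorm := HN_normal (F := F) hD
  letI : Fintype (↥(D.monomialSubgroup F) ⧸ HN D F) := Fintype.ofFinite _
  obtain ⟨k, -, hk⟩ := FiniteField.card F p
  have hp := (Fact.out : p.Prime)
  have hkpos : 0 < (k : ℕ) := k.pos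
  have hpq : p ∣ Fintype.card F := by rw [hk]; exact dvd_pow_self p hkpos.ne'
  have hcardU : Nat.card ↥((D.posUnipotent F).subgroupOf (D.group F)) =
      Fintype.card F ^ (D.nroots / 2) := by
    rw [← card_posU hD]
    exact Nat.card_congr (Subgroup.subgroupOfEquivOfLe (posU_le_group hD)).toEquiv
  have hP : IsPGroup p ↥((D.posUnipotent F).subgroupOf (D.group F)) := by
    apply IsPGroup.of_card (n := (k : ℕ) * (D.nroots / 2))
    rw [hcardU, hk, pow_mul]
  have hG := card_group_eq (F := F) hD
  have hidx := Subgroup.index_mul_card ((D.posUnipotent F).subgroupOf (D.group F))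
  rw [hcardU, hG] at hidx
  have hq0 : 0 < Fintype.card F ^ (D.nroots / 2) := pow_pos Fintype.card_pos _
  have hidx' : ((D.posUnipotent F).subgroupOf (D.group F)).index =
      Nat.card ↥(D.diagonalSubgroup F) *
        ∑ w : ↥(D.monomialSubgroup F) ⧸ HN D F, Fintype.card F ^ ell hD w := by
    apply Nat.eq_of_mul_eq_mul_right hq0
    rw [hidx]; ring
  have hH : ¬ p ∣ Nat.card ↥(D.diagonalSubgroup F) := by
    intro h
    have h1 := hp.dvd_of_dvd_pow (h.trans (torus_card_dvd hD))
    have e : Fintype.card F - 1 + 1 = Fintype.card F := Nat.sub_add_cancel Fintype.card_pos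
    have h' : p ∣ Fintype.card F - 1 + 1 := by rw [e]; exact hpq
    have h2 : p ∣ 1 := (Nat.dvd_add_right h1).mp h'
    exact hp.one_lt.ne' (Nat.dvd_one.mp h2)
  have hS : ¬ p ∣ ∑ w : ↥(D.monomialSubgroup F) ⧸ HN D F, Fintype.card F ^ ell hD w := by
    intro h
    rw [← Finset.add_sum_erase Finset.univ _
      (Finset.mem_univ (1 : ↥(D.monomialSubgroup F) ⧸ HN D F)), ell_one (F := F) hD, pow_zero] at h
    have h3 : p ∣ ∑ w ∈ Finset.univ.erase (1 : ↥(D.monomialSubgroup F) ⧸ HN D F),
        Fintype.card F ^ ell hD w := by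
      apply Finset.dvd_sum
      intro w hw
      have hw1 : w ≠ 1 := Finset.ne_of_mem_erase hw
      have hl : ell hD w ≠ 0 := fun h0 => hw1 (ell_eq_zero hD w h0)
      exact hpq.trans (dvd_pow_self _ hl)
    have h2 : p ∣ 1 := (Nat.dvd_add_left h3).mp h
    exact hp.one_lt.ne' (Nat.dvd_one.mp h2)
  have hnd : ¬ p ∣ ((D.posUnipotent F).subgroupOf (D.group F)).index := by
    rw [hidx']
    intro h
    rcases hp.dvd_mul.mp h with h | h
    · exact hH h
    · exact hS h
  exact ⟨hP.toSylow hnd, hP.toSylow_coe hnd⟩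

end Cfsg.Agent.Helper11
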