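import Cfsg.Agent.Helper11.ChevTwD4W
import Cfsg.Agent.Helper11.ChevTwBD4t
import Cfsg.Agent.Helper11.ChevTwBG2d

set_option autoImplicit false

/-!
The twisted Bruhat decomposition of `³D₄(q)`, its `(B, N)`-pair of rank two and its simplicity.
The relation `x Q = Q y^φ` (`Q` the triality operator, `φ` the Frobenius map) is the graph of an
automorphism of `D₄(q³)` preserving `U`, `V`, `H`, `B`, `N`; the canonical form `g = b n u` of a
fixed element has fixed components.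
-/

namespace Cfsg.Agent.Helper11

open Cfsg.Lie

/-- The twisted relation of `D₄`. -/
abbrev d4Tw {K : Type*} [Field K] (φ : K →+* K) (x y : GL chevD4.Idx K) : Prop :=
  Tw (opMat chevD4 K gaBig_D4a) φ x y

/-- The subgroup `U_w⁻` of the canonical form. -/
abbrev UwD4 (K : Type*) [Field K] (n : GL chevD4.Idx K) : Subgroup (GL chevD4.Idx K) :=
  Subgroup.closure {x : GL chevD4.Idx K | ∃ (r : ℕ) (t : K), chevD4.IsPosRoot r ∧
    (chevD4.rootSubgroup K r).map (MulAut.conj n).toMonoidHom ≤ chevD4.negUnipotent K ∧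
    (x : Matrix chevD4.Idx chevD4.Idx K) = chevD4.x K r t}

section Amb
variable {F : Type*} [Field F] {D : ChevalleyDatum}

/-- One step of the double coset condition in the ambient Chevalley group. -/
theorem amb_step (hD : Seven D) (i : ℕ) (hi : i < D.rank) (u : List ℕ)
    (hu : ∀ j ∈ u, j < D.rank) (n : GL D.Idx F) (hn : n ∈ D.monomialSubgroup F)
    (γ₁ γ₂ : GL D.Idx F) (h1 : γ₁ ∈ D.borelSubgroup F) (h2 : γ₂ ∈ D.borelSubgroup F) :
    ∃ u' : List ℕ, (u' = i :: u ∨ u' = u) ∧ ∃ δ₁ ∈ D.borelSubgroup F,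
      ∃ δ₂ ∈ D.borelSubgroup F,
        nG hD (D.simple i) 1 * (γ₁ * (wordN hD u * n) * γ₂) = δ₁ * (wordN hD u' * n) * δ₂ := by
  obtain ⟨P, hPB, hPN, hPS⟩ := chev_BN_exists (F := F) hD
  have hm : wordN hD u * n ∈ D.monomialSubgroup F := mul_mem (wordN_mem hD u hu) hn
  have hsN : nG hD (D.simple i) (1 : F) ∈ D.monomialSubgroup F :=
    nG_mem_N hD _ (simple_lt7 hD i hi)
  have hsS : (⟨nG hD (D.simple i) 1, N_le_group hD hsN⟩ : ↥(D.group F)) ∈ P.S := by
    rw [hPS]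
    exact ⟨i, hi, nG_val hD _ 1⟩
  have hmN : (⟨wordN hD u * n, N_le_group hD hm⟩ : ↥(D.group F)) ∈ P.N := by
    rw [hPN]; exact Subgroup.mem_subgroupOf.mpr hm
  have hγB : (⟨γ₁, B_le_group hD h1⟩ : ↥(D.group F)) ∈ P.B := by
    rw [hPB]; exact Subgroup.mem_subgroupOf.mpr h1
  have hBm : ∀ x : ↥(D.group F), x ∈ (P.B : Set ↥(D.group F)) →
      (x : GL D.Idx F) ∈ D.borelSubgroup F := by
    intro x hx
    have hx' : x ∈ P.B := hx
    rw [hPB] at hx'
    exact Subgroup.mem_subgroupOf.mp hx'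
  rcases P.mul_mem_union _ hsS _ hmN _ hγB with h | h
  · rw [DoubleCoset.mem_doubleCoset] at h
    obtain ⟨x, hx, y, hy, e⟩ := h
    have e' : nG hD (D.simple i) 1 * γ₁ * (wordN hD u * n) =
        (x : GL D.Idx F) * (nG hD (D.simple i) 1 * (wordN hD u * n)) * (y : GL D.Idx F) :=
      congrArg Subtype.val e
    refine ⟨i :: u, Or.inl rfl, (x : GL D.Idx F), hBm x hx, (y : GL D.Idx F) * γ₂,
      mul_mem (hBm y hy) h2, ?_⟩
    rw [wordN_cons]
    calc nG hD (D.simple i) 1 * (γ₁ * (wordN hD u * n) * γ₂)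
        = (nG hD (D.simple i) 1 * γ₁ * (wordN hD u * n)) * γ₂ := by group
      _ = (x : GL D.Idx F) * (nG hD (D.simple i) 1 * wordN hD u * n) *
            ((y : GL D.Idx F) * γ₂) := by rw [e']; group
  · rw [DoubleCoset.mem_doubleCoset] at h
    obtain ⟨x, hx, y, hy, e⟩ := h
    have e' : nG hD (D.simple i) 1 * γ₁ * (wordN hD u * n) =
        (x : GL D.Idx F) * (wordN hD u * n) * (y : GL D.Idx F) :=
      congrArg Subtype.val e
    refine ⟨u, Or.inr rfl, (x : GL D.Idx F), hBm x hx, (y : GL D.Idx F) * γ₂,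
      mul_mem (hBm y hy) h2, ?_⟩
    calc nG hD (D.simple i) 1 * (γ₁ * (wordN hD u * n) * γ₂)
        = (nG hD (D.simple i) 1 * γ₁ * (wordN hD u * n)) * γ₂ := by group
      _ = (x : GL D.Idx F) * (wordN hD u * n) * ((y : GL D.Idx F) * γ₂) := by
          rw [e']; group

end Amb

section D4Tw
variable {K : Type*} [Field K]

theorem d4_sgK (s : ℕ) (hs : s < chevD4.nroots) :
    ((d4sg.getD s 1 : ℤ) : K) = 1 ∨ ((d4sg.getD s 1 : ℤ) : K) = -1 := by
  rcases (d4_sg_tab s hs).1 with h | h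
  · left; rw [h, Int.cast_one]
  · right; rw [h, Int.cast_neg, Int.cast_one]

theorem d4Tw_x (hD : Seven chevD4) (φ : K →+* K) (s : ℕ) (c : K) (hs : s < chevD4.nroots) :
    d4Tw φ (xG hD (d4rho.getD s 0) (((d4sg.getD s 1 : ℤ) : K) * φ c)) (xG hD s c) := by
  show ((xG hD _ _ : GL chevD4.Idx K) : Matrix chevD4.Idx chevD4.Idx K) * _ =
    _ * ((xG hD s c : GL chevD4.Idx K) : Matrix chevD4.Idx chevD4.Idx K).map φ
  rw [xG_val, xG_val, x_map_hom]
  have h := permS_sound (F := K) (tabOK_seven chevD4 hD) gaBig_D4a s (d4rho.getD s 0) _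
    ((allN_spec _ _).mp d4_perm_tab s hs) (φ c)
  rw [evalPoly_lin] at h
  exact h.symm

/-- The twisted relation is single-valued: the triality operator is invertible. -/
theorem d4Tw_fun (φ : K →+* K) {x x' y : GL chevD4.Idx K} (h : d4Tw φ x y)
    (h' : d4Tw φ x' y) : x = x' := by
  have hinv : opMat chevD4 K gaBig_D4a * opMat chevD4 K gaInv_D4a = 1 :=
    permInv_sound chevD4 gaBig_D4a gaInv_D4a gaInvOK1_D4a
  have e1 : (x : Matrix chevD4.Idx chevD4.Idx K) * opMat chevD4 K gaBig_D4a =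
      opMat chevD4 K gaBig_D4a * (y : Matrix chevD4.Idx chevD4.Idx K).map φ := h
  have e1' : (x' : Matrix chevD4.Idx chevD4.Idx K) * opMat chevD4 K gaBig_D4a =
      opMat chevD4 K gaBig_D4a * (y : Matrix chevD4.Idx chevD4.Idx K).map φ := h'
  have e := e1.trans e1'.symm
  apply Units.ext
  calc (x : Matrix chevD4.Idx chevD4.Idx K)
      = (x : Matrix chevD4.Idx chevD4.Idx K) *
          (opMat chevD4 K gaBig_D4a * opMat chevD4 K gaInv_D4a) := by rw [hinv, mul_one]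
    _ = (x : Matrix chevD4.Idx chevD4.Idx K) * opMat chevD4 K gaBig_D4a *
          opMat chevD4 K gaInv_D4a := (mul_assoc _ _ _).symm
    _ = (x' : Matrix chevD4.Idx chevD4.Idx K) * opMat chevD4 K gaBig_D4a *
          opMat chevD4 K gaInv_D4a := by rw [e]
    _ = (x' : Matrix chevD4.Idx chevD4.Idx K) *
          (opMat chevD4 K gaBig_D4a * opMat chevD4 K gaInv_D4a) := mul_assoc _ _ _
    _ = (x' : Matrix chevD4.Idx chevD4.Idx K) := by rw [hinv, mul_one]

theorem d4Tw_n (hD : Seven chevD4) (φ : K →+* K) (r : ℕ) (hr : r < chevD4.nroots) (t : K) :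
    d4Tw φ (nG hD (d4rho.getD r 0) (((d4sg.getD r 1 : ℤ) : K) * φ t)) (nG hD r t) := by
  obtain ⟨-, h2, h3, -, -, -, -⟩ := d4_sg_tab r hr
  have hn : chevD4.neg r < chevD4.nroots := neg_lt7 hD r hr
  have a1 := d4Tw_x hD φ r t hr
  have a2 := d4Tw_x hD φ (chevD4.neg r) (-t⁻¹) hn
  rw [h3, h2] at a2
  have e : ((d4sg.getD r 1 : ℤ) : K) * φ (-t⁻¹) = -(((d4sg.getD r 1 : ℤ) : K) * φ t)⁻¹ := by
    rcases d4_sgK (K := K) r hr with h | h
    · rw [h, one_mul, one_mul, map_neg, map_inv₀]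
    · rw [h, map_neg, map_inv₀, neg_one_mul, neg_one_mul, neg_neg, inv_neg, neg_neg]
  rw [e] at a2
  rw [nG_eq, nG_eq]
  exact Tw.mul (Tw.mul a1 a2) a1

theorem d4Tw_h (hD : Seven chevD4) (φ : K →+* K) (r : ℕ) (hr : r < chevD4.nroots) (t : K)
    (ht : t ≠ 0) :
    d4Tw φ (hG hD (d4rho.getD r 0) (φ t)) (hG hD r t) := by
  obtain ⟨-, -, -, h4, -, -, -⟩ := d4_sg_tab r hr
  have a1 := d4Tw_n hD φ r hr t
  have a2 := d4Tw_n hD φ r hr (-1)
  have hφt : φ t ≠ 0 := (map_ne_zero φ).mpr ht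
  have key : nG hD (d4rho.getD r 0) (((d4sg.getD r 1 : ℤ) : K) * φ t) *
      nG hD (d4rho.getD r 0) (((d4sg.getD r 1 : ℤ) : K) * φ (-1)) =
      hG hD (d4rho.getD r 0) (φ t) := by
    rcases d4_sgK (K := K) r hr with h | h
    · rw [h, one_mul, one_mul, map_neg, map_one, ← hG_eq]
    · rw [h, map_neg, map_one, neg_one_mul, neg_one_mul, neg_neg]
      exact nG_neg_mul_one hD _ h4 (φ t) hφt
  rw [← key, hG_eq hD r t]
  exact Tw.mul a1 a2

theorem d4Tw_U (hD : Seven chevD4) (φ : K →+* K)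
    (y : GL chevD4.Idx K) (hy : y ∈ chevD4.posUnipotent K) :
    ∃ x ∈ chevD4.posUnipotent K, d4Tw φ x y := by
  unfold ChevalleyDatum.posUnipotent at hy
  induction hy using Subgroup.closure_induction with
  | mem x hx =>
    obtain ⟨r, t, hpos, hx⟩ := hx
    rw [eq_xG hD x r t hx]
    have hr : r < chevD4.nroots := hpos.1
    obtain ⟨-, -, -, h4, -, h6, -⟩ := d4_sg_tab r hr
    have hge : chevD4.nroots / 2 ≤ r := ((pos_iff7 hD r hr).1).mp hpos
    exact ⟨_, xG_mem_posU hD _ (((pos_iff7 hD _ h4).1).mpr (h6 hge)) _, d4Tw_x hD φ r t hr⟩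
  | one => exact ⟨1, one_mem _, Tw.one _ _⟩
  | mul x y _ _ hx hy =>
    obtain ⟨a, ha, hTa⟩ := hx
    obtain ⟨b, hb, hTb⟩ := hy
    exact ⟨a * b, mul_mem ha hb, Tw.mul hTa hTb⟩
  | inv x _ hx =>
    obtain ⟨a, ha, hTa⟩ := hx
    exact ⟨a⁻¹, inv_mem ha, Tw.inv hTa⟩

theorem d4Tw_negU (hD : Seven chevD4) (φ : K →+* K)
    (y : GL chevD4.Idx K) (hy : y ∈ chevD4.negUnipotent K) :
    ∃ x ∈ chevD4.negUnipotent K, d4Tw φ x y := by
  unfold ChevalleyDatum.negUnipotent at hy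
  induction hy using Subgroup.closure_induction with
  | mem x hx =>
    obtain ⟨r, t, hneg, hx⟩ := hx
    rw [eq_xG hD x r t hx]
    have hr : r < chevD4.nroots := hneg.1
    obtain ⟨-, -, -, h4, -, -, h7⟩ := d4_sg_tab r hr
    have hlt : r < chevD4.nroots / 2 := ((pos_iff7 hD r hr).2).mp hneg
    exact ⟨_, xG_mem_negU hD _ (((pos_iff7 hD _ h4).2).mpr (h7 hlt)) _, d4Tw_x hD φ r t hr⟩
  | one => exact ⟨1, one_mem _, Tw.one _ _⟩
  | mul x y _ _ hx hy =>
    obtain ⟨a, ha, hTa⟩ := hx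
    obtain ⟨b, hb, hTb⟩ := hy
    exact ⟨a * b, mul_mem ha hb, Tw.mul hTa hTb⟩
  | inv x _ hx =>
    obtain ⟨a, ha, hTa⟩ := hx
    exact ⟨a⁻¹, inv_mem ha, Tw.inv hTa⟩

theorem d4Tw_H (hD : Seven chevD4) (φ : K →+* K)
    (y : GL chevD4.Idx K) (hy : y ∈ chevD4.diagonalSubgroup K) :
    ∃ x ∈ chevD4.diagonalSubgroup K, d4Tw φ x y := by
  unfold ChevalleyDatum.diagonalSubgroup at hy
  induction hy using Subgroup.closure_induction with
  | mem x hx =>
    obtain ⟨r, t, hr, ht, hx⟩ := hx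
    have e : x = hG hD r t := Units.ext (by rw [hx, hG_val])
    rw [e]
    obtain ⟨-, -, -, h4, -, -, -⟩ := d4_sg_tab r hr
    exact ⟨_, hG_mem_H hD _ h4 _ ((map_ne_zero φ).mpr ht), d4Tw_h hD φ r hr t ht⟩
  | one => exact ⟨1, one_mem _, Tw.one _ _⟩
  | mul x y _ _ hx hy =>
    obtain ⟨a, ha, hTa⟩ := hx
    obtain ⟨b, hb, hTb⟩ := hy
    exact ⟨a * b, mul_mem ha hb, Tw.mul hTa hTb⟩
  | inv x _ hx =>
    obtain ⟨a, ha, hTa⟩ := hx
    exact ⟨a⁻¹, inv_mem ha, Tw.inv hTa⟩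

theorem d4Tw_B (hD : Seven chevD4) (φ : K →+* K)
    (y : GL chevD4.Idx K) (hy : y ∈ chevD4.borelSubgroup K) :
    ∃ x ∈ chevD4.borelSubgroup K, d4Tw φ x y := by
  unfold ChevalleyDatum.borelSubgroup at hy
  rw [Subgroup.sup_eq_closure] at hy
  induction hy using Subgroup.closure_induction with
  | mem x hx =>
    rcases hx with hx | hx
    · obtain ⟨a, ha, hT⟩ := d4Tw_U hD φ x hx
      exact ⟨a, Subgroup.mem_sup_left ha, hT⟩
    · obtain ⟨a, ha, hT⟩ := d4Tw_H hD φ x hx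
      exact ⟨a, Subgroup.mem_sup_right ha, hT⟩
  | one => exact ⟨1, one_mem _, Tw.one _ _⟩
  | mul x y _ _ hx hy =>
    obtain ⟨a, ha, hTa⟩ := hx
    obtain ⟨b, hb, hTb⟩ := hy
    exact ⟨a * b, mul_mem ha hb, Tw.mul hTa hTb⟩
  | inv x _ hx =>
    obtain ⟨a, ha, hTa⟩ := hx
    exact ⟨a⁻¹, inv_mem ha, Tw.inv hTa⟩

theorem d4Tw_wordN (hD : Seven chevD4) (φ : K →+* K) :
    ∀ v : List ℕ, (∀ i ∈ v, i < chevD4.rank) →
      d4Tw φ (wordN hD (v.map (fun i => d4pi.getD i 0))) (wordN hD v) := by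
  intro v
  induction v with
  | nil => intro _; exact Tw.one _ _
  | cons i rest ih =>
    intro hv
    have hi := hv i List.mem_cons_self
    have ih' := ih (fun j hj => hv j (List.mem_cons_of_mem _ hj))
    rw [List.map_cons, wordN_cons, wordN_cons]
    refine Tw.mul ?_ ih'
    obtain ⟨-, h2, h3⟩ := d4_pi_tab i hi
    have h := d4Tw_n hD φ (chevD4.simple i) (simple_lt7 hD i hi) 1
    rw [h2, h3, Int.cast_one, one_mul, map_one] at h
    exact h

theorem d4_wordApply_rho (hD : Seven chevD4) : ∀ v : List ℕ, (∀ i ∈ v, i < chevD4.rank) →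
    ∀ s, s < chevD4.nroots →
      wordApply chevD4 (v.map (fun i => d4pi.getD i 0)) (d4rho.getD s 0) =
        d4rho.getD (wordApply chevD4 v s) 0 := by
  intro v
  induction v with
  | nil => intro _ s _; rfl
  | cons i rest ih =>
    intro hv s hs
    have hi := hv i List.mem_cons_self
    have hrest : ∀ j ∈ rest, j < chevD4.rank := fun j hj => hv j (List.mem_cons_of_mem _ hj)
    rw [List.map_cons, wordApply_cons, wordApply_cons, ih hrest s hs,
      d4_rho_w i hi _ (wordApply_lt hD rest hrest s hs)]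

theorem UwD4_le_posU (n : GL chevD4.Idx K) : UwD4 K n ≤ chevD4.posUnipotent K := by
  apply Subgroup.closure_mono
  rintro x ⟨r, t, hpos, _, hx⟩
  exact ⟨r, t, hpos, hx⟩

theorem d4Tw_Uw (hD : Seven chevD4) (φ : K →+* K) (hφ3 : ∀ t : K, φ (φ (φ t)) = t)
    (n n' : GL chevD4.Idx K) (hT : d4Tw φ n' n)
    (y : GL chevD4.Idx K) (hy : y ∈ UwD4 K n) : ∃ x ∈ UwD4 K n', d4Tw φ x y := by
  induction hy using Subgroup.closure_induction with
  | mem x hx =>
    obtain ⟨r, t, hpos, hmap, hx⟩ := hx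
    rw [eq_xG hD x r t hx]
    have hr : r < chevD4.nroots := hpos.1
    obtain ⟨-, -, -, h4, -, h6, -⟩ := d4_sg_tab r hr
    have hge : chevD4.nroots / 2 ≤ r := ((pos_iff7 hD r hr).1).mp hpos
    have hpos' : chevD4.IsPosRoot (d4rho.getD r 0) := ((pos_iff7 hD _ h4).1).mpr (h6 hge)
    refine ⟨_, Subgroup.subset_closure ⟨d4rho.getD r 0, _, hpos', ?_, xG_val hD _ _⟩,
      d4Tw_x hD φ r t hr⟩
    rw [Subgroup.map_le_iff_le_comap]
    unfold ChevalleyDatum.rootSubgroup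
    rw [Subgroup.closure_le]
    rintro z ⟨t', hz⟩
    rw [eq_xG hD z _ t' hz]
    show n' * xG hD (d4rho.getD r 0) t' * n'⁻¹ ∈ chevD4.negUnipotent K
    obtain ⟨c, hc⟩ : ∃ c : K, ((d4sg.getD r 1 : ℤ) : K) * φ c = t' := by
      refine ⟨φ (φ (((d4sg.getD r 1 : ℤ) : K) * t')), ?_⟩
      rw [hφ3]
      rcases d4_sgK (K := K) r hr with h | h
      · rw [h, one_mul, one_mul]
      · rw [h, neg_one_mul, neg_one_mul, neg_neg]
    have b1 := d4Tw_x hD φ r c hr
    rw [hc] at b1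
    have b2 : d4Tw φ (n' * xG hD (d4rho.getD r 0) t' * n'⁻¹) (n * xG hD r c * n⁻¹) :=
      Tw.mul (Tw.mul hT b1) (Tw.inv hT)
    have hneg : n * xG hD r c * n⁻¹ ∈ chevD4.negUnipotent K :=
      hmap ⟨xG hD r c, xG_mem_rootSubgroup hD r c, rfl⟩
    obtain ⟨z', hz', hTz⟩ := d4Tw_negU hD φ _ hneg
    rw [d4Tw_fun φ b2 hTz]
    exact hz'
  | one => exact ⟨1, one_mem _, Tw.one _ _⟩
  | mul x y _ _ hx hy =>
    obtain ⟨a, ha, hTa⟩ := hx
    obtain ⟨b, hb, hTb⟩ := hy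
    exact ⟨a * b, mul_mem ha hb, Tw.mul hTa hTb⟩
  | inv x _ hx =>
    obtain ⟨a, ha, hTa⟩ := hx
    exact ⟨a⁻¹, inv_mem ha, Tw.inv hTa⟩

theorem d4_pw_eq (hD : Seven chevD4) (j : ℕ) : wordN (F := K) hD (d4pw j) =
    (wordN hD [1] * wordN hD [0, 2, 3]) ^ j := by
  induction j with
  | zero => exact (wordN_nil hD).trans (pow_zero _).symm
  | succ j ih =>
    rw [d4pw_succ, show d4AB = [1] ++ [0, 2, 3] from rfl, wordN_append, wordN_append, ih,
      pow_succ']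

theorem d4_aw_eq (hD : Seven chevD4) (j : ℕ) : wordN (F := K) hD (d4aw j) =
    wordN hD [1] * (wordN hD [1] * wordN hD [0, 2, 3]) ^ j := by
  rw [← d4_pw_eq hD j]
  exact wordN_append hD [1] (d4pw j)

/-- A word compatible with the triality acts as one of the twelve alternating words. -/
theorem d4_word_class (hD : Seven chevD4) (v : List ℕ) (hv : ∀ i ∈ v, i < chevD4.rank)
    (e13 : wordApply chevD4 v 13 = d4rho.getD (wordApply chevD4 v 18) 0)
    (e12 : wordApply chevD4 v 12 = d4rho.getD (wordApply chevD4 v 13) 0) :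
    ∃ j, j < 6 ∧ ((wordN (F := K) hD (d4pw j))⁻¹ * wordN hD v ∈ chevD4.diagonalSubgroup K ∨
      (wordN (F := K) hD (d4aw j))⁻¹ * wordN hD v ∈ chevD4.diagonalSubgroup K) := by
  obtain ⟨n18, n13, n12, n14, s0, s1, s2, s3, -, -, -, -, -⟩ := d4_facts
  have hlt : ∀ s, s < chevD4.nroots → wordApply chevD4 v s < chevD4.nroots :=
    fun s hs => wordApply_lt hD v hv s hs
  have inv := word_pair_gen hD d4_pair_inv v hv
  have hF : ∀ i, i < chevD4.rank →
      d4img (wordApply chevD4 v 18) (wordApply chevD4 v 14) i =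
        wordApply chevD4 v (chevD4.simple i) := by
    intro i hi
    have hi' : i < 4 := hi
    interval_cases i
    · show wordApply chevD4 v 18 = wordApply chevD4 v (chevD4.simple 0)
      rw [s0]
    · show wordApply chevD4 v 14 = wordApply chevD4 v (chevD4.simple 1)
      rw [s1]
    · show d4rho.getD (wordApply chevD4 v 18) 0 = wordApply chevD4 v (chevD4.simple 2)
      rw [s2]; exact e13.symm
    · show d4rho.getD (d4rho.getD (wordApply chevD4 v 18) 0) 0 =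
        wordApply chevD4 v (chevD4.simple 3)
      rw [s3, ← e13]; exact e12.symm
  have hT : d4Tb (wordApply chevD4 v 13) (wordApply chevD4 v 12) = true :=
    d4_word_T hD v hv 13 12 (by decide) (by decide) d4_T_base
  have hcand : d4cand (wordApply chevD4 v 18) (wordApply chevD4 v 14) = true := by
    unfold d4cand
    refine Bool.and_eq_true_iff.mpr ⟨?_, ?_⟩
    · rw [hF 2 (by decide), hF 3 (by decide), s2, s3]
      exact hT
    · refine (allN_spec _ _).mpr (fun i hi => (allN_spec _ _).mpr (fun j hj =>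
        decide_eq_true ?_))
      rw [hF i hi, hF j hj]
      exact inv _ _ (simple_lt7 hD i hi) (simple_lt7 hD j hj)
  have t6 := (allN_spec _ _).mp ((allN_spec _ _).mp d4_class _ (hlt 18 (by decide))) _
    (hlt 14 (by decide))
  rw [hcand, cond_true] at t6
  obtain ⟨j, hj, hjw⟩ := (anyN_spec _ _).mp t6
  refine ⟨j, hj, ?_⟩
  simp only [Bool.or_eq_true] at hjw
  have conj : ∀ w : List ℕ, (∀ i ∈ w, i < chevD4.rank) →
      (∀ i, i < chevD4.rank → wordApply chevD4 w (chevD4.simple i) =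
        d4img (wordApply chevD4 v 18) (wordApply chevD4 v 14) i) →
      (wordN (F := K) hD w)⁻¹ * wordN hD v ∈ chevD4.diagonalSubgroup K := by
    intro w hw hw4
    have det := word_det_gen hD d4_pair_inv d4_pair_det v w hv hw
      (fun i hi => (hw4 i hi).trans (hF i hi))
    exact wordN_H_of (F := K) hD w v hw hv det
  rcases hjw with hp | hp
  · left
    exact conj _ (d4pw_lt j) (fun i hi => (beq_iff _ _).mp ((allN_spec _ _).mp hp i hi))
  · right
    exact conj _ (d4aw_lt j) (fun i hi => (beq_iff _ _).mp ((allN_spec _ _).mp hp i hi))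

/-- The elements of `N` fixed by the twisting operator, modulo `H`. -/
theorem d4_N_fix_cov (hD : Seven chevD4) (φ : K →+* K) (g : GL chevD4.Idx K)
    (hgN : g ∈ chevD4.monomialSubgroup K)
    (hfix : g ∈ fixSub (opMat chevD4 K gaBig_D4a) φ) :
    ∃ j, j < 6 ∧ ((wordN (F := K) hD (d4pw j))⁻¹ * g ∈ chevD4.diagonalSubgroup K ∨
      (wordN (F := K) hD (d4aw j))⁻¹ * g ∈ chevD4.diagonalSubgroup K) := by
  obtain ⟨a1, a2, a3, a4, a5, a6, a7, rk⟩ := d4_facts4
  obtain ⟨h, hh, v, hv, e⟩ := N_word_form hD g hgN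
  have hcol : ∀ s (hs : s < chevD4.nroots), ∃ c : K, c ≠ 0 ∧ ∀ x : chevD4.Idx,
      (g : Matrix chevD4.Idx chevD4.Idx K) x (Sum.inr ⟨s, hs⟩) =
        if code chevD4 x = chevD4.rank + wordApply chevD4 v s then c else 0 := by
    intro s hs
    rw [e]
    exact N_col hD h hh v hv s hs
  have hlt : ∀ s, s < chevD4.nroots → wordApply chevD4 v s < chevD4.nroots :=
    fun s hs => wordApply_lt hD v hv s hs
  have e13 : wordApply chevD4 v 13 = d4rho.getD (wordApply chevD4 v 18) 0 := by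
    have t := N_rho_gen gaBig_D4a twPerm_D4 twSgn_D4 twMono_D4 φ _ hfix
      (wordApply chevD4 v) hcol hlt 18 13 (by decide) (by decide) a2 a5
    rw [d4_rho_tab _ (hlt 18 (by decide))] at t
    exact Nat.add_left_cancel t
  have e12 : wordApply chevD4 v 12 = d4rho.getD (wordApply chevD4 v 13) 0 := by
    have t := N_rho_gen gaBig_D4a twPerm_D4 twSgn_D4 twMono_D4 φ _ hfix
      (wordApply chevD4 v) hcol hlt 13 12 (by decide) (by decide) a3 a6
    rw [d4_rho_tab _ (hlt 13 (by decide))] at t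
    exact Nat.add_left_cancel t
  obtain ⟨j, hj, hjw⟩ := d4_word_class (K := K) hD v hv e13 e12
  refine ⟨j, hj, ?_⟩
  have tr : ∀ w : List ℕ, (∀ i ∈ w, i < chevD4.rank) →
      (wordN (F := K) hD w)⁻¹ * wordN hD v ∈ chevD4.diagonalSubgroup K →
      (wordN (F := K) hD w)⁻¹ * g ∈ chevD4.diagonalSubgroup K := by
    intro w hw hH
    have e1 : (wordN (F := K) hD w)⁻¹ * g =
        ((wordN hD w)⁻¹ * h * ((wordN hD w)⁻¹)⁻¹) * ((wordN hD w)⁻¹ * wordN hD v) := by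
      rw [e]; group
    rw [e1]
    exact mul_mem (N_conj_H hD (inv_mem (wordN_mem hD w hw)) hh) hH
  rcases hjw with hp | hp
  · exact Or.inl (tr _ (d4pw_lt j) hp)
  · exact Or.inr (tr _ (d4aw_lt j) hp)

end D4Tw

section D4Fix
variable {K : Type*} [Field K] [Fintype K] {q : ℕ}

theorem d4_U_fix_mem (hq : IsPrimePow q) (hK : Fintype.card K = q ^ 3) (hfr : IsFrob K q)
    (u : GL chevD4.Idx K) (hu : u ∈ chevD4.posUnipotent K)
    (hf : u ∈ fixSub (opMat chevD4 K gaBig_D4a) (frobHom hfr)) : u ∈ twistedD4 K q := by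
  classical
  have hD : Seven chevD4 := by simp
  have hS := d4_le_fix hq hK hfr
  have hub := twist_ub hD (fixSub (opMat chevD4 K gaBig_D4a) (frobHom hfr)) gaBig_D4a
    twPerm_D4 twPinv_D4 twSgn_D4 twMono_D4 twInj_D4 (frobHom hfr) q hq.two_le
    (frobHom_apply hfr) le_rfl twUb_D4 twUbOK_D4
  rw [prod_wt_eq _ _ _ _ _ twKindsUb_D4, twCounts_D4.1, twCounts_D4.2, hK] at hub
  have hcard := d4_U_card hq hK
  have hle : chevD4.posUnipotent K ⊓ twistedD4 K q ≤
      fixSub (opMat chevD4 K gaBig_D4a) (frobHom hfr) ⊓ chevD4.posUnipotent K :=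
    fun x hx => Subgroup.mem_inf.mpr ⟨hS hx.2, hx.1⟩
  have heq := Subgroup.eq_of_le_of_card_ge hle (by
    rw [hcard]
    calc _ ≤ (q ^ 3) ^ 3 * q ^ 3 := hub
      _ = q ^ 12 := by ring)
  have hu' : u ∈ fixSub (opMat chevD4 K gaBig_D4a) (frobHom hfr) ⊓ chevD4.posUnipotent K :=
    Subgroup.mem_inf.mpr ⟨hf, hu⟩
  rw [← heq] at hu'
  exact hu'.2

theorem d4_H_fix_mem (hq : IsPrimePow q) (hK : Fintype.card K = q ^ 3) (hfr : IsFrob K q)
    (h₀ : GL chevD4.Idx K) (hh₀ : h₀ ∈ chevD4.diagonalSubgroup K)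
    (hf₀ : h₀ ∈ fixSub (opMat chevD4 K gaBig_D4a) (frobHom hfr)) : h₀ ∈ twistedD4 K q := by
  classical
  have hD : Seven chevD4 := by simp
  have hq2 : 2 ≤ q := hq.two_le
  obtain ⟨n18, n13, n12, n14, s0, s1, s2, s3, r1, r2, r3, r4, r5⟩ := d4_facts
  obtain ⟨f1, f2, f3, f4, f5, f6, f7, f8⟩ := d4_facts4
  have l18 : 18 < chevD4.nroots := f7
  have l14 : 14 < chevD4.nroots := by omega
  have l13 : 13 < chevD4.nroots := by omega
  have l12 : 12 < chevD4.nroots := by omega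
  have hS := d4_le_fix hq hK hfr
  have hTq : (Finset.univ.filter (fun t : K => t ^ q = t)).card = q := by
    apply le_antisymm
    · have h := card_pow_eq_mul_le (K := K) q hq2 1
      have e : (Finset.univ.filter (fun y : K => y ^ q = 1 * y)) =
          Finset.univ.filter (fun t : K => t ^ q = t) := by
        apply Finset.filter_congr; intro y _; rw [one_mul]
      rw [e] at h; exact h
    · exact card_fix_ge3 q hq2 hfr hK
  have h0T : (0 : K) ∈ Finset.univ.filter (fun t : K => t ^ q = t) := by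
    rw [Finset.mem_filter]; exact ⟨Finset.mem_univ _, zero_pow (by omega)⟩
  have hT'c : ((Finset.univ.filter (fun t : K => t ^ q = t)).erase 0).card = q - 1 := by
    rw [Finset.card_erase_of_mem h0T, hTq]
  have hS1c : ((Finset.univ : Finset K).erase 0).card = q ^ 3 - 1 := by
    rw [Finset.card_erase_of_mem (Finset.mem_univ _), Finset.card_univ, hK]
  have hfin : (q - 1) ^ 2 * (q ^ 2 + q + 1) = (q ^ 3 - 1) * (q - 1) := by
    obtain ⟨r, rfl⟩ : ∃ r, q = r + 1 := ⟨q - 1, by omega⟩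
    have e1 : (r + 1) ^ 3 - 1 = r * ((r + 1) ^ 2 + (r + 1) + 1) := by
      apply Nat.sub_eq_of_eq_add; ring
    rw [e1, Nat.add_sub_cancel]; ring
  have hrel : ∀ g : GL chevD4.Idx K, g ∈ fixSub (opMat chevD4 K gaBig_D4a) (frobHom hfr) →
      dEnt g 14 = (dEnt g 14) ^ q ∧ dEnt g 13 = (dEnt g 18) ^ q ∧
        dEnt g 12 = (dEnt g 13) ^ q := by
    intro g hg
    exact ⟨dEnt_rel hD gaBig_D4a twPerm_D4 twPinv_D4 twSgn_D4 twMono_D4 twInj_D4 (frobHom hfr) g
        hg 14 14 l14 l14 f1 f4,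
      dEnt_rel hD gaBig_D4a twPerm_D4 twPinv_D4 twSgn_D4 twMono_D4 twInj_D4 (frobHom hfr) g
        hg 18 13 l18 l13 f2 f5,
      dEnt_rel hD gaBig_D4a twPerm_D4 twPinv_D4 twSgn_D4 twMono_D4 twInj_D4 (frobHom hfr) g
        hg 13 12 l13 l12 f3 f6⟩
  have hub : Nat.card ↥(chevD4.diagonalSubgroup K ⊓
      fixSub (opMat chevD4 K gaBig_D4a) (frobHom hfr)) ≤
      ((Finset.univ : Finset K).erase 0).card *
        ((Finset.univ.filter (fun t : K => t ^ q = t)).erase 0).card := by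
    have hmem : ∀ g : ↥(chevD4.diagonalSubgroup K ⊓
        fixSub (opMat chevD4 K gaBig_D4a) (frobHom hfr)),
        ((dEnt (g : GL chevD4.Idx K) 18, dEnt (g : GL chevD4.Idx K) 14) : K × K) ∈
          ((Finset.univ : Finset K).erase 0) ×ˢ
            ((Finset.univ.filter (fun t : K => t ^ q = t)).erase 0) := by
      intro g
      rw [Finset.mem_product, Finset.mem_erase, Finset.mem_erase, Finset.mem_filter]
      exact ⟨⟨dEnt_ne_zero hD _ g.2.1 18 l18, Finset.mem_univ _⟩,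
        dEnt_ne_zero hD _ g.2.1 14 l14, Finset.mem_univ _, ((hrel _ g.2.2).1).symm⟩
    have hinj : Function.Injective (fun g : ↥(chevD4.diagonalSubgroup K ⊓
        fixSub (opMat chevD4 K gaBig_D4a) (frobHom hfr)) =>
        (⟨(dEnt (g : GL chevD4.Idx K) 18, dEnt (g : GL chevD4.Idx K) 14), hmem g⟩ :
          ↥(((Finset.univ : Finset K).erase 0) ×ˢ
            ((Finset.univ.filter (fun t : K => t ^ q = t)).erase 0)))) := by
      intro g g' e
      have e' := congrArg Subtype.val e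
      have e18 : dEnt (g : GL chevD4.Idx K) 18 = dEnt (g' : GL chevD4.Idx K) 18 :=
        congrArg Prod.fst e'
      have e14 : dEnt (g : GL chevD4.Idx K) 14 = dEnt (g' : GL chevD4.Idx K) 14 :=
        congrArg Prod.snd e'
      obtain ⟨-, a1, a2⟩ := hrel _ g.2.2
      obtain ⟨-, b1, b2⟩ := hrel _ g'.2.2
      apply Subtype.ext
      apply H_eq_of_dEnt hD _ _ _ _ _ _ smith_D4 _ _ g.2.1 g'.2.1
      intro j hj
      rw [f8] at hj
      have hj' : j = 0 ∨ j = 1 ∨ j = 2 ∨ j = 3 := by omega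
      rcases hj' with rfl | rfl | rfl | rfl
      · rw [s0]; exact e18
      · rw [s1]; exact e14
      · rw [s2, a1, b1, e18]
      · rw [s3, a2, b2, a1, b1, e18]
    have h4 := Nat.card_le_card_of_injective _ hinj
    rw [Nat.card_eq_fintype_card (α := ↥(((Finset.univ : Finset K).erase 0) ×ˢ
      ((Finset.univ.filter (fun t : K => t ^ q = t)).erase 0))), Fintype.card_coe,
      Finset.card_product] at h4
    exact h4
  rw [hS1c, hT'c] at hub
  have hcard := d4_H_card hq hK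
  have hle : chevD4.diagonalSubgroup K ⊓ twistedD4 K q ≤
      chevD4.diagonalSubgroup K ⊓ fixSub (opMat chevD4 K gaBig_D4a) (frobHom hfr) :=
    fun x hx => Subgroup.mem_inf.mpr ⟨hx.1, hS hx.2⟩
  have heq := Subgroup.eq_of_le_of_card_ge hle (by rw [hcard, hfin]; exact hub)
  have hh' : h₀ ∈ chevD4.diagonalSubgroup K ⊓
      fixSub (opMat chevD4 K gaBig_D4a) (frobHom hfr) := Subgroup.mem_inf.mpr ⟨hh₀, hf₀⟩
  rw [← heq] at hh'
  exact hh'.2

theorem d4_fix_B (hq : IsPrimePow q) (hK : Fintype.card K = q ^ 3) (hfr : IsFrob K q)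
    (hD : Seven chevD4) (g : GL chevD4.Idx K) (hgB : g ∈ chevD4.borelSubgroup K)
    (hgF : d4Tw (frobHom hfr) g g) :
    g ∈ chevD4.borelSubgroup K ⊓ twistedD4 K q := by
  obtain ⟨u, hu, h, hh, rfl⟩ := mem_sup_of_normalizes (chevD4.diagonalSubgroup K)
    (chevD4.posUnipotent K)
    (fun a ha n hn => ((Subgroup.mem_normalizer_iff.mp (H_le_normalizer_posU hD ha)) n).mp hn)
    g hgB
  obtain ⟨u', hu', hTu⟩ := d4Tw_U hD (frobHom hfr) u hu
  obtain ⟨h', hh', hTh⟩ := d4Tw_H hD (frobHom hfr) h hh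
  have e2 : u' * h' = u * h := d4Tw_fun (frobHom hfr) (Tw.mul hTu hTh) hgF
  obtain ⟨e3, e4⟩ := UH_unique hD u' u h' h hu' hu hh' hh e2
  rw [e3] at hTu
  rw [e4] at hTh
  exact Subgroup.mem_inf.mpr ⟨hgB, mul_mem (d4_U_fix_mem hq hK hfr u hu hTu)
    (d4_H_fix_mem hq hK hfr h hh hTh)⟩

theorem d4_gens (hq : IsPrimePow q) (hK : Fintype.card K = q ^ 3) (hD : Seven chevD4) :
    wordN (F := K) hD [1] ∈ twistedD4 K q ∧ wordN (F := K) hD [0, 2, 3] ∈ twistedD4 K q ∧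
    xG hD 14 (1 : K) ∈ twistedD4 K q ∧
    xG hD 18 (1 : K) * (xG hD 13 1 * xG hD 12 1) ∈ twistedD4 K q := by
  have hfr : IsFrob K q := isFrob_of_card hq hK
  have hfr2 : IsFrob K (q ^ 2) := by rw [sq]; exact hfr.mul hfr
  obtain ⟨n18, n13, n12, n14, s0, s1, s2, s3, -, -, -, -, -⟩ := d4_facts
  obtain ⟨o1, o2, o3⟩ := d4_orth
  have gen1 : ∀ t : K, t ^ q = t → ∀ r ∈ [d4p2, d4m2], xG hD r t ∈ twistedD4 K q := by
    intro t ht r hr
    rw [← wG_one]
    exact mem_gen hD _ _ (Or.inl ⟨t, ht, r, hr, rfl⟩)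
  have gen2 : ∀ t : K, ∀ rs ∈ [(d4p1, d4p3, d4p4), (d4m1, d4m3, d4m4)],
      xG hD rs.1 t * (xG hD rs.2.1 (t ^ q) * xG hD rs.2.2 (t ^ (q ^ 2))) ∈ twistedD4 K q := by
    intro t rs hrs
    rw [← wG_three]
    exact mem_gen hD _ _ (Or.inr ⟨t, rs, hrs, rfl⟩)
  have hP : ∀ t : K, t ^ q = t → (-t) ^ q = -t := fun t ht => by rw [hfr.neg, ht]
  have P1 : (1 : K) ^ q = 1 := one_pow q
  have Pm : (-(1 : K)⁻¹) ^ q = -(1 : K)⁻¹ := by rw [inv_one]; exact hP 1 P1
  have g14 : ∀ t : K, t ^ q = t → xG hD 14 t ∈ twistedD4 K q :=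
    fun t ht => gen1 t ht d4p2 (by simp)
  have g9 : ∀ t : K, t ^ q = t → xG hD 9 t ∈ twistedD4 K q :=
    fun t ht => gen1 t ht d4m2 (by simp)
  have hn2 : nG hD (chevD4.simple 1) (1 : K) ∈ twistedD4 K q := by
    rw [nG_eq, s1, n14]
    exact mul_mem (mul_mem (g14 1 P1) (g9 _ Pm)) (g14 1 P1)
  have hNS : nG hD 18 (1 : K) * (nG hD 13 1 * nG hD 12 1) ∈ twistedD4 K q :=
    tri_clsN_mem hD _ 18 13 12 q hfr hfr2 o1 o2 o3
      (fun t => gen2 t (d4p1, d4p3, d4p4) (by simp))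
      (fun t => by rw [n18, n13, n12]; exact gen2 t (d4m1, d4m3, d4m4) (by simp))
  have eA : wordN (F := K) hD [1] = nG hD (chevD4.simple 1) 1 := by
    show nG hD (chevD4.simple 1) 1 * 1 = _
    rw [mul_one]
  have eB : wordN (F := K) hD [0, 2, 3] = nG hD 18 1 * (nG hD 13 1 * nG hD 12 1) := by
    show nG hD (chevD4.simple 0) 1 * (nG hD (chevD4.simple 2) 1 *
        (nG hD (chevD4.simple 3) 1 * 1)) = _
    rw [s0, s2, s3, mul_one]
  refine ⟨by rw [eA]; exact hn2, by rw [eB]; exact hNS, g14 1 P1, ?_⟩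
  have h := gen2 1 (d4p1, d4p3, d4p4) (by simp)
  rw [one_pow, one_pow] at h
  exact h

/-- The twisted Bruhat decomposition of the fixed points. -/
theorem d4_fix_decomp (hq : IsPrimePow q) (hK : Fintype.card K = q ^ 3) (hfr : IsFrob K q)
    (hD : Seven chevD4) (g : GL chevD4.Idx K) (hg : g ∈ chevD4.group K)
    (hgF : d4Tw (frobHom hfr) g g) :
    ∃ b₁ ∈ chevD4.borelSubgroup K ⊓ twistedD4 K q,
      ∃ n ∈ chevD4.monomialSubgroup K ⊓ twistedD4 K q,
        ∃ b₂ ∈ chevD4.borelSubgroup K ⊓ twistedD4 K q, g = b₁ * n * b₂ := by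
  have hφ3 : ∀ t : K, frobHom hfr (frobHom hfr (frobHom hfr t)) = t := fun t => by
    rw [frobHom_apply, frobHom_apply, frobHom_apply, ← pow_mul, ← pow_mul,
      show q * (q * q) = q ^ 3 by ring, ← hK]
    exact FiniteField.pow_card t
  have hS := d4_le_fix hq hK hfr
  obtain ⟨hA_G, hB_G, -, -⟩ := d4_gens hq hK hD
  obtain ⟨c1, c2, c3, c4, c5, c6, c7, c8⟩ := d4_conj_tab
  obtain ⟨b, hb, n, hn, u, hu, rfl⟩ := canon_exists hD g hg
  obtain ⟨h, hh, v, hv, rfl⟩ := N_word_form hD n hn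
  obtain ⟨b', hb', hTb⟩ := d4Tw_B hD (frobHom hfr) b hb
  obtain ⟨h', hh', hTh⟩ := d4Tw_H hD (frobHom hfr) h hh
  have hTw := d4Tw_wordN hD (frobHom hfr) v hv
  have hv' : ∀ i ∈ v.map (fun i => d4pi.getD i 0), i < chevD4.rank := by
    intro i hi
    obtain ⟨j, hj, rfl⟩ := List.mem_map.mp hi
    exact (d4_pi_tab j (hv j hj)).1
  have hTn : d4Tw (frobHom hfr) (h' * wordN hD (v.map (fun i => d4pi.getD i 0)))
      (h * wordN hD v) := Tw.mul hTh hTw
  obtain ⟨u', hu', hTu⟩ := d4Tw_Uw hD (frobHom hfr) hφ3 _ _ hTn u hu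
  have e1 : b' * (h' * wordN hD (v.map (fun i => d4pi.getD i 0))) * u' =
      b * (h * wordN hD v) * u :=
    d4Tw_fun (frobHom hfr) (Tw.mul (Tw.mul hTb hTn) hTu) hgF
  have hnH := bruhat_coset_unique hD b b' (h * wordN hD v)
    (h' * wordN hD (v.map (fun i => d4pi.getD i 0))) u u' hb hb' hn
    (mul_mem (Subgroup.mem_sup_left hh') (wordN_mem hD _ hv'))
    (Subgroup.mem_sup_left (UwD4_le_posU _ hu)) (Subgroup.mem_sup_left (UwD4_le_posU _ hu'))
    e1.symm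
  have hWH : (wordN hD v)⁻¹ * wordN hD (v.map (fun i => d4pi.getD i 0)) ∈
      chevD4.diagonalSubgroup K := by
    have e2 : (wordN hD v)⁻¹ * wordN hD (v.map (fun i => d4pi.getD i 0)) =
        ((wordN hD v)⁻¹ * (h'⁻¹ * h) * ((wordN hD v)⁻¹)⁻¹) *
          ((h * wordN hD v)⁻¹ * (h' * wordN hD (v.map (fun i => d4pi.getD i 0)))) := by group
    rw [e2]
    exact mul_mem (N_conj_H hD (inv_mem (wordN_mem hD v hv)) (mul_mem (inv_mem hh') hh)) hnH
  have hcomm := wordN_H_imp hD v (v.map (fun i => d4pi.getD i 0)) hv hv' hWH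
  have hρ : ∀ s, s < chevD4.nroots → wordApply chevD4 v (d4rho.getD s 0) =
      d4rho.getD (wordApply chevD4 v s) 0 := by
    intro s hs
    rw [hcomm _ (d4_sg_tab s hs).2.2.2.1]
    exact d4_wordApply_rho hD v hv s hs
  have e13 : wordApply chevD4 v 13 = d4rho.getD (wordApply chevD4 v 18) 0 := by
    have t := hρ 18 (by decide)
    rw [c6] at t
    exact t
  have e12 : wordApply chevD4 v 12 = d4rho.getD (wordApply chevD4 v 13) 0 := by
    have t := hρ 13 (by decide)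
    rw [c7] at t
    exact t
  obtain ⟨j, hj, hjw⟩ := d4_word_class (K := K) hD v hv e13 e12
  obtain ⟨w, hw, hwG, hwH⟩ : ∃ w : List ℕ, (∀ i ∈ w, i < chevD4.rank) ∧
      wordN (F := K) hD w ∈ twistedD4 K q ∧
      (wordN (F := K) hD w)⁻¹ * wordN hD v ∈ chevD4.diagonalSubgroup K := by
    rcases hjw with hp | hp
    · refine ⟨d4pw j, d4pw_lt j, ?_, hp⟩
      rw [d4_pw_eq]; exact pow_mem (mul_mem hA_G hB_G) j
    · refine ⟨d4aw j, d4aw_lt j, ?_, hp⟩
      rw [d4_aw_eq]; exact mul_mem hA_G (pow_mem (mul_mem hA_G hB_G) j)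
  have hwN : wordN (F := K) hD w ∈ chevD4.monomialSubgroup K := wordN_mem hD w hw
  obtain ⟨h₄, hh₄, en⟩ : ∃ h₄ ∈ chevD4.diagonalSubgroup K,
      h * wordN hD v = h₄ * wordN hD w := by
    refine ⟨h * (wordN hD w * ((wordN hD w)⁻¹ * wordN hD v) * (wordN hD w)⁻¹),
      mul_mem hh (N_conj_H hD hwN hwH), ?_⟩
    group
  have hu₂ : u ∈ UwD4 K (wordN hD w) := by
    refine Subgroup.closure_mono ?_ hu
    rintro x ⟨r, t, hpos, hmap, hx⟩
    refine ⟨r, t, hpos, ?_, hx⟩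
    rintro y ⟨z, hz, rfl⟩
    have h1 : h * wordN hD v * z * (h * wordN hD v)⁻¹ ∈ chevD4.negUnipotent K :=
      hmap ⟨z, hz, rfl⟩
    have h2 := ((Subgroup.mem_normalizer_iff.mp
      (H_le_normalizer_negU hD (inv_mem hh₄))) _).mp h1
    have e3 : wordN hD w * z * (wordN hD w)⁻¹ =
        h₄⁻¹ * (h * wordN hD v * z * (h * wordN hD v)⁻¹) * h₄⁻¹⁻¹ := by
      rw [en]; group
    show wordN hD w * z * (wordN hD w)⁻¹ ∈ chevD4.negUnipotent K
    rw [e3]
    exact h2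
  have hTw₁ : d4Tw (frobHom hfr) (wordN hD w) (wordN hD w) := hS hwG
  have eg : b * (h * wordN hD v) * u = (b * h₄) * wordN hD w * u := by rw [en]; group
  have hb₀ : b * h₄ ∈ chevD4.borelSubgroup K := mul_mem hb (Subgroup.mem_sup_right hh₄)
  obtain ⟨b₀', hb₀', hTb₀⟩ := d4Tw_B hD (frobHom hfr) (b * h₄) hb₀
  obtain ⟨u₀', hu₀', hTu₀⟩ := d4Tw_Uw hD (frobHom hfr) hφ3 _ _ hTw₁ u hu₂
  have hgF' : d4Tw (frobHom hfr) ((b * h₄) * wordN hD w * u) ((b * h₄) * wordN hD w * u) := by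
    rw [← eg]; exact hgF
  have e5 : b₀' * wordN hD w * u₀' = (b * h₄) * wordN hD w * u :=
    d4Tw_fun (frobHom hfr) (Tw.mul (Tw.mul hTb₀ hTw₁) hTu₀) hgF'
  obtain ⟨e6, e7⟩ := (canon_unique hD b₀' (b * h₄) (wordN hD w) (wordN hD w) u₀' u hb₀' hb₀
    hwN hwN hu₀' hu₂ e5).2 rfl
  rw [e6] at hTb₀
  rw [e7] at hTu₀
  exact ⟨b * h₄, d4_fix_B hq hK hfr hD _ hb₀ hTb₀, wordN hD w,
    Subgroup.mem_inf.mpr ⟨hwN, hwG⟩, u, Subgroup.mem_inf.mpr
      ⟨Subgroup.mem_sup_left (UwD4_le_posU _ hu₂),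
        d4_U_fix_mem hq hK hfr u (UwD4_le_posU _ hu₂) hTu₀⟩, eg⟩

end D4Fix

end Cfsg.Agent.Helper11
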