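import Cfsg.Agent.Helper11.ChevTwBD4

set_option autoImplicit false

/-!
The `(B, N)`-pair of rank two of `³D₄(q)` and its simplicity.
-/

namespace Cfsg.Agent.Helper11

open Cfsg.Lie

section D4BN
variable {K : Type*} [Field K] [Fintype K] {q : ℕ}

theorem d4_bn (hq : IsPrimePow q) (hK : Fintype.card K = q ^ 3) :
    ∃ P : Cfsg.BNPair ↥(twistedD4 K q),
      P.B = (chevD4.borelSubgroup K ⊓ twistedD4 K q).subgroupOf (twistedD4 K q) ∧
      P.N = (chevD4.monomialSubgroup K ⊓ twistedD4 K q).subgroupOf (twistedD4 K q) ∧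
      ∃ a b : ↥(twistedD4 K q), P.S = {a, b} ∧ a * b * a⁻¹ * b⁻¹ ∉ P.B ∧ a ≠ b := by
  classical
  have hD : Seven chevD4 := by simp
  have hfr : IsFrob K q := isFrob_of_card hq hK
  have hS := d4_le_fix hq hK hfr
  have hGG : twistedD4 K q ≤ chevD4.group K :=
    gen_le hD _ _ (fun w _ => wG_mem_group hD w)
  obtain ⟨hA_G, hB_G, hx14, hx3⟩ := d4_gens hq hK hD
  obtain ⟨c1, c2, c3, c4, c5, c6, c7, c8⟩ := d4_conj_tab
  have hwA : ∀ i ∈ ([1] : List ℕ), i < chevD4.rank := by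
    intro i hi
    simp only [List.mem_cons, List.mem_nil_iff, or_false] at hi
    subst hi
    decide
  have hwB : ∀ i ∈ ([0, 2, 3] : List ℕ), i < chevD4.rank := by
    intro i hi
    simp only [List.mem_cons, List.mem_nil_iff, or_false] at hi
    rcases hi with rfl | rfl | rfl <;> decide
  have hAN : wordN (F := K) hD [1] ∈ chevD4.monomialSubgroup K := wordN_mem hD _ hwA
  have hBN : wordN (F := K) hD [0, 2, 3] ∈ chevD4.monomialSubgroup K := wordN_mem hD _ hwB
  obtain ⟨Bs, hBs⟩ : ∃ Bs : Subgroup ↥(twistedD4 K q),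
      Bs = (chevD4.borelSubgroup K ⊓ twistedD4 K q).subgroupOf (twistedD4 K q) := ⟨_, rfl⟩
  obtain ⟨Ns, hNs⟩ : ∃ Ns : Subgroup ↥(twistedD4 K q),
      Ns = (chevD4.monomialSubgroup K ⊓ twistedD4 K q).subgroupOf (twistedD4 K q) := ⟨_, rfl⟩
  obtain ⟨a, ha⟩ : ∃ a : ↥(twistedD4 K q), (a : GL chevD4.Idx K) = wordN hD [1] :=
    ⟨⟨_, hA_G⟩, rfl⟩
  obtain ⟨b, hb⟩ : ∃ b : ↥(twistedD4 K q), (b : GL chevD4.Idx K) = wordN hD [0, 2, 3] :=
    ⟨⟨_, hB_G⟩, rfl⟩
  have memB : ∀ x : ↥(twistedD4 K q),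
      x ∈ Bs ↔ (x : GL chevD4.Idx K) ∈ chevD4.borelSubgroup K := by
    intro x
    rw [hBs, Subgroup.mem_subgroupOf]
    exact ⟨fun h => h.1, fun h => Subgroup.mem_inf.mpr ⟨h, x.2⟩⟩
  have memN : ∀ x : ↥(twistedD4 K q),
      x ∈ Ns ↔ (x : GL chevD4.Idx K) ∈ chevD4.monomialSubgroup K := by
    intro x
    rw [hNs, Subgroup.mem_subgroupOf]
    exact ⟨fun h => h.1, fun h => Subgroup.mem_inf.mpr ⟨h, x.2⟩⟩
  have HB : ∀ x : ↥(twistedD4 K q),
      (x : GL chevD4.Idx K) ∈ chevD4.diagonalSubgroup K → x ∈ Bs :=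
    fun x hx => (memB x).mpr (Subgroup.mem_sup_right hx)
  have HN : ∀ x : ↥(twistedD4 K q),
      (x : GL chevD4.Idx K) ∈ chevD4.diagonalSubgroup K → x ∈ Ns :=
    fun x hx => (memN x).mpr (Subgroup.mem_sup_left hx)
  have BNH : ∀ x : ↥(twistedD4 K q), x ∈ Bs → x ∈ Ns →
      (x : GL chevD4.Idx K) ∈ chevD4.diagonalSubgroup K := by
    intro x h1 h2
    rw [← B_inf_N hD]
    exact Subgroup.mem_inf.mpr ⟨(memB x).mp h1, (memN x).mp h2⟩
  have haN : a ∈ Ns := by rw [memN, ha]; exact hAN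
  have hbN : b ∈ Ns := by rw [memN, hb]; exact hBN
  have haa : (a * a : ↥(twistedD4 K q)) ∈ Bs := by
    apply HB
    rw [Subgroup.coe_mul, ha, ← wordN_append]
    exact wordN_id_H hD _ (fun i hi => by
        rcases List.mem_append.mp hi with h | h <;> exact hwA i h)
      (fun s hs => (beq_iff _ _).mp ((allN_spec _ _).mp d4_w_id1 s hs))
  have hbb : (b * b : ↥(twistedD4 K q)) ∈ Bs := by
    apply HB
    rw [Subgroup.coe_mul, hb, ← wordN_append]
    exact wordN_id_H hD _ (fun i hi => by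
        rcases List.mem_append.mp hi with h | h <;> exact hwB i h)
      (fun s hs => (beq_iff _ _).mp ((allN_spec _ _).mp d4_w_idB s hs))
  have cpw : ∀ j, (((a * b) ^ j : ↥(twistedD4 K q)) : GL chevD4.Idx K) =
      wordN hD (d4pw j) := by
    intro j
    rw [d4_pw_eq, Subgroup.coe_pow, Subgroup.coe_mul, ha, hb]
  have caw : ∀ j, ((a * (a * b) ^ j : ↥(twistedD4 K q)) : GL chevD4.Idx K) =
      wordN hD (d4aw j) := by
    intro j
    rw [d4_aw_eq, Subgroup.coe_mul, Subgroup.coe_pow, Subgroup.coe_mul, ha, hb]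
  have ncov : ∀ n : ↥(twistedD4 K q), n ∈ Ns → ∃ j, j < 6 ∧
      (((((a * b) ^ j)⁻¹ * n : ↥(twistedD4 K q)) : GL chevD4.Idx K) ∈
          chevD4.diagonalSubgroup K ∨
        (((a * (a * b) ^ j)⁻¹ * n : ↥(twistedD4 K q)) : GL chevD4.Idx K) ∈
          chevD4.diagonalSubgroup K) := by
    intro n hn
    obtain ⟨j, hj, hjw⟩ := d4_N_fix_cov hD (frobHom hfr) (n : GL chevD4.Idx K)
      ((memN n).mp hn) (hS n.2)
    refine ⟨j, hj, ?_⟩
    rcases hjw with h | h
    · left
      rw [Subgroup.coe_mul, Subgroup.coe_inv, cpw]; exact h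
    · right
      rw [Subgroup.coe_mul, Subgroup.coe_inv, caw]; exact h
  have hab_ne : a⁻¹ * b ∉ Bs := by
    intro hmem
    have h1 := BNH _ hmem (mul_mem (inv_mem haN) hbN)
    rw [Subgroup.coe_mul, Subgroup.coe_inv, ha, hb] at h1
    have h2 := wordN_H_imp hD [1] [0, 2, 3] hwA hwB h1
    obtain ⟨s, hs, hne⟩ := (anyN_spec _ _).mp d4_w_neAB
    rw [(beq_iff _ _).mpr (h2 s hs), cond_true] at hne
    exact Bool.false_ne_true hne
  have hcomm_ne : a * b * a⁻¹ * b⁻¹ ∉ Bs := by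
    intro hmem
    have h1 := BNH _ hmem (mul_mem (mul_mem (mul_mem haN hbN) (inv_mem haN)) (inv_mem hbN))
    have h2 : (((a * b) ^ 2 : ↥(twistedD4 K q)) : GL chevD4.Idx K) ∈
        chevD4.diagonalSubgroup K := by
      have e : (a * b) ^ 2 = (a * b * a⁻¹ * b⁻¹) * (b * (a * a) * b⁻¹) * (b * b) := by
        rw [pow_two]; group
      rw [e, Subgroup.coe_mul, Subgroup.coe_mul]
      refine mul_mem (mul_mem h1 ?_) (BNH _ hbb (mul_mem hbN hbN))
      rw [Subgroup.coe_mul, Subgroup.coe_mul, Subgroup.coe_inv]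
      exact N_conj_H hD ((memN b).mp hbN) (BNH _ haa (mul_mem haN haN))
    rw [cpw] at h2
    have hid := wordN_H_id hD (d4pw 2) (d4pw_lt 2) h2
    have t := (allN_spec _ _).mp d4_w_ne1 2 (by norm_num)
    rw [beq_false_of_ne (by norm_num : (2 : ℕ) ≠ 0), cond_false] at t
    obtain ⟨s, hs, hne⟩ := (anyN_spec _ _).mp t
    rw [(beq_iff _ _).mpr (hid s hs), cond_true] at hne
    exact Bool.false_ne_true hne
  -- the double coset condition, given the ambient double coset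
  have fin : ∀ (sw : List ℕ) (s : ↥(twistedD4 K q)), (s : GL chevD4.Idx K) = wordN hD sw →
      ∀ (n b₀ : ↥(twistedD4 K q)), n ∈ Ns → ∀ u : List ℕ, (∀ i ∈ u, i < chevD4.rank) →
      (u = [] ∨ u = sw ∨ u ∈ d4subs) →
      ∀ δ₁ ∈ chevD4.borelSubgroup K, ∀ δ₂ ∈ chevD4.borelSubgroup K,
      ((s * b₀ * n : ↥(twistedD4 K q)) : GL chevD4.Idx K) =
        δ₁ * (wordN hD u * (n : GL chevD4.Idx K)) * δ₂ →
      s * b₀ * n ∈ DoubleCoset.doubleCoset (s * n) (Bs : Set ↥(twistedD4 K q)) Bs ∪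
        DoubleCoset.doubleCoset n (Bs : Set ↥(twistedD4 K q)) Bs := by
    intro sw s hsw n b₀ hn u hu hcase δ₁ hδ₁ δ₂ hδ₂ ex
    have hnN : (n : GL chevD4.Idx K) ∈ chevD4.monomialSubgroup K := (memN n).mp hn
    obtain ⟨b₁, hb₁, n₁, hn₁, b₂, hb₂, e⟩ := d4_fix_decomp hq hK hfr hD
      ((s * b₀ * n : ↥(twistedD4 K q)) : GL chevD4.Idx K) (hGG (s * b₀ * n).2)
      (hS (s * b₀ * n).2)
    have hH := bruhat_coset_unique hD δ₁ b₁ (wordN hD u * (n : GL chevD4.Idx K)) n₁ δ₂ b₂ hδ₁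
      hb₁.1 (mul_mem (wordN_mem hD u hu) hnN) hn₁.1 hδ₂ hb₂.1 (ex.symm.trans e)
    have hgN : n₁ * (n : GL chevD4.Idx K)⁻¹ ∈ chevD4.monomialSubgroup K :=
      mul_mem hn₁.1 (inv_mem hnN)
    have hgG : n₁ * (n : GL chevD4.Idx K)⁻¹ ∈ twistedD4 K q := mul_mem hn₁.2 (inv_mem n.2)
    have hH' : (wordN hD u)⁻¹ * (n₁ * (n : GL chevD4.Idx K)⁻¹) ∈ chevD4.diagonalSubgroup K := by
      have e2 : (wordN hD u)⁻¹ * (n₁ * (n : GL chevD4.Idx K)⁻¹) =
          (n : GL chevD4.Idx K) * ((wordN hD u * (n : GL chevD4.Idx K))⁻¹ * n₁) *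
            (n : GL chevD4.Idx K)⁻¹ := by group
      rw [e2]
      exact N_conj_H hD hnN hH
    have hcase' : u = [] ∨ u = sw := by
      rcases hcase with h | h | h
      · exact Or.inl h
      · exact Or.inr h
      · exfalso
        obtain ⟨j, hj, hjw⟩ := d4_N_fix_cov hD (frobHom hfr) _ hgN (hS hgG)
        have t := (allN_spec _ _).mp (d4_sub_tab u h) j hj
        rw [Bool.and_eq_true] at t
        have ex2 : ∀ w : List ℕ, (∀ i ∈ w, i < chevD4.rank) →
            (wordN (F := K) hD w)⁻¹ * (n₁ * (n : GL chevD4.Idx K)⁻¹) ∈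
              chevD4.diagonalSubgroup K →
            ∀ s, s < chevD4.nroots → wordApply chevD4 w s = wordApply chevD4 u s := by
          intro w hw hwH
          have e3 : (wordN (F := K) hD w)⁻¹ * wordN hD u =
              ((wordN hD w)⁻¹ * (n₁ * (n : GL chevD4.Idx K)⁻¹)) *
                ((wordN hD u)⁻¹ * (n₁ * (n : GL chevD4.Idx K)⁻¹))⁻¹ := by group
          exact wordN_H_imp hD w u hw hu (by rw [e3]; exact mul_mem hwH (inv_mem hH'))
        rcases hjw with hp | hp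
        · obtain ⟨s', hs', hne⟩ := (anyN_spec _ _).mp t.1
          rw [(beq_iff _ _).mpr (ex2 _ (d4pw_lt j) hp s' hs'), cond_true] at hne
          exact Bool.false_ne_true hne
        · obtain ⟨s', hs', hne⟩ := (anyN_spec _ _).mp t.2
          rw [(beq_iff _ _).mpr (ex2 _ (d4aw_lt j) hp s' hs'), cond_true] at hne
          exact Bool.false_ne_true hne
    rcases hcase' with h | h
    · right
      rw [h, wordN_nil, inv_one, one_mul] at hH'
      rw [DoubleCoset.mem_doubleCoset]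
      refine ⟨⟨b₁ * (n₁ * (n : GL chevD4.Idx K)⁻¹), mul_mem hb₁.2 hgG⟩,
        (memB _).mpr (mul_mem hb₁.1 (Subgroup.mem_sup_right hH')), ⟨b₂, hb₂.2⟩,
        (memB _).mpr hb₂.1, ?_⟩
      apply Subtype.ext
      show ((s * b₀ * n : ↥(twistedD4 K q)) : GL chevD4.Idx K) =
        b₁ * (n₁ * (n : GL chevD4.Idx K)⁻¹) * (n : GL chevD4.Idx K) * b₂
      rw [e]; group
    · left
      rw [h, ← hsw] at hH'
      rw [DoubleCoset.mem_doubleCoset]
      have hH2 : (n : GL chevD4.Idx K)⁻¹ *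
          ((s : GL chevD4.Idx K)⁻¹ * (n₁ * (n : GL chevD4.Idx K)⁻¹)) *
          ((n : GL chevD4.Idx K)⁻¹)⁻¹ ∈ chevD4.diagonalSubgroup K :=
        N_conj_H hD (inv_mem hnN) hH'
      refine ⟨⟨b₁, hb₁.2⟩, (memB _).mpr hb₁.1,
        ⟨(n : GL chevD4.Idx K)⁻¹ * ((s : GL chevD4.Idx K)⁻¹ * (n₁ * (n : GL chevD4.Idx K)⁻¹)) *
          ((n : GL chevD4.Idx K)⁻¹)⁻¹ * b₂,
          mul_mem (mul_mem (mul_mem (inv_mem n.2) (mul_mem (inv_mem s.2) hgG))
            (inv_mem (inv_mem n.2))) hb₂.2⟩,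
        (memB _).mpr (mul_mem (Subgroup.mem_sup_right hH2) hb₂.1), ?_⟩
      apply Subtype.ext
      show ((s * b₀ * n : ↥(twistedD4 K q)) : GL chevD4.Idx K) =
        b₁ * ((s : GL chevD4.Idx K) * (n : GL chevD4.Idx K)) *
          ((n : GL chevD4.Idx K)⁻¹ * ((s : GL chevD4.Idx K)⁻¹ *
            (n₁ * (n : GL chevD4.Idx K)⁻¹)) * ((n : GL chevD4.Idx K)⁻¹)⁻¹ * b₂)
      rw [e]; group
  refine ⟨
    { B := Bs
      N := Ns
      S := {a, b}
      sup_eq_top := ?_
      conj_mem := ?_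
      subset := ?_
      sq_mem := ?_
      inj := ?_
      closure_sup := ?_
      mul_mem_union := ?_
      conj_ne := ?_ }, hBs, hNs, a, b, rfl, hcomm_ne, ?_⟩
  · rw [eq_top_iff]
    intro x _
    obtain ⟨b₁, hb₁, n, hn, b₂, hb₂, e⟩ := d4_fix_decomp hq hK hfr hD (x : GL chevD4.Idx K)
      (hGG x.2) (hS x.2)
    have ex : x = (⟨b₁, hb₁.2⟩ : ↥(twistedD4 K q)) * ⟨n, hn.2⟩ * ⟨b₂, hb₂.2⟩ := by
      apply Subtype.ext
      show (x : GL chevD4.Idx K) = b₁ * n * b₂
      exact e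
    rw [ex]
    exact mul_mem (mul_mem (Subgroup.mem_sup_left ((memB _).mpr hb₁.1))
      (Subgroup.mem_sup_right ((memN _).mpr hn.1))) (Subgroup.mem_sup_left ((memB _).mpr hb₂.1))
  · intro n hn t ht
    apply HB
    exact N_conj_H hD ((memN n).mp hn) (BNH t ht.1 ht.2)
  · intro s hs
    rcases (hs : s = a ∨ s = b) with h | h
    · rw [h]; exact haN
    · rw [h]; exact hbN
  · intro s hs
    rcases (hs : s = a ∨ s = b) with h | h
    · rw [h]; exact haa
    · rw [h]; exact hbb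
  · intro s hs s' hs' hmem
    rcases (hs : s = a ∨ s = b) with h1 | h1 <;> rcases (hs' : s' = a ∨ s' = b) with h2 | h2
    · rw [h1, h2]
    · exfalso
      rw [h1, h2] at hmem
      exact hab_ne hmem
    · exfalso
      rw [h1, h2] at hmem
      apply hab_ne
      have e : a⁻¹ * b = (b⁻¹ * a)⁻¹ := by group
      rw [e]; exact inv_mem hmem
    · rw [h1, h2]
  · apply le_antisymm
    · refine sup_le ((Subgroup.closure_le _).mpr ?_) inf_le_right
      intro s hs
      rcases (hs : s = a ∨ s = b) with h | h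
      · rw [h]; exact haN
      · rw [h]; exact hbN
    · intro n hn
      have haC : a ∈ Subgroup.closure ({a, b} : Set ↥(twistedD4 K q)) :=
        Subgroup.subset_closure (Set.mem_insert a _)
      have hbC : b ∈ Subgroup.closure ({a, b} : Set ↥(twistedD4 K q)) :=
        Subgroup.subset_closure (Set.mem_insert_of_mem a (Set.mem_singleton b))
      obtain ⟨j, hj, h | h⟩ := ncov n hn
      · rw [← mul_inv_cancel_left ((a * b) ^ j) n]
        exact mul_mem (Subgroup.mem_sup_left (pow_mem (mul_mem haC hbC) j))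
          (Subgroup.mem_sup_right (Subgroup.mem_inf.mpr ⟨HB _ h, HN _ h⟩))
      · rw [← mul_inv_cancel_left (a * (a * b) ^ j) n]
        exact mul_mem (Subgroup.mem_sup_left (mul_mem haC (pow_mem (mul_mem haC hbC) j)))
          (Subgroup.mem_sup_right (Subgroup.mem_inf.mpr ⟨HB _ h, HN _ h⟩))
  · intro s hs n hn b₀ hb₀
    have hnN : (n : GL chevD4.Idx K) ∈ chevD4.monomialSubgroup K := (memN n).mp hn
    have hb₀B : (b₀ : GL chevD4.Idx K) ∈ chevD4.borelSubgroup K := (memB b₀).mp hb₀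
    have hnil : ∀ j ∈ ([] : List ℕ), j < chevD4.rank := fun j hj => absurd hj List.not_mem_nil
    rcases (hs : s = a ∨ s = b) with h | h
    · obtain ⟨u, hu, δ₁, hδ₁, δ₂, hδ₂, e⟩ := amb_step hD 1 (by decide) [] hnil
        (n : GL chevD4.Idx K) hnN (b₀ : GL chevD4.Idx K) 1 hb₀B (one_mem _)
      refine fin [1] s (by rw [h]; exact ha) n b₀ hn u ?_ ?_ δ₁ hδ₁ δ₂ hδ₂ ?_
      · rcases hu with h' | h'
        · rw [h']; exact hwA
        · rw [h']; exact hnil
      · rcases hu with h' | h'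
        · exact Or.inr (Or.inl h')
        · exact Or.inl h'
      · rw [← e]
        show (s : GL chevD4.Idx K) * (b₀ : GL chevD4.Idx K) * (n : GL chevD4.Idx K) = _
        rw [h, ha, wordN_cons, wordN_nil]
        group
    · obtain ⟨u₁, hu₁, δ₁, hδ₁, δ₂, hδ₂, e₁⟩ := amb_step hD 3 (by decide) [] hnil
        (n : GL chevD4.Idx K) hnN (b₀ : GL chevD4.Idx K) 1 hb₀B (one_mem _)
      have hu₁' : ∀ j ∈ u₁, j < chevD4.rank := by
        rcases hu₁ with h' | h'
        · rw [h']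
          intro j hj
          rcases List.mem_cons.mp hj with h'' | h''
          · rw [h'']; decide
          · exact hnil j h''
        · rw [h']; exact hnil
      obtain ⟨u₂, hu₂, ε₁, hε₁, ε₂, hε₂, e₂⟩ := amb_step hD 2 (by decide) u₁ hu₁'
        (n : GL chevD4.Idx K) hnN δ₁ δ₂ hδ₁ hδ₂
      have hu₂' : ∀ j ∈ u₂, j < chevD4.rank := by
        rcases hu₂ with h' | h'
        · rw [h']
          intro j hj
          rcases List.mem_cons.mp hj with h'' | h''
          · rw [h'']; decide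
          · exact hu₁' j h''
        · rw [h']; exact hu₁'
      obtain ⟨u₃, hu₃, ζ₁, hζ₁, ζ₂, hζ₂, e₃⟩ := amb_step hD 0 (by decide) u₂ hu₂'
        (n : GL chevD4.Idx K) hnN ε₁ ε₂ hε₁ hε₂
      have hu₃' : ∀ j ∈ u₃, j < chevD4.rank := by
        rcases hu₃ with h' | h'
        · rw [h']
          intro j hj
          rcases List.mem_cons.mp hj with h'' | h''
          · rw [h'']; decide
          · exact hu₂' j h''
        · rw [h']; exact hu₂'
      refine fin [0, 2, 3] s (by rw [h]; exact hb) n b₀ hn u₃ hu₃' ?_ ζ₁ hζ₁ ζ₂ hζ₂ ?_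
      · rcases hu₁ with h1 | h1 <;> rcases hu₂ with h2 | h2 <;> rcases hu₃ with h3 | h3 <;>
          rw [h3, h2, h1] <;>
          (first
            | exact Or.inl rfl
            | exact Or.inr (Or.inl rfl)
            | exact Or.inr (Or.inr (by decide)))
      · rw [← e₃, ← e₂, ← e₁]
        show (s : GL chevD4.Idx K) * (b₀ : GL chevD4.Idx K) * (n : GL chevD4.Idx K) = _
        rw [h, hb, wordN_cons, wordN_cons, wordN_cons, wordN_nil]
        group
  · intro s hs heq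
    rcases (hs : s = a ∨ s = b) with h | h
    · have p14 : chevD4.IsPosRoot 14 := ((pos_iff7 hD 14 (by decide)).1).mpr (by decide)
      have hub : (⟨xG hD 14 1, hx14⟩ : ↥(twistedD4 K q)) ∈ Bs :=
        (memB _).mpr (Subgroup.mem_sup_left (xG_mem_posU hD 14 p14 1))
      have h1 : s * ⟨xG hD 14 1, hx14⟩ * s ∈ (Bs : Set ↥(twistedD4 K q)) := by
        rw [← heq]; exact ⟨_, hub, rfl⟩
      have h2 : (s : GL chevD4.Idx K) * xG hD 14 1 * (s : GL chevD4.Idx K) ∈
          chevD4.borelSubgroup K := (memB _).mp h1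
      rw [h, ha] at h2
      have hsq : wordN (F := K) hD [1] * wordN hD [1] ∈ chevD4.borelSubgroup K := by
        have h' := (memB _).mp haa
        rw [Subgroup.coe_mul, ha] at h'
        exact h'
      have h3 : wordN hD [1] * xG hD 14 (1 : K) * (wordN hD [1])⁻¹ ∈
          chevD4.borelSubgroup K := by
        have e : wordN hD [1] * xG hD 14 (1 : K) * (wordN hD [1])⁻¹ =
            (wordN hD [1] * xG hD 14 1 * wordN hD [1]) * (wordN hD [1] * wordN hD [1])⁻¹ := by
          group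
        rw [e]; exact mul_mem h2 (inv_mem hsq)
      obtain ⟨-, ε, hε, hc⟩ := wordN_conj (F := K) hD [1] hwA 14 (by decide)
      rw [hc 1, c1] at h3
      have h4 : xG hD 9 (ε * 1) ∈ chevD4.negUnipotent K :=
        xG_mem_negU hD 9 (((pos_iff7 hD 9 (by decide)).2).mpr (by decide)) _
      have h5 : xG hD 9 (ε * 1) ∈ chevD4.borelSubgroup K ⊓ chevD4.negUnipotent K :=
        Subgroup.mem_inf.mpr ⟨h3, h4⟩
      rw [B_inf_negU hD, Subgroup.mem_bot] at h5
      have h6 := xG_inj hD 9 (by decide) (ε * 1) 0 (by rw [h5, xG_zero])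
      rw [mul_one] at h6
      rw [h6, mul_zero] at hε
      exact zero_ne_one hε
    · have p18 : chevD4.IsPosRoot 18 := ((pos_iff7 hD 18 (by decide)).1).mpr (by decide)
      have p13 : chevD4.IsPosRoot 13 := ((pos_iff7 hD 13 (by decide)).1).mpr (by decide)
      have p12 : chevD4.IsPosRoot 12 := ((pos_iff7 hD 12 (by decide)).1).mpr (by decide)
      have n5 : chevD4.IsNegRoot 5 := ((pos_iff7 hD 5 (by decide)).2).mpr (by decide)
      have n10 : chevD4.IsNegRoot 10 := ((pos_iff7 hD 10 (by decide)).2).mpr (by decide)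
      have n11 : chevD4.IsNegRoot 11 := ((pos_iff7 hD 11 (by decide)).2).mpr (by decide)
      have hub : (⟨xG hD 18 1 * (xG hD 13 1 * xG hD 12 1), hx3⟩ : ↥(twistedD4 K q)) ∈ Bs :=
        (memB _).mpr (Subgroup.mem_sup_left (mul_mem (xG_mem_posU hD 18 p18 1)
          (mul_mem (xG_mem_posU hD 13 p13 1) (xG_mem_posU hD 12 p12 1))))
      have h1 : s * ⟨xG hD 18 1 * (xG hD 13 1 * xG hD 12 1), hx3⟩ * s ∈
          (Bs : Set ↥(twistedD4 K q)) := by
        rw [← heq]; exact ⟨_, hub, rfl⟩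
      have h2 : (s : GL chevD4.Idx K) * (xG hD 18 1 * (xG hD 13 1 * xG hD 12 1)) *
          (s : GL chevD4.Idx K) ∈ chevD4.borelSubgroup K := (memB _).mp h1
      rw [h, hb] at h2
      have hsq : wordN (F := K) hD [0, 2, 3] * wordN hD [0, 2, 3] ∈ chevD4.borelSubgroup K := by
        have h' := (memB _).mp hbb
        rw [Subgroup.coe_mul, hb] at h'
        exact h'
      obtain ⟨-, ε₁, hε₁, hc₁⟩ := wordN_conj (F := K) hD [0, 2, 3] hwB 18 (by decide)
      obtain ⟨-, ε₂, hε₂, hc₂⟩ := wordN_conj (F := K) hD [0, 2, 3] hwB 13 (by decide)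
      obtain ⟨-, ε₃, hε₃, hc₃⟩ := wordN_conj (F := K) hD [0, 2, 3] hwB 12 (by decide)
      have e : wordN hD [0, 2, 3] * (xG hD 18 (1 : K) * (xG hD 13 1 * xG hD 12 1)) *
          (wordN hD [0, 2, 3])⁻¹ =
          (wordN hD [0, 2, 3] * xG hD 18 1 * (wordN hD [0, 2, 3])⁻¹) *
            ((wordN hD [0, 2, 3] * xG hD 13 1 * (wordN hD [0, 2, 3])⁻¹) *
              (wordN hD [0, 2, 3] * xG hD 12 1 * (wordN hD [0, 2, 3])⁻¹)) := by group
      rw [hc₁ 1, hc₂ 1, hc₃ 1, c2, c3, c4] at e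
      have h3 : wordN hD [0, 2, 3] * (xG hD 18 (1 : K) * (xG hD 13 1 * xG hD 12 1)) *
          (wordN hD [0, 2, 3])⁻¹ ∈ chevD4.borelSubgroup K := by
        have e' : wordN hD [0, 2, 3] * (xG hD 18 (1 : K) * (xG hD 13 1 * xG hD 12 1)) *
            (wordN hD [0, 2, 3])⁻¹ =
            (wordN hD [0, 2, 3] * (xG hD 18 1 * (xG hD 13 1 * xG hD 12 1)) *
              wordN hD [0, 2, 3]) * (wordN hD [0, 2, 3] * wordN hD [0, 2, 3])⁻¹ := by group
        rw [e']; exact mul_mem h2 (inv_mem hsq)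
      have h4 : wordN hD [0, 2, 3] * (xG hD 18 (1 : K) * (xG hD 13 1 * xG hD 12 1)) *
          (wordN hD [0, 2, 3])⁻¹ ∈ chevD4.negUnipotent K := by
        rw [e]
        exact mul_mem (xG_mem_negU hD 5 n5 _)
          (mul_mem (xG_mem_negU hD 10 n10 _) (xG_mem_negU hD 11 n11 _))
      have h5 : wordN hD [0, 2, 3] * (xG hD 18 (1 : K) * (xG hD 13 1 * xG hD 12 1)) *
          (wordN hD [0, 2, 3])⁻¹ ∈ chevD4.borelSubgroup K ⊓ chevD4.negUnipotent K :=
        Subgroup.mem_inf.mpr ⟨h3, h4⟩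
      rw [B_inf_negU hD, Subgroup.mem_bot] at h5
      have h6 : xG hD 18 (1 : K) * (xG hD 13 1 * xG hD 12 1) = 1 := by
        have e5 : xG hD 18 (1 : K) * (xG hD 13 1 * xG hD 12 1) =
            (wordN hD [0, 2, 3])⁻¹ * (wordN hD [0, 2, 3] *
              (xG hD 18 (1 : K) * (xG hD 13 1 * xG hD 12 1)) * (wordN hD [0, 2, 3])⁻¹) *
              wordN hD [0, 2, 3] := by group
        rw [e5, h5]; group
      have h7 : (xG hD 18 (1 : K) * (xG hD 13 1 * xG hD 12 1))⁻¹ =
          xG hD 12 (-1) * (xG hD 13 (-1) * xG hD 18 (-1)) := by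
        rw [mul_inv_rev, mul_inv_rev, xG_inv, xG_inv, xG_inv, mul_assoc]
      have h8 : xG hD 12 (-1 : K) * (xG hD 13 (-1) * xG hD 18 (-1)) = 1 := by
        rw [← h7, h6, inv_one]
      have k1 := kap_mul hD 12 (by decide) (by decide) 3 (by decide) (-1 : K)
        (xG hD 13 (-1) * xG hD 18 (-1))
        (mul_mem (xG_mem_Uge hD 13 13 le_rfl (by decide) _)
          (xG_mem_Uge hD 13 18 (by decide) (by decide) _))
      rw [h8] at k1
      have k2 : kap hD 12 3 (1 : GL chevD4.Idx K) = 0 :=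
        kap_low hD 13 12 (by decide) (by decide) (by decide) 3 (by decide) 1 (one_mem _)
      rw [k2, corK_eq, c5, Int.cast_one, one_mul] at k1
      exact (neg_ne_zero.mpr (one_ne_zero (α := K))) k1.symm
  · intro hab
    apply hab_ne
    rw [hab, inv_mul_cancel]
    exact one_mem _

theorem d4_twisted_simple (hq : IsPrimePow q) (hK : Fintype.card K = q ^ 3) :
    IsSimpleGroup ↥(twistedD4 K q) ∧ ¬ IsMulCommutative ↥(twistedD4 K q) := by
  have hD : Seven chevD4 := by simp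
  obtain ⟨P, hPB, hPN, a, b, hPS, hirr, hab⟩ := d4_bn hq hK
  have hperf := d4_twisted_perfect hq hK
  have hcore := d4_twisted_core hq hK
  have hnt : Nontrivial ↥(twistedD4 K q) := ⟨⟨a, b, hab⟩⟩
  refine ⟨?_, ?_⟩
  · apply Cfsg.Agent.S0319.result P ?_ ?_ hperf ?_
    · intro J hJ hJne hJc
      obtain ⟨x, hx⟩ := hJne
      obtain ⟨y, hy, hyJ⟩ := hJc
      have hx' : x = a ∨ x = b := by
        have h := hJ hx
        rw [hPS] at h
        exact h
      have hy' : y = a ∨ y = b := by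
        have h := hy
        rw [hPS] at h
        exact h
      have hxy : x ≠ y := fun e => hyJ (e ▸ hx)
      rcases hx' with h1 | h1 <;> rcases hy' with h2 | h2
      · exact absurd (h1.trans h2.symm) hxy
      · refine ⟨x, hx, y, ⟨hy, hyJ⟩, ?_⟩
        rw [h1, h2]; exact hirr
      · refine ⟨x, hx, y, ⟨hy, hyJ⟩, ?_⟩
        rw [h1, h2]
        intro hmem
        apply hirr
        have e : a * b * a⁻¹ * b⁻¹ = (b * a * b⁻¹ * a⁻¹)⁻¹ := by group
        rw [e]; exact inv_mem hmem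
      · exact absurd (h1.trans h2.symm) hxy
    · rw [hPB]
      haveI : Group.IsSolvable ↥(chevD4.borelSubgroup K) :=
        isSolvable_of_upper (lvlI_lt chevD4) (fun a b h => lvlI_inj chevD4 a b h)
          (chevD4.borelSubgroup K) (fun g hg => (B_le_up hD hg).1)
      let f : ↥((chevD4.borelSubgroup K ⊓ twistedD4 K q).subgroupOf
          (twistedD4 K q)) →* ↥(chevD4.borelSubgroup K) :=
        { toFun := fun x => ⟨((x : ↥(twistedD4 K q)) : GL chevD4.Idx K),
            (Subgroup.mem_subgroupOf.mp x.2).1⟩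
          map_one' := rfl
          map_mul' := fun _ _ => rfl }
      refine Group.isSolvable_of_isSolvable_injective (f := f) (fun a b h => ?_)
      have h' : ((a : ↥(twistedD4 K q)) : GL chevD4.Idx K) =
          ((b : ↥(twistedD4 K q)) : GL chevD4.Idx K) :=
        congrArg (fun x : ↥(chevD4.borelSubgroup K) => (x : GL chevD4.Idx K)) h
      exact Subtype.ext (Subtype.ext h')
    · rw [hPB]; exact hcore
  · intro hcomm
    have h1 : commutator ↥(twistedD4 K q) = ⊥ := by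
      rw [_root_.commutator_eq_closure, Subgroup.closure_eq_bot_iff]
      rintro g ⟨a, b, rfl⟩
      show a * b * a⁻¹ * b⁻¹ = 1
      have h2 : a * b = b * a := hcomm.is_comm.comm a b
      rw [h2]; group
    rw [hperf] at h1
    have ha1 : a = 1 := Subgroup.mem_bot.mp (h1 ▸ Subgroup.mem_top a)
    have hb1 : b = 1 := Subgroup.mem_bot.mp (h1 ▸ Subgroup.mem_top b)
    exact hab (ha1.trans hb1.symm)

end D4BN

end Cfsg.Agent.Helper11
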