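import Cfsg.Agent.Helper11.ChevTwCD4t

set_option autoImplicit false

/-!
The order of `³D₄(q)`. Every element is uniquely `b n_w u` with `b ∈ B¹`, `w` one of the twelve
words and `u` a fixed point of `U_w⁻`; the fixed points of `U_w⁻` and of its complement in `U` are
bounded along the chain `⟨X_r : r ≥ m⟩`, and the product of the two bounds is `|U¹| = q¹²`.
-/

namespace Cfsg.Agent.Helper11

open Cfsg.Lie

section CGen
variable {F : Type*} [Field F] {D : ChevalleyDatum}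

/-- The entries `(h_j, e_s)`, `s` a negative root, of an element of `V` vanish. -/
theorem negU_entry_zero (hD : Seven D) (y : GL D.Idx F) (hy : y ∈ D.negUnipotent F)
    (j : Fin D.rank) (s : Fin D.nroots) (hs : s.val < D.nroots / 2) :
    (y : Matrix D.Idx D.Idx F) (Sum.inl j) (Sum.inr s) = 0 := by
  by_contra hne
  have h1 : ((y : Matrix D.Idx D.Idx F) - 1) (Sum.inl j) (Sum.inr s) ≠ 0 := by
    rw [Matrix.sub_apply, Matrix.one_apply_ne (by simp), sub_zero]
    exact hne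
  have h := negU_down7 hD y hy (Sum.inl j) (Sum.inr s) h1
  unfold lvlR at h
  have c1 : code D (Sum.inl j : D.Idx) = j.val := rfl
  have c2 : code D (Sum.inr s : D.Idx) = D.rank + s.val := rfl
  rw [c1, c2, lvl_spec, lvl_spec] at h
  have hj := j.isLt
  have hsl := s.isLt
  split_ifs at h <;> omega

/-- The entries `(h_j, e_s)`, `s` a positive root, of an element of `U` vanish. -/
theorem posU_entry_zero (hD : Seven D) (y : GL D.Idx F) (hy : y ∈ D.posUnipotent F)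
    (j : Fin D.rank) (s : Fin D.nroots) (hs : D.nroots / 2 ≤ s.val) :
    (y : Matrix D.Idx D.Idx F) (Sum.inl j) (Sum.inr s) = 0 := by
  by_contra hne
  have h1 : ((y : Matrix D.Idx D.Idx F) - 1) (Sum.inl j) (Sum.inr s) ≠ 0 := by
    rw [Matrix.sub_apply, Matrix.one_apply_ne (by simp), sub_zero]
    exact hne
  have h := posU_up7 hD y hy (Sum.inl j) (Sum.inr s) h1
  unfold lvlI at h
  have c1 : code D (Sum.inl j : D.Idx) = j.val := rfl
  have c2 : code D (Sum.inr s : D.Idx) = D.rank + s.val := rfl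
  rw [c1, c2, lvl_spec, lvl_spec] at h
  have hj := j.isLt
  have hsl := s.isLt
  split_ifs at h <;> omega

/-- The entries `(h_i, e_{-m})` of `g` vanish when the conjugate of `g` by a word has vanishing
entries `(h_j, e_{-w(m)})`. -/
theorem kap_conj_zero (hD : Seven D) (v : List ℕ) (hv : ∀ i ∈ v, i < D.rank) (m : ℕ)
    (hm2 : m < D.nroots) (g y : GL D.Idx F) (hy : g = (wordN hD v)⁻¹ * y * wordN hD v)
    (hy0 : ∀ (j : Fin D.rank) (s' : Fin D.nroots), s'.val = D.neg (wordApply D v m) →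
      (y : Matrix D.Idx D.Idx F) (Sum.inl j) (Sum.inr s') = 0)
    (i : ℕ) : kap hD m i g = 0 := by
  unfold kap
  by_cases h : m < D.nroots ∧ i < D.rank
  · rw [dif_pos h]
    have hs : D.neg m < D.nroots := neg_lt7 hD m hm2
    obtain ⟨h₁, hh₁, v', hv', einv⟩ := wordN_inv_form (F := F) hD v hv
    obtain ⟨c, hc, hcol⟩ := N_col (F := F) hD 1 (one_mem _) v hv (D.neg m) hs
    rw [one_mul] at hcol
    have hs' : wordApply D v (D.neg m) < D.nroots := wordApply_lt hD v hv _ hs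
    have e1 : wordApply D v (D.neg m) = D.neg (wordApply D v m) := wordApply_neg hD v hv m hm2
    rw [hy, einv, Units.val_mul, Matrix.mul_apply]
    apply Finset.sum_eq_zero
    intro b _
    rw [hcol b]
    by_cases hb : code D b = D.rank + wordApply D v (D.neg m)
    · rw [if_pos hb]
      have hb' : b = Sum.inr ⟨wordApply D v (D.neg m), hs'⟩ := code_inj D b _ hb
      have hz : ((h₁ * wordN hD v' * y : GL D.Idx F) : Matrix D.Idx D.Idx F)
          (Sum.inl ⟨i, h.2⟩) b = 0 := by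
        rw [Units.val_mul, Matrix.mul_apply]
        apply Finset.sum_eq_zero
        intro a _
        rcases a with j | t
        · rw [hb', hy0 j ⟨_, hs'⟩ e1, mul_zero]
        · obtain ⟨c', hc', hcol'⟩ := N_col (F := F) hD h₁ hh₁ v' hv' t.val t.isLt
          have h3 := hcol' (Sum.inl ⟨i, h.2⟩)
          have hne : ¬ (code D (Sum.inl ⟨i, h.2⟩ : D.Idx) = D.rank + wordApply D v' t.val) := by
            intro hc2
            have h4 : i = D.rank + wordApply D v' t.val := hc2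
            have := h.2
            omega
          rw [if_neg hne] at h3
          have h5 : ((h₁ * wordN hD v' : GL D.Idx F) : Matrix D.Idx D.Idx F)
              (Sum.inl ⟨i, h.2⟩) (Sum.inr t) = 0 := h3
          rw [h5, zero_mul]
      rw [hz, zero_mul]
    · rw [if_neg hb, mul_zero]
  · rw [dif_neg h]

/-- A step of the chain at a root whose coordinate vanishes on `S`. -/
theorem ub_step_zero [Fintype F] (hD : Seven D) (S : Subgroup (GL D.Idx F)) (v : List ℕ)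
    (hv : ∀ i ∈ v, i < D.rank) (m : ℕ) (hm : D.nroots / 2 ≤ m) (hm2 : m < D.nroots) (i : ℕ)
    (hi : i < D.rank) (ha : corK D F m i ≠ 0)
    (h0 : ∀ g ∈ S, ∀ (j : Fin D.rank) (s' : Fin D.nroots), s'.val = D.neg (wordApply D v m) →
      ((wordN hD v * g * (wordN hD v)⁻¹ : GL D.Idx F) : Matrix D.Idx D.Idx F)
        (Sum.inl j) (Sum.inr s') = 0) :
    Nat.card ↥(S ⊓ Uge D F m) ≤ Nat.card ↥(S ⊓ Uge D F (m + 1)) := by
  classical
  have h := ub_step hD S m hm hm2 i hi ha {0} (fun g hg _ => by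
    rw [Finset.mem_singleton]
    exact kap_conj_zero hD v hv m hm2 g _ (by group) (h0 g hg) i)
  rwa [Finset.card_singleton, one_mul] at h

theorem prod_pow_sum (q : ℕ) (e : ℕ → ℕ) (L : List ℕ) :
    (L.map (fun m => q ^ e m)).prod = q ^ (L.map e).sum := by
  induction L with
  | nil => simp
  | cons a L ih => rw [List.map_cons, List.prod_cons, ih, List.map_cons, List.sum_cons, pow_add]

end CGen

section CD4a
variable {K : Type*} [Field K]

theorem UwD4_conj_neg (hD : Seven chevD4) (n g : GL chevD4.Idx K) (hg : g ∈ UwD4 K n) :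
    n * g * n⁻¹ ∈ chevD4.negUnipotent K := by
  refine conj_closure_le _ _ n ?_ g hg
  rintro x ⟨r, t, hpos, hmap, hx⟩
  have hxr : x ∈ chevD4.rootSubgroup K r := by
    rw [eq_xG hD x r t hx]; exact xG_mem_rootSubgroup hD r t
  exact hmap ⟨x, hxr, rfl⟩

/-- The complement of `U_w⁻` in `U`. -/
abbrev UcD4 (hD : Seven chevD4) (n : GL chevD4.Idx K) : Subgroup (GL chevD4.Idx K) :=
  Subgroup.closure {g : GL chevD4.Idx K | ∃ (r : ℕ) (t : K), chevD4.IsPosRoot r ∧
    ¬ ((chevD4.rootSubgroup K r).map (MulAut.conj n).toMonoidHom ≤ chevD4.negUnipotent K) ∧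
    g = xG hD r t}

theorem UcD4_conj_pos (hD : Seven chevD4) (n : GL chevD4.Idx K)
    (hn : n ∈ chevD4.monomialSubgroup K) (g : GL chevD4.Idx K) (hg : g ∈ UcD4 hD n) :
    n * g * n⁻¹ ∈ chevD4.posUnipotent K := by
  obtain ⟨f, hf, -, -⟩ := N_conj_data hD n hn
  refine conj_closure_le _ _ n ?_ g hg
  rintro x ⟨r, t, hpos, hΨ, rfl⟩
  obtain ⟨h1, c', hc0, hconj⟩ := hf r hpos.1
  rw [hconj]
  refine xG_mem_posU hD _ (((pos_iff7 hD _ h1).1).mpr ?_) _
  by_contra hlt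
  apply hΨ
  rw [Subgroup.map_le_iff_le_comap]
  unfold ChevalleyDatum.rootSubgroup
  rw [Subgroup.closure_le]
  rintro y ⟨t', hy⟩
  rw [eq_xG hD y r t' hy]
  show n * xG hD r t' * n⁻¹ ∈ chevD4.negUnipotent K
  rw [hconj]
  exact xG_mem_negU hD _ (((pos_iff7 hD _ h1).2).mpr (by omega)) _

theorem UcD4_le_posU (hD : Seven chevD4) (n : GL chevD4.Idx K) :
    UcD4 hD n ≤ chevD4.posUnipotent K := by
  refine (Subgroup.closure_le _).mpr ?_
  rintro g ⟨r, t, hpos, _, rfl⟩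
  exact xG_mem_posU hD r hpos t

end CD4a

section CD4
variable {K : Type*} [Field K] [Fintype K] {q : ℕ}

theorem d4_chain (S : Subgroup (GL chevD4.Idx K)) (hSU : S ≤ chevD4.posUnipotent K) (e : ℕ → ℕ)
    (hstep : ∀ m, 12 ≤ m → m < 24 → Nat.card ↥(S ⊓ Uge chevD4 K m) ≤
      q ^ e m * Nat.card ↥(S ⊓ Uge chevD4 K (m + 1))) :
    Nat.card ↥S ≤ q ^ ((List.range' 12 12).map e).sum := by
  have hD : Seven chevD4 := by simp
  obtain ⟨-, -, -, -, -, -, -, hn⟩ := d4_conj_tab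
  have h := ub_chain (D := chevD4) S (fun m => q ^ e m)
    (fun m hm hm2 => hstep m (by omega) (by omega)) 12 12 (by omega) (by omega)
  rw [prod_pow_sum] at h
  have e12 : S ⊓ Uge chevD4 K 12 = S := by
    rw [inf_eq_left]
    have h2 := posU_eq_Uge (F := K) hD
    have e2 : chevD4.nroots / 2 = 12 := by omega
    rw [e2] at h2
    exact hSU.trans (le_of_eq h2)
  rw [e12] at h
  exact h

theorem d4_step (hq : IsPrimePow q) (hK : Fintype.card K = q ^ 3) (hfr : IsFrob K q)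
    (S : Subgroup (GL chevD4.Idx K))
    (hS : S ≤ fixSub (opMat chevD4 K gaBig_D4a) (frobHom hfr)) (m : ℕ) (hm : 12 ≤ m)
    (hm2 : m < 24) :
    Nat.card ↥(S ⊓ Uge chevD4 K m) ≤
      q ^ d4expo (twUb_D4.getD (m - 12) (1, 0, 0)).1 * Nat.card ↥(S ⊓ Uge chevD4 K (m + 1)) := by
  classical
  have hD : Seven chevD4 := by simp
  obtain ⟨-, -, -, -, -, -, -, hn⟩ := d4_conj_tab
  have hOK := (allN_spec _ _).mp twUbOK_D4 (m - 12)
    (by show m - 12 < chevD4.nroots / 2; omega)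
  have e : Nat.add (Nat.div chevD4.nroots 2) (m - 12) = m := by
    show chevD4.nroots / 2 + (m - 12) = m
    omega
  rw [e] at hOK
  have h := ub_root hD S gaBig_D4a twPerm_D4 twPinv_D4 twSgn_D4 twMono_D4 twInj_D4 (frobHom hfr)
    q hq.two_le (frobHom_apply hfr) hS m (by omega) (by omega) _ hOK
  have hw : ∀ k, wt (Fintype.card K) q k = q ^ d4expo k := by
    intro k
    unfold wt d4expo
    rw [hK]
    split_ifs <;> simp
  rw [hw] at h
  exact h

theorem d4_step0 (hD : Seven chevD4) (S : Subgroup (GL chevD4.Idx K)) (v : List ℕ)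
    (hv : ∀ i ∈ v, i < chevD4.rank) (m : ℕ) (hm : 12 ≤ m) (hm2 : m < 24)
    (h0 : ∀ g ∈ S, ∀ (j : Fin chevD4.rank) (s' : Fin chevD4.nroots),
      s'.val = chevD4.neg (wordApply chevD4 v m) →
      ((wordN hD v * g * (wordN hD v)⁻¹ : GL chevD4.Idx K) : Matrix chevD4.Idx chevD4.Idx K)
        (Sum.inl j) (Sum.inr s') = 0) :
    Nat.card ↥(S ⊓ Uge chevD4 K m) ≤ Nat.card ↥(S ⊓ Uge chevD4 K (m + 1)) := by
  obtain ⟨-, -, -, -, -, -, -, hn⟩ := d4_conj_tab
  have t := (allN_spec _ _).mp d4_cor_tab (m - 12) (by omega)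
  obtain ⟨i, hi, hc⟩ := (anyN_spec _ _).mp t
  have e : Nat.add 12 (m - 12) = m := by
    show 12 + (m - 12) = m
    omega
  rw [e] at hc
  exact ub_step_zero hD S v hv m (by omega) (by omega) i hi (pm1_ne_zero (K := K) _ hc) h0

theorem d4_cell_ub (hq : IsPrimePow q) (hK : Fintype.card K = q ^ 3) (hfr : IsFrob K q)
    (hD : Seven chevD4) (w : List ℕ) (hw : ∀ i ∈ w, i < chevD4.rank) :
    Nat.card ↥(fixSub (opMat chevD4 K gaBig_D4a) (frobHom hfr) ⊓ UwD4 K (wordN hD w)) ≤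
        q ^ ((List.range' 12 12).map (d4eN w)).sum ∧
    Nat.card ↥(fixSub (opMat chevD4 K gaBig_D4a) (frobHom hfr) ⊓ UcD4 hD (wordN hD w)) ≤
        q ^ ((List.range' 12 12).map (d4eP w)).sum := by
  obtain ⟨-, -, -, -, -, -, -, hn⟩ := d4_conj_tab
  have hwl : ∀ m, m < 24 → wordApply chevD4 w m < 24 := fun m hm => by
    have h := wordApply_lt hD w hw m (by omega)
    omega
  constructor
  · refine d4_chain _ (inf_le_right.trans (UwD4_le_posU _)) (d4eN w) (fun m hm hm2 => ?_)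
    have hr := hwl m hm2
    by_cases hlt : wordApply chevD4 w m < 12
    · have e : d4eN w m = d4expo (twUb_D4.getD (m - 12) (1, 0, 0)).1 := if_pos hlt
      rw [e]
      exact d4_step hq hK hfr _ inf_le_left m hm hm2
    · have e : d4eN w m = 0 := if_neg hlt
      rw [e, pow_zero, one_mul]
      refine d4_step0 hD _ w hw m hm hm2 (fun g hg j s' hs' => ?_)
      refine negU_entry_zero hD _ (UwD4_conj_neg hD _ g hg.2) j s' ?_
      rw [hs', neg_eq7 hD (wordApply chevD4 w m) (by omega)]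
      omega
  · refine d4_chain _ (inf_le_right.trans (UcD4_le_posU hD _)) (d4eP w) (fun m hm hm2 => ?_)
    have hr := hwl m hm2
    by_cases hlt : wordApply chevD4 w m < 12
    · have e : d4eP w m = 0 := if_pos hlt
      rw [e, pow_zero, one_mul]
      refine d4_step0 hD _ w hw m hm hm2 (fun g hg j s' hs' => ?_)
      refine posU_entry_zero hD _ (UcD4_conj_pos hD _ (wordN_mem hD w hw) g hg.2) j s' ?_
      rw [hs', neg_eq7 hD (wordApply chevD4 w m) (by omega)]
      omega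
    · have e : d4eP w m = d4expo (twUb_D4.getD (m - 12) (1, 0, 0)).1 := if_neg hlt
      rw [e]
      exact d4_step hq hK hfr _ inf_le_left m hm hm2

/-- `U¹` is the product of the fixed points of the complement of `U_w⁻` and those of `U_w⁻`. -/
theorem d4_split_card (hq : IsPrimePow q) (hK : Fintype.card K = q ^ 3) (hfr : IsFrob K q)
    (hD : Seven chevD4) (w : List ℕ) (hw : ∀ i ∈ w, i < chevD4.rank)
    (hwG : wordN (F := K) hD w ∈ twistedD4 K q) :
    q ^ 12 ≤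
      Nat.card ↥(fixSub (opMat chevD4 K gaBig_D4a) (frobHom hfr) ⊓ UcD4 hD (wordN hD w)) *
      Nat.card ↥(fixSub (opMat chevD4 K gaBig_D4a) (frobHom hfr) ⊓ UwD4 K (wordN hD w)) := by
  classical
  have hS := d4_le_fix hq hK hfr
  have hTn : d4Tw (frobHom hfr) (wordN hD w) (wordN hD w) := hS hwG
  have hnN : wordN (F := K) hD w ∈ chevD4.monomialSubgroup K := wordN_mem hD w hw
  have hφ3 : ∀ t : K, frobHom hfr (frobHom hfr (frobHom hfr t)) = t := fun t => by
    rw [frobHom_apply, frobHom_apply, frobHom_apply, ← pow_mul, ← pow_mul,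
      show q * (q * q) = q ^ 3 by ring, ← hK]
    exact FiniteField.pow_card t
  have key : ∀ u : ↥(chevD4.posUnipotent K ⊓ twistedD4 K q),
      ∃ p : ↥(fixSub (opMat chevD4 K gaBig_D4a) (frobHom hfr) ⊓ UcD4 hD (wordN hD w)) ×
          ↥(fixSub (opMat chevD4 K gaBig_D4a) (frobHom hfr) ⊓ UwD4 K (wordN hD w)),
        (p.1 : GL chevD4.Idx K) * (p.2 : GL chevD4.Idx K) = (u : GL chevD4.Idx K) := by
    rintro ⟨u, hu⟩
    have huU := hu.1
    have hTu : d4Tw (frobHom hfr) u u := hS hu.2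
    obtain ⟨a, ha, c, hc, eu⟩ := posU_split hD (fun r =>
      ¬ ((chevD4.rootSubgroup K r).map (MulAut.conj (wordN hD w)).toMonoidHom ≤
        chevD4.negUnipotent K)) u huU
    have hcW : c ∈ UwD4 K (wordN hD w) := by
      refine Subgroup.closure_mono ?_ hc
      rintro x ⟨r, t, hpos, hΨ, rfl⟩
      exact ⟨r, t, hpos, not_not.mp hΨ, xG_val hD r t⟩
    have haC : a ∈ UcD4 hD (wordN hD w) := ha
    have hb : wordN hD w * a * (wordN hD w)⁻¹ ∈ chevD4.borelSubgroup K :=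
      Subgroup.mem_sup_left (UcD4_conj_pos hD _ hnN a haC)
    obtain ⟨b', hb', hTb⟩ := d4Tw_B hD (frobHom hfr) _ hb
    obtain ⟨c', hc', hTc⟩ := d4Tw_Uw hD (frobHom hfr) hφ3 _ _ hTn c hcW
    have eg : wordN hD w * u = (wordN hD w * a * (wordN hD w)⁻¹) * wordN hD w * c := by
      rw [eu]; group
    have hTg : d4Tw (frobHom hfr) ((wordN hD w * a * (wordN hD w)⁻¹) * wordN hD w * c)
        ((wordN hD w * a * (wordN hD w)⁻¹) * wordN hD w * c) := by
      rw [← eg]; exact Tw.mul hTn hTu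
    have e5 : b' * wordN hD w * c' = (wordN hD w * a * (wordN hD w)⁻¹) * wordN hD w * c :=
      d4Tw_fun (frobHom hfr) (Tw.mul (Tw.mul hTb hTn) hTc) hTg
    obtain ⟨-, e7⟩ := (canon_unique hD b' (wordN hD w * a * (wordN hD w)⁻¹) (wordN hD w)
      (wordN hD w) c' c hb' hb hnN hnN hc' hcW e5).2 rfl
    rw [e7] at hTc
    have hFc : c ∈ fixSub (opMat chevD4 K gaBig_D4a) (frobHom hfr) := hTc
    have hFu : u ∈ fixSub (opMat chevD4 K gaBig_D4a) (frobHom hfr) := hTu
    have hFa : a ∈ fixSub (opMat chevD4 K gaBig_D4a) (frobHom hfr) := by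
      have ea : a = u * c⁻¹ := by rw [eu]; group
      rw [ea]
      exact mul_mem hFu (inv_mem hFc)
    exact ⟨(⟨a, Subgroup.mem_inf.mpr ⟨hFa, haC⟩⟩, ⟨c, Subgroup.mem_inf.mpr ⟨hFc, hcW⟩⟩), eu.symm⟩
  choose f hf using key
  have hinj : Function.Injective f := by
    intro u u' e
    apply Subtype.ext
    rw [← hf u, ← hf u', e]
  have h4 := Nat.card_le_card_of_injective f hinj
  rw [Nat.card_prod, d4_U_card hq hK] at h4
  exact h4

theorem d4w_mem (hq : IsPrimePow q) (hK : Fintype.card K = q ^ 3) (hD : Seven chevD4) (k : ℕ) :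
    wordN (F := K) hD (d4w k) ∈ twistedD4 K q := by
  obtain ⟨hA_G, hB_G, -, -⟩ := d4_gens hq hK hD
  unfold d4w
  split_ifs
  · rw [d4_pw_eq]; exact pow_mem (mul_mem hA_G hB_G) k
  · rw [d4_aw_eq]; exact mul_mem hA_G (pow_mem (mul_mem hA_G hB_G) _)

/-- The number of fixed points of `U_w⁻`. -/
theorem d4_cell_card (hq : IsPrimePow q) (hK : Fintype.card K = q ^ 3) (hfr : IsFrob K q)
    (hD : Seven chevD4) (k : ℕ) (hk : k < 12) :
    Nat.card ↥(fixSub (opMat chevD4 K gaBig_D4a) (frobHom hfr) ⊓ UwD4 K (wordN hD (d4w k))) =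
      q ^ d4len.getD k 0 := by
  have hq0 : 0 < q := hq.pos
  have hwG := d4w_mem hq hK hD k
  have ht : (Nat.beq (((List.range' 12 12).map (d4eN (d4w k))).sum) (d4len.getD k 0) &&
      Nat.beq (((List.range' 12 12).map (d4eP (d4w k))).sum) (Nat.sub 12 (d4len.getD k 0)) &&
      Nat.ble (d4len.getD k 0) 12) = true := (allN_spec _ _).mp d4_len_tab k hk
  rw [Bool.and_eq_true, Bool.and_eq_true] at ht
  obtain ⟨⟨h1, h2⟩, h3⟩ := ht
  have e1 := (beq_iff _ _).mp h1
  have e2 := (beq_iff _ _).mp h2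
  have e3 : d4len.getD k 0 ≤ 12 := Nat.le_of_ble_eq_true h3
  obtain ⟨hN, hP⟩ := d4_cell_ub hq hK hfr hD (d4w k) (d4w_lt k)
  rw [e1] at hN
  rw [e2] at hP
  have hsplit := d4_split_card hq hK hfr hD (d4w k) (d4w_lt k) hwG
  apply le_antisymm hN
  by_contra hlt
  rw [not_le] at hlt
  have h4 : Nat.card ↥(fixSub (opMat chevD4 K gaBig_D4a) (frobHom hfr) ⊓
        UcD4 hD (wordN hD (d4w k))) *
      Nat.card ↥(fixSub (opMat chevD4 K gaBig_D4a) (frobHom hfr) ⊓ UwD4 K (wordN hD (d4w k))) <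
      q ^ (Nat.sub 12 (d4len.getD k 0)) * q ^ d4len.getD k 0 :=
    lt_of_le_of_lt (Nat.mul_le_mul_right _ hP)
      ((Nat.mul_lt_mul_left (pow_pos hq0 _)).mpr hlt)
  rw [← pow_add, show Nat.sub 12 (d4len.getD k 0) + d4len.getD k 0 = 12 from
    Nat.sub_add_cancel e3] at h4
  exact absurd hsplit (not_le.mpr h4)

/-- The twisted Bruhat decomposition with the fixed points of `U_w⁻`. -/
theorem d4_fix_cell (hq : IsPrimePow q) (hK : Fintype.card K = q ^ 3) (hfr : IsFrob K q)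
    (hD : Seven chevD4) (g : GL chevD4.Idx K) (hg : g ∈ chevD4.group K)
    (hgF : d4Tw (frobHom hfr) g g) :
    ∃ k, k < 12 ∧ ∃ b ∈ chevD4.borelSubgroup K ⊓ twistedD4 K q,
      ∃ u ∈ fixSub (opMat chevD4 K gaBig_D4a) (frobHom hfr) ⊓ UwD4 K (wordN hD (d4w k)),
        g = b * wordN hD (d4w k) * u := by
  have hφ3 : ∀ t : K, frobHom hfr (frobHom hfr (frobHom hfr t)) = t := fun t => by
    rw [frobHom_apply, frobHom_apply, frobHom_apply, ← pow_mul, ← pow_mul,
      show q * (q * q) = q ^ 3 by ring, ← hK]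
    exact FiniteField.pow_card t
  have hS := d4_le_fix hq hK hfr
  obtain ⟨c1, c2, c3, c4, c5, c6, c7, c8⟩ := d4_conj_tab
  obtain ⟨b, hb, n, hn, u, hu, rfl⟩ := canon_exists hD g hg
  obtain ⟨h, hh, v, hv, rfl⟩ := N_word_form hD n hn
  obtain ⟨b', hb', hTb⟩ := d4Tw_B hD (frobHom hfr) b hb
  obtain ⟨h', hh', hTh⟩ := d4Tw_H hD (frobHom hfr) h hh
  have hTw := d4Tw_wordN hD (frobHom hfr) v hv
  have hv' : ∀ i ∈ v.map (fun i => d4pi.getD i 0), i < chevD4.rank := by
    intro i hi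
    obtain ⟨j, hj, rfl⟩ := List.mem_map.mp hi
    exact (d4_pi_tab j (hv j hj)).1
  have hTn : d4Tw (frobHom hfr) (h' * wordN hD (v.map (fun i => d4pi.getD i 0)))
      (h * wordN hD v) := Tw.mul hTh hTw
  obtain ⟨u', hu', hTu⟩ := d4Tw_Uw hD (frobHom hfr) hφ3 _ _ hTn u hu
  have e1 : b' * (h' * wordN hD (v.map (fun i => d4pi.getD i 0))) * u' =
      b * (h * wordN hD v) * u :=
    d4Tw_fun (frobHom hfr) (Tw.mul (Tw.mul hTb hTn) hTu) hgF
  have hnH := bruhat_coset_unique hD b b' (h * wordN hD v)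
    (h' * wordN hD (v.map (fun i => d4pi.getD i 0))) u u' hb hb' hn
    (mul_mem (Subgroup.mem_sup_left hh') (wordN_mem hD _ hv'))
    (Subgroup.mem_sup_left (UwD4_le_posU _ hu)) (Subgroup.mem_sup_left (UwD4_le_posU _ hu'))
    e1.symm
  have hWH : (wordN hD v)⁻¹ * wordN hD (v.map (fun i => d4pi.getD i 0)) ∈
      chevD4.diagonalSubgroup K := by
    have e2 : (wordN hD v)⁻¹ * wordN hD (v.map (fun i => d4pi.getD i 0)) =
        ((wordN hD v)⁻¹ * (h'⁻¹ * h) * ((wordN hD v)⁻¹)⁻¹) *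
          ((h * wordN hD v)⁻¹ * (h' * wordN hD (v.map (fun i => d4pi.getD i 0)))) := by group
    rw [e2]
    exact mul_mem (N_conj_H hD (inv_mem (wordN_mem hD v hv)) (mul_mem (inv_mem hh') hh)) hnH
  have hcomm := wordN_H_imp hD v (v.map (fun i => d4pi.getD i 0)) hv hv' hWH
  have hρ : ∀ s, s < chevD4.nroots → wordApply chevD4 v (d4rho.getD s 0) =
      d4rho.getD (wordApply chevD4 v s) 0 := by
    intro s hs
    rw [hcomm _ (d4_sg_tab s hs).2.2.2.1]
    exact d4_wordApply_rho hD v hv s hs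
  have e13 : wordApply chevD4 v 13 = d4rho.getD (wordApply chevD4 v 18) 0 := by
    have t := hρ 18 (by decide)
    rw [c6] at t
    exact t
  have e12 : wordApply chevD4 v 12 = d4rho.getD (wordApply chevD4 v 13) 0 := by
    have t := hρ 13 (by decide)
    rw [c7] at t
    exact t
  obtain ⟨j, hj, hjw⟩ := d4_word_class (K := K) hD v hv e13 e12
  obtain ⟨k, hk, hwH⟩ : ∃ k, k < 12 ∧
      (wordN (F := K) hD (d4w k))⁻¹ * wordN hD v ∈ chevD4.diagonalSubgroup K := by
    rcases hjw with hp | hp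
    · refine ⟨j, by omega, ?_⟩
      rw [d4w_lo j hj]; exact hp
    · refine ⟨6 + j, by omega, ?_⟩
      rw [d4w_hi j]; exact hp
  have hwG := d4w_mem hq hK hD k
  have hwN : wordN (F := K) hD (d4w k) ∈ chevD4.monomialSubgroup K :=
    wordN_mem hD _ (d4w_lt k)
  obtain ⟨h₄, hh₄, en⟩ : ∃ h₄ ∈ chevD4.diagonalSubgroup K,
      h * wordN hD v = h₄ * wordN hD (d4w k) := by
    refine ⟨h * (wordN hD (d4w k) * ((wordN hD (d4w k))⁻¹ * wordN hD v) *
      (wordN hD (d4w k))⁻¹), mul_mem hh (N_conj_H hD hwN hwH), ?_⟩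
    group
  have hu₂ : u ∈ UwD4 K (wordN hD (d4w k)) := by
    refine Subgroup.closure_mono ?_ hu
    rintro x ⟨r, t, hpos, hmap, hx⟩
    refine ⟨r, t, hpos, ?_, hx⟩
    rintro y ⟨z, hz, rfl⟩
    have h1 : h * wordN hD v * z * (h * wordN hD v)⁻¹ ∈ chevD4.negUnipotent K :=
      hmap ⟨z, hz, rfl⟩
    have h2 := ((Subgroup.mem_normalizer_iff.mp
      (H_le_normalizer_negU hD (inv_mem hh₄))) _).mp h1
    have e3 : wordN hD (d4w k) * z * (wordN hD (d4w k))⁻¹ =
        h₄⁻¹ * (h * wordN hD v * z * (h * wordN hD v)⁻¹) * h₄⁻¹⁻¹ := by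
      rw [en]; group
    show wordN hD (d4w k) * z * (wordN hD (d4w k))⁻¹ ∈ chevD4.negUnipotent K
    rw [e3]
    exact h2
  have hTw₁ : d4Tw (frobHom hfr) (wordN hD (d4w k)) (wordN hD (d4w k)) := hS hwG
  have eg : b * (h * wordN hD v) * u = (b * h₄) * wordN hD (d4w k) * u := by rw [en]; group
  have hb₀ : b * h₄ ∈ chevD4.borelSubgroup K := mul_mem hb (Subgroup.mem_sup_right hh₄)
  obtain ⟨b₀', hb₀', hTb₀⟩ := d4Tw_B hD (frobHom hfr) (b * h₄) hb₀
  obtain ⟨u₀', hu₀', hTu₀⟩ := d4Tw_Uw hD (frobHom hfr) hφ3 _ _ hTw₁ u hu₂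
  have hgF' : d4Tw (frobHom hfr) ((b * h₄) * wordN hD (d4w k) * u)
      ((b * h₄) * wordN hD (d4w k) * u) := by
    rw [← eg]; exact hgF
  have e5 : b₀' * wordN hD (d4w k) * u₀' = (b * h₄) * wordN hD (d4w k) * u :=
    d4Tw_fun (frobHom hfr) (Tw.mul (Tw.mul hTb₀ hTw₁) hTu₀) hgF'
  obtain ⟨e6, e7⟩ := (canon_unique hD b₀' (b * h₄) (wordN hD (d4w k)) (wordN hD (d4w k)) u₀' u
    hb₀' hb₀ hwN hwN hu₀' hu₂ e5).2 rfl
  rw [e6] at hTb₀
  rw [e7] at hTu₀
  exact ⟨k, hk, b * h₄, d4_fix_B hq hK hfr hD _ hb₀ hTb₀, u,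
    Subgroup.mem_inf.mpr ⟨hTu₀, hu₂⟩, eg⟩

/-- `|B¹| = |U¹| |H¹|`. -/
theorem d4_B_card (hq : IsPrimePow q) (hK : Fintype.card K = q ^ 3) :
    Nat.card ↥(chevD4.borelSubgroup K ⊓ twistedD4 K q) =
      q ^ 12 * ((q - 1) ^ 2 * (q ^ 2 + q + 1)) := by
  classical
  have hD : Seven chevD4 := by simp
  have hfr : IsFrob K q := isFrob_of_card hq hK
  have hS := d4_le_fix hq hK hfr
  let Φ : ↥(chevD4.posUnipotent K ⊓ twistedD4 K q) ×
      ↥(chevD4.diagonalSubgroup K ⊓ twistedD4 K q) →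
      ↥(chevD4.borelSubgroup K ⊓ twistedD4 K q) := fun p =>
    ⟨(p.1 : GL chevD4.Idx K) * (p.2 : GL chevD4.Idx K), Subgroup.mem_inf.mpr
      ⟨mul_mem (Subgroup.mem_sup_left p.1.2.1) (Subgroup.mem_sup_right p.2.2.1),
        mul_mem p.1.2.2 p.2.2.2⟩⟩
  have hinj : Function.Injective Φ := by
    rintro ⟨⟨u, hu⟩, ⟨h, hh⟩⟩ ⟨⟨u', hu'⟩, ⟨h', hh'⟩⟩ e
    have e' : u * h = u' * h' := congrArg Subtype.val e
    obtain ⟨e1, e2⟩ := UH_unique hD u u' h h' hu.1 hu'.1 hh.1 hh'.1 e'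
    subst e1
    subst e2
    rfl
  have hsurj : Function.Surjective Φ := by
    rintro ⟨g, hg⟩
    have hgB := hg.1
    have hgF : d4Tw (frobHom hfr) g g := hS hg.2
    obtain ⟨u, hu, h, hh, rfl⟩ := mem_sup_of_normalizes (chevD4.diagonalSubgroup K)
      (chevD4.posUnipotent K)
      (fun a ha n hn => ((Subgroup.mem_normalizer_iff.mp (H_le_normalizer_posU hD ha)) n).mp hn)
      g hgB
    obtain ⟨u', hu', hTu⟩ := d4Tw_U hD (frobHom hfr) u hu
    obtain ⟨h', hh', hTh⟩ := d4Tw_H hD (frobHom hfr) h hh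
    have e2 : u' * h' = u * h := d4Tw_fun (frobHom hfr) (Tw.mul hTu hTh) hgF
    obtain ⟨e3, e4⟩ := UH_unique hD u' u h' h hu' hu hh' hh e2
    rw [e3] at hTu
    rw [e4] at hTh
    exact ⟨(⟨u, Subgroup.mem_inf.mpr ⟨hu, d4_U_fix_mem hq hK hfr u hu hTu⟩⟩,
      ⟨h, Subgroup.mem_inf.mpr ⟨hh, d4_H_fix_mem hq hK hfr h hh hTh⟩⟩), rfl⟩
  rw [← Nat.card_congr (Equiv.ofBijective Φ ⟨hinj, hsurj⟩), Nat.card_prod, d4_U_card hq hK,
    d4_H_card hq hK]

end CD4

end Cfsg.Agent.Helper11
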