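import Cfsg.Agent.Helper11.ChevTwCD4

set_option autoImplicit false

/-!
The order of `³D₄(q)`: the sum over the twelve cells.
-/

namespace Cfsg.Agent.Helper11

open Cfsg.Lie

theorem d4_w_inj' (k k' : ℕ) (hk : k < 12) (hk' : k' < 12)
    (h : ∀ s < chevD4.nroots, wordApply chevD4 (d4w k) s = wordApply chevD4 (d4w k') s) :
    k = k' := by
  by_contra hne
  have t := (allN_spec _ _).mp ((allN_spec _ _).mp d4_w_inj k hk) k' hk'
  rw [beq_false_of_ne hne, cond_false] at t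
  obtain ⟨s, hs, h2⟩ := (anyN_spec _ _).mp t
  rw [(beq_iff _ _).mpr (h s hs), cond_true] at h2
  exact Bool.false_ne_true h2

theorem sq_sub_one_nat (q : ℕ) (hq : 1 ≤ q) : q ^ 2 - 1 = (q - 1) * (q + 1) := by
  obtain ⟨r, rfl⟩ : ∃ r, q = r + 1 := ⟨q - 1, by omega⟩
  have h : (r + 1) ^ 2 = r * (r + 1 + 1) + 1 := by ring
  rw [h, Nat.add_sub_cancel, Nat.add_sub_cancel]

theorem pow6_sub_one_nat (q : ℕ) (hq : 1 ≤ q) :
    q ^ 6 - 1 = (q - 1) * (q ^ 5 + q ^ 4 + q ^ 3 + q ^ 2 + q + 1) := by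
  obtain ⟨r, rfl⟩ : ∃ r, q = r + 1 := ⟨q - 1, by omega⟩
  have h : (r + 1) ^ 6 =
      r * ((r + 1) ^ 5 + (r + 1) ^ 4 + (r + 1) ^ 3 + (r + 1) ^ 2 + (r + 1) + 1) + 1 := by ring
  rw [h, Nat.add_sub_cancel, Nat.add_sub_cancel]

section CD4b
variable {K : Type*} [Field K] [Fintype K] {q : ℕ}

/-- `|³D₄(q)| = q¹² (q² - 1)(q⁶ - 1)(q⁸ + q⁴ + 1)`. -/
theorem d4_order (hq : IsPrimePow q) (hK : Fintype.card K = q ^ 3) :
    Nat.card ↥(twistedD4 K q) = q ^ 12 * (q ^ 2 - 1) * (q ^ 6 - 1) * (q ^ 8 + q ^ 4 + 1) := by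
  classical
  have hD : Seven chevD4 := by simp
  have hfr : IsFrob K q := isFrob_of_card hq hK
  have hS := d4_le_fix hq hK hfr
  have hGG : twistedD4 K q ≤ chevD4.group K := gen_le hD _ _ (fun w _ => wG_mem_group hD w)
  let Φ : (Σ k : Fin 12, ↥(chevD4.borelSubgroup K ⊓ twistedD4 K q) ×
      ↥(fixSub (opMat chevD4 K gaBig_D4a) (frobHom hfr) ⊓ UwD4 K (wordN hD (d4w k.val)))) →
      ↥(twistedD4 K q) := fun p =>
    ⟨(p.2.1 : GL chevD4.Idx K) * wordN hD (d4w p.1.val) * (p.2.2 : GL chevD4.Idx K),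
      mul_mem (mul_mem p.2.1.2.2 (d4w_mem hq hK hD _))
        (d4_U_fix_mem hq hK hfr _ (UwD4_le_posU _ p.2.2.2.2) p.2.2.2.1)⟩
  have hinj : Function.Injective Φ := by
    rintro ⟨k, b, c⟩ ⟨k', b', c'⟩ e
    have e' : (b : GL chevD4.Idx K) * wordN hD (d4w k.val) * (c : GL chevD4.Idx K) =
        (b' : GL chevD4.Idx K) * wordN hD (d4w k'.val) * (c' : GL chevD4.Idx K) :=
      congrArg Subtype.val e
    obtain ⟨hH, himp⟩ := canon_unique hD (b : GL chevD4.Idx K) (b' : GL chevD4.Idx K)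
      (wordN hD (d4w k.val)) (wordN hD (d4w k'.val)) (c : GL chevD4.Idx K)
      (c' : GL chevD4.Idx K) b.2.1 b'.2.1 (wordN_mem hD _ (d4w_lt _)) (wordN_mem hD _ (d4w_lt _))
      c.2.2 c'.2.2 e'
    have hkk : k = k' := Fin.ext (d4_w_inj' k.val k'.val k.isLt k'.isLt
      (wordN_H_imp hD _ _ (d4w_lt _) (d4w_lt _) hH))
    subst hkk
    obtain ⟨hb, hc⟩ := himp rfl
    have hb' : b = b' := Subtype.ext hb
    have hc' : c = c' := Subtype.ext hc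
    rw [hb', hc']
  have hsurj : Function.Surjective Φ := by
    rintro ⟨g, hg⟩
    obtain ⟨k, hk, b, hb, u, hu, e⟩ := d4_fix_cell hq hK hfr hD g (hGG hg) (hS hg)
    exact ⟨⟨⟨k, hk⟩, ⟨b, hb⟩, ⟨u, hu⟩⟩, Subtype.ext e.symm⟩
  rw [← Nat.card_congr (Equiv.ofBijective Φ ⟨hinj, hsurj⟩), Nat.card_sigma]
  have hterm : ∀ k : Fin 12, Nat.card (↥(chevD4.borelSubgroup K ⊓ twistedD4 K q) ×
      ↥(fixSub (opMat chevD4 K gaBig_D4a) (frobHom hfr) ⊓ UwD4 K (wordN hD (d4w k.val)))) =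
      q ^ 12 * ((q - 1) ^ 2 * (q ^ 2 + q + 1)) * q ^ d4len.getD k.val 0 := by
    intro k
    rw [Nat.card_prod, d4_B_card hq hK, d4_cell_card hq hK hfr hD k.val k.isLt]
  rw [Finset.sum_congr rfl (fun k _ => hterm k),
    Fin.sum_univ_eq_sum_range
      (fun k => q ^ 12 * ((q - 1) ^ 2 * (q ^ 2 + q + 1)) * q ^ d4len.getD k 0) 12]
  have g0 : d4len.getD 0 0 = 0 := rfl
  have g1 : d4len.getD 1 0 = 4 := rfl
  have g2 : d4len.getD 2 0 = 8 := rfl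
  have g3 : d4len.getD 3 0 = 12 := rfl
  have g4 : d4len.getD 4 0 = 8 := rfl
  have g5 : d4len.getD 5 0 = 4 := rfl
  have g6 : d4len.getD 6 0 = 1 := rfl
  have g7 : d4len.getD 7 0 = 3 := rfl
  have g8 : d4len.getD 8 0 = 7 := rfl
  have g9 : d4len.getD 9 0 = 11 := rfl
  have g10 : d4len.getD 10 0 = 9 := rfl
  have g11 : d4len.getD 11 0 = 5 := rfl
  simp only [Finset.sum_range_succ, Finset.sum_range_zero, zero_add, g0, g1, g2, g3, g4, g5, g6,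
    g7, g8, g9, g10, g11]
  rw [sq_sub_one_nat q hq.pos, pow6_sub_one_nat q hq.pos]
  ring

end CD4b

end Cfsg.Agent.Helper11
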