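import Cfsg.Agent.Helper11.ChevTwBD4

set_option autoImplicit false

/-!
Table facts for the order of `³D₄(q)`: the twelve words of the twisted Weyl group, the roots they
make negative and the weights of these roots.
-/

namespace Cfsg.Agent.Helper11

open Cfsg.Lie

/-- Exponent of the weight of a root of the given kind. -/
noncomputable def d4expo (k : ℕ) : ℕ := if k = 0 then 3 else if k = 3 then 1 else 0

/-- Exponent of the root `m` in the count of `U_w⁻`. -/
noncomputable def d4eN (w : List ℕ) (m : ℕ) : ℕ :=
  if wordApply chevD4 w m < 12 then d4expo (twUb_D4.getD (m - 12) (1, 0, 0)).1 else 0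

/-- Exponent of the root `m` in the count of the complement of `U_w⁻`. -/
noncomputable def d4eP (w : List ℕ) (m : ℕ) : ℕ :=
  if wordApply chevD4 w m < 12 then 0 else d4expo (twUb_D4.getD (m - 12) (1, 0, 0)).1

/-- The twelve words. -/
noncomputable def d4w (k : ℕ) : List ℕ := if k < 6 then d4pw k else d4aw (k - 6)

/-- Their lengths in the Weyl group of `D₄`. -/
def d4len : List ℕ := [0, 4, 8, 12, 8, 4, 1, 3, 7, 11, 9, 5]

set_option maxRecDepth 100000 in
set_option maxHeartbeats 0 in
theorem d4_len_tab : allN 12 (fun k =>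
    Nat.beq (((List.range' 12 12).map (d4eN (d4w k))).sum) (d4len.getD k 0) &&
    Nat.beq (((List.range' 12 12).map (d4eP (d4w k))).sum) (Nat.sub 12 (d4len.getD k 0)) &&
    Nat.ble (d4len.getD k 0) 12) = true := by decide +kernel

set_option maxRecDepth 100000 in
set_option maxHeartbeats 0 in
theorem d4_w_inj : allN 12 (fun k => allN 12 (fun k' => cond (Nat.beq k k') true
    (anyN chevD4.nroots (fun s =>
      cond (Nat.beq (wordApply chevD4 (d4w k) s) (wordApply chevD4 (d4w k') s)) false true)))) =
      true := by decide +kernel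

set_option maxRecDepth 100000 in
set_option maxHeartbeats 0 in
theorem d4_cor_tab : allN 12 (fun k =>
    anyN 4 (fun i => isPM1 (corZ chevD4 (Nat.add 12 k) i))) = true := by decide +kernel

theorem d4w_lo (j : ℕ) (hj : j < 6) : d4w j = d4pw j := if_pos hj

theorem d4w_hi (j : ℕ) : d4w (6 + j) = d4aw j := by
  unfold d4w
  rw [if_neg (by omega), Nat.add_sub_cancel_left]

theorem d4w_lt (k : ℕ) : ∀ i ∈ d4w k, i < chevD4.rank := by
  unfold d4w
  split_ifs
  · exact d4pw_lt k
  · exact d4aw_lt (k - 6)

end Cfsg.Agent.Helper11
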