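import Cfsg.Agent.Helper11.ChevTwF4W
import Cfsg.Agent.Helper11.ChevTwD4Wt
import Cfsg.Agent.Helper11.ChevTwistCoreED
import Mathlib.GroupTheory.Coxeter.Basic

set_option autoImplicit false

/-!
`N¹/H¹` is the Coxeter group of type `G₂` (dihedral of order `12`) for `³D₄(q)`.
-/

namespace Cfsg.Agent.Helper11

open Cfsg.Lie

/-- The map of a dihedral group given by an involution and a rotation. -/
def dihMapN {n : ℕ} {Q : Type*} [Mul Q] (s : Q) (z : ZMod n → Q) : DihedralGroup n → Q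
  | DihedralGroup.r i => z i
  | DihedralGroup.sr i => s * z i

theorem dihMapN_r {n : ℕ} {Q : Type*} [Mul Q] (s : Q) (z : ZMod n → Q) (i : ZMod n) :
    dihMapN s z (DihedralGroup.r i) = z i := rfl

theorem dihMapN_sr {n : ℕ} {Q : Type*} [Mul Q] (s : Q) (z : ZMod n → Q) (i : ZMod n) :
    dihMapN s z (DihedralGroup.sr i) = s * z i := rfl

theorem dih_hom_of {n : ℕ} [NeZero n] {Q : Type*} [Group Q] (s c : Q) (hss : s * s = 1)
    (hcn : c ^ n = 1) (hscsc : s * c * (s * c) = 1) :
    ∃ ψ : DihedralGroup n →* Q, (∀ i : ZMod n, ψ (DihedralGroup.r i) = c ^ i.val) ∧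
      ∀ i : ZMod n, ψ (DihedralGroup.sr i) = s * c ^ i.val := by
  have hsinv : s⁻¹ = s := inv_eq_of_mul_eq_one_left hss
  have hcs1 : c * s = s * c⁻¹ := by
    have e1 : c * s = s⁻¹ * (s * c * (s * c)) * c⁻¹ := by group
    rw [e1, hscsc, mul_one, hsinv]
  have hcs : ∀ k : ℕ, c ^ k * s = s * (c ^ k)⁻¹ := by
    intro k
    induction k with
    | zero => simp
    | succ k ih =>
      calc c ^ (k + 1) * s = c ^ k * (c * s) := by rw [pow_succ, mul_assoc]
        _ = c ^ k * s * c⁻¹ := by rw [hcs1, mul_assoc]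
        _ = s * (c ^ k)⁻¹ * c⁻¹ := by rw [ih]
        _ = s * (c ^ (k + 1))⁻¹ := by rw [pow_succ', mul_inv_rev, mul_assoc]
  obtain ⟨z, hz⟩ : ∃ z : ZMod n → Q, ∀ i, z i = c ^ i.val := ⟨fun i => c ^ i.val, fun _ => rfl⟩
  have hzadd : ∀ i j, z (i + j) = z i * z j := by
    intro i j
    rw [hz, hz, hz, ZMod.val_add, ← pow_add]
    exact (pow_eq_pow_mod _ hcn).symm
  have hzsub : ∀ i j, z (j - i) = (z i)⁻¹ * z j := by
    intro i j
    rw [eq_inv_mul_iff_mul_eq, ← hzadd, add_sub_cancel]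
  have hzs : ∀ i, z i * s = s * (z i)⁻¹ := fun i => by rw [hz]; exact hcs _
  have hf : ∀ x y : DihedralGroup n, dihMapN s z (x * y) = dihMapN s z x * dihMapN s z y := by
    rintro (i | i) (j | j)
    · rw [DihedralGroup.r_mul_r, dihMapN_r, dihMapN_r, dihMapN_r]
      exact hzadd i j
    · rw [DihedralGroup.r_mul_sr, dihMapN_r, dihMapN_sr, dihMapN_sr, hzsub, ← mul_assoc (z i),
        hzs, mul_assoc]
    · rw [DihedralGroup.sr_mul_r, dihMapN_sr, dihMapN_sr, dihMapN_r, hzadd, mul_assoc]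
    · rw [DihedralGroup.sr_mul_sr, dihMapN_r, dihMapN_sr, dihMapN_sr, hzsub]
      have e1 : s * z i * (s * z j) = s * (z i * s) * z j := by group
      have e2 : s * (s * (z i)⁻¹) * z j = s * s * ((z i)⁻¹ * z j) := by group
      rw [e1, hzs, e2, hss, one_mul]
  refine ⟨MonoidHom.mk' (dihMapN s z) hf, fun i => ?_, fun i => ?_⟩
  · show z i = _
    exact hz i
  · show s * z i = _
    rw [hz]

theorem dihedral_hom_n {n : ℕ} [NeZero n] {G : Type*} [Group G] (H : Subgroup G) [H.Normal]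
    (a b : G)
    (h1 : a * a ∈ H) (h2 : (a * b) ^ n ∈ H) (h3 : a * (a * b) * (a * (a * b)) ∈ H)
    (hd1 : ∀ j : ℕ, 0 < j → j < n → (a * b) ^ j ∉ H)
    (hd2 : ∀ j : ℕ, j < n → a * (a * b) ^ j ∉ H)
    (hcov : ∀ g : G, ∃ j : ℕ, j < n ∧
      (((a * b) ^ j)⁻¹ * g ∈ H ∨ (a * (a * b) ^ j)⁻¹ * g ∈ H)) :
    ∃ φ : G →* DihedralGroup n, Function.Surjective φ ∧ φ.ker = H := by
  obtain ⟨s, hs_def⟩ : ∃ s : G ⧸ H, s = QuotientGroup.mk a := ⟨_, rfl⟩
  obtain ⟨c, hc_def⟩ : ∃ c : G ⧸ H, c = QuotientGroup.mk (a * b) := ⟨_, rfl⟩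
  have hss : s * s = 1 := by
    rw [hs_def, ← QuotientGroup.mk_mul]
    exact (QuotientGroup.eq_one_iff (a * a)).mpr h1
  have hcn : c ^ n = 1 := by
    rw [hc_def, ← QuotientGroup.mk_pow]
    exact (QuotientGroup.eq_one_iff ((a * b) ^ n)).mpr h2
  have hscsc : s * c * (s * c) = 1 := by
    have e1 : (QuotientGroup.mk (a * (a * b) * (a * (a * b))) : G ⧸ H) =
        QuotientGroup.mk a * QuotientGroup.mk (a * b) *
          (QuotientGroup.mk a * QuotientGroup.mk (a * b)) := rfl
    rw [hs_def, hc_def, ← e1]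
    exact (QuotientGroup.eq_one_iff _).mpr h3
  obtain ⟨ψ, hψr, hψs⟩ := dih_hom_of (n := n) s c hss hcn hscsc
  have hinj : Function.Injective ψ := by
    rw [injective_iff_map_eq_one]
    rintro (i | i) hx
    · rw [hψr] at hx
      have hi0 : i.val = 0 := by
        by_contra hne
        refine hd1 i.val (Nat.pos_of_ne_zero hne) (ZMod.val_lt i)
          ((QuotientGroup.eq_one_iff _).mp ?_)
        rw [QuotientGroup.mk_pow, ← hc_def]
        exact hx
      exact (congrArg DihedralGroup.r ((ZMod.val_eq_zero i).mp hi0)).trans DihedralGroup.r_zero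
    · exfalso
      rw [hψs] at hx
      refine hd2 i.val (ZMod.val_lt i) ((QuotientGroup.eq_one_iff _).mp ?_)
      rw [QuotientGroup.mk_mul, QuotientGroup.mk_pow, ← hc_def, ← hs_def]
      exact hx
  have hsurj : Function.Surjective ψ := by
    intro q
    obtain ⟨g, rfl⟩ := QuotientGroup.mk_surjective q
    obtain ⟨j, hj, h | h⟩ := hcov g
    · refine ⟨DihedralGroup.r (j : ZMod n), ?_⟩
      rw [hψr, ZMod.val_cast_of_lt hj, hc_def, ← QuotientGroup.mk_pow]
      exact QuotientGroup.eq.mpr h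
    · refine ⟨DihedralGroup.sr (j : ZMod n), ?_⟩
      rw [hψs, ZMod.val_cast_of_lt hj, hc_def, hs_def, ← QuotientGroup.mk_pow,
        ← QuotientGroup.mk_mul]
      exact QuotientGroup.eq.mpr h
  obtain ⟨e, he⟩ : ∃ e : DihedralGroup n ≃* G ⧸ H, ∀ x, e x = ψ x :=
    ⟨MulEquiv.ofBijective ψ ⟨hinj, hsurj⟩, fun _ => rfl⟩
  refine ⟨e.symm.toMonoidHom.comp (QuotientGroup.mk' H), ?_, ?_⟩
  · intro d
    obtain ⟨g, hg⟩ := QuotientGroup.mk_surjective (e d)
    refine ⟨g, ?_⟩
    show e.symm (QuotientGroup.mk g) = d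
    rw [hg, MulEquiv.symm_apply_apply]
  · ext x
    rw [MonoidHom.mem_ker]
    show e.symm (QuotientGroup.mk x) = 1 ↔ x ∈ H
    rw [MulEquiv.map_eq_one_iff]
    exact QuotientGroup.eq_one_iff x

/-- The Coxeter group of type `G₂` is the dihedral group of order `12`. -/
theorem coxG2_dih : ∃ π : DihedralGroup 6 →* CoxeterMatrix.G₂.Group, Function.Bijective π := by
  obtain ⟨cs⟩ : Nonempty (CoxeterSystem CoxeterMatrix.G₂ CoxeterMatrix.G₂.Group) :=
    ⟨CoxeterMatrix.G₂.toCoxeterSystem⟩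
  have h6 : CoxeterMatrix.G₂ 0 1 = 6 := rfl
  have hs0 : cs.simple 0 * cs.simple 0 = 1 := cs.simple_mul_simple_self 0
  have hs1 : cs.simple 1 * cs.simple 1 = 1 := cs.simple_mul_simple_self 1
  have hc6 : (cs.simple 0 * cs.simple 1) ^ 6 = 1 := by
    have h := cs.simple_mul_simple_pow 0 1
    rw [h6] at h
    exact h
  have e01 : cs.simple 0 * (cs.simple 0 * cs.simple 1) = cs.simple 1 := by
    rw [← mul_assoc, hs0, one_mul]
  have hscsc : cs.simple 0 * (cs.simple 0 * cs.simple 1) *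
      (cs.simple 0 * (cs.simple 0 * cs.simple 1)) = 1 := by
    rw [e01, hs1]
  obtain ⟨π, hπr, hπs⟩ := dih_hom_of (n := 6) (cs.simple 0) (cs.simple 0 * cs.simple 1) hs0 hc6
    hscsc
  have hlift : CoxeterMatrix.IsLiftable CoxeterMatrix.G₂
      (![DihedralGroup.sr 0, DihedralGroup.sr 1] : Fin 2 → DihedralGroup 6) := by
    intro i i'
    fin_cases i <;> fin_cases i' <;> decide
  obtain ⟨lam, hlam0, hlam1⟩ : ∃ lam : CoxeterMatrix.G₂.Group →* DihedralGroup 6,
      lam (cs.simple 0) = DihedralGroup.sr 0 ∧ lam (cs.simple 1) = DihedralGroup.sr 1 :=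
    ⟨cs.lift ⟨_, hlift⟩, cs.lift_apply_simple hlift 0, cs.lift_apply_simple hlift 1⟩
  have hc1 : lam (cs.simple 0 * cs.simple 1) = DihedralGroup.r 1 := by
    rw [map_mul, hlam0, hlam1, DihedralGroup.sr_mul_sr, sub_zero]
  have hli : ∀ x : DihedralGroup 6, lam (π x) = x := by
    rintro (i | i)
    · rw [hπr, map_pow, hc1, DihedralGroup.r_one_pow, ZMod.natCast_zmod_val]
    · rw [hπs, map_mul, map_pow, hc1, hlam0, DihedralGroup.r_one_pow, ZMod.natCast_zmod_val,
        DihedralGroup.sr_mul_r, zero_add]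
  have hri : π.comp lam = MonoidHom.id _ := by
    refine cs.ext_simple (Fin.forall_fin_two.mpr ⟨?_, ?_⟩)
    · show π (lam (cs.simple 0)) = cs.simple 0
      rw [hlam0, hπs, ZMod.val_zero, pow_zero, mul_one]
    · show π (lam (cs.simple 1)) = cs.simple 1
      have hv : (1 : ZMod 6).val = 1 := rfl
      rw [hlam1, hπs, hv, pow_one]
      exact e01
  exact ⟨π, Function.LeftInverse.injective hli, fun y => ⟨lam y, DFunLike.congr_fun hri y⟩⟩

section Gen2
variable {K : Type*} [Field K] {D : ChevalleyDatum}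

/-- An element of `N` fixed by a monomial twisting operator permutes the roots compatibly with
the permutation of the operator. -/
theorem N_rho_gen (big : ℕ) (perm : List ℕ) (sgn : List ℤ)
    (hmono : monoOK D big perm sgn = true) (φ : K →+* K) (n : GL D.Idx K)
    (hfix : n ∈ fixSub (opMat D K big) φ) (f : ℕ → ℕ)
    (hcol : ∀ s (hs : s < D.nroots), ∃ c : K, c ≠ 0 ∧ ∀ a : D.Idx,
      (n : Matrix D.Idx D.Idx K) a (Sum.inr ⟨s, hs⟩) =
        if code D a = D.rank + f s then c else 0)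
    (hf : ∀ s, s < D.nroots → f s < D.nroots)
    (r r' : ℕ) (hr : r < D.nroots) (hr' : r' < D.nroots)
    (e : perm.getD (D.rank + r) 0 = D.rank + r')
    (hsg : isPM1 (sgn.getD (D.rank + r) 0) = true) :
    D.rank + f r' = perm.getD (D.rank + f r) 0 := by
  have hQ := mono_sound (D := D) (K := K) big perm sgn hmono
  obtain ⟨c, hc, hn⟩ := hcol r hr
  obtain ⟨c', hc', hn'⟩ := hcol r' hr'
  have hfr := hf r hr
  have hfr' := hf r' hr'
  have cr : ∀ (s : ℕ) (hs : s < D.nroots),
      code D (Sum.inr ⟨s, hs⟩ : D.Idx) = D.rank + s := fun _ _ => rfl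
  have q1 : ∀ x : D.Idx, opMat D K big x (Sum.inr ⟨r, hr⟩) =
      if code D x = D.rank + r' then ((sgn.getD (D.rank + r) 0 : ℤ) : K)
      else 0 := by
    intro x
    rw [hQ, cr, e]
  have q2 : ∀ x : D.Idx, opMat D K big (Sum.inr ⟨f r', hfr'⟩) x =
      if D.rank + f r' = perm.getD (code D x) 0 then
        ((sgn.getD (code D x) 0 : ℤ) : K) else 0 := by
    intro x
    rw [hQ, cr]
  have eL : ((n : Matrix D.Idx D.Idx K) * opMat D K big)
      (Sum.inr ⟨f r', hfr'⟩) (Sum.inr ⟨r, hr⟩) =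
      c' * ((sgn.getD (D.rank + r) 0 : ℤ) : K) := by
    rw [Matrix.mul_apply, Finset.sum_eq_single (Sum.inr ⟨r', hr'⟩)]
    · rw [hn', cr, if_pos (rfl : D.rank + f r' = D.rank + f r'), q1, cr,
        if_pos (rfl : D.rank + r' = D.rank + r')]
    · intro x _ hx
      have hx' : ¬ (code D x = D.rank + r') :=
        fun ex => hx (code_inj D x (Sum.inr ⟨r', hr'⟩) ex)
      rw [q1, if_neg hx', mul_zero]
    · intro h'
      exact absurd (Finset.mem_univ _) h'
  have eR : (opMat D K big * (n : Matrix D.Idx D.Idx K).map φ)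
      (Sum.inr ⟨f r', hfr'⟩) (Sum.inr ⟨r, hr⟩) =
      (if D.rank + f r' = perm.getD (D.rank + f r) 0 then
        ((sgn.getD (D.rank + f r) 0 : ℤ) : K) else 0) * φ c := by
    rw [Matrix.mul_apply, Finset.sum_eq_single (Sum.inr ⟨f r, hfr⟩)]
    · rw [q2, cr, Matrix.map_apply, hn, cr,
        if_pos (rfl : D.rank + f r = D.rank + f r)]
    · intro x _ hx
      have hx' : ¬ (code D x = D.rank + f r) :=
        fun ex => hx (code_inj D x (Sum.inr ⟨f r, hfr⟩) ex)
      rw [Matrix.map_apply, hn, if_neg hx', map_zero, mul_zero]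
    · intro h'
      exact absurd (Finset.mem_univ _) h'
  have h1 := congrFun (congrFun ((mem_fixSub _ _ _).mp hfix) (Sum.inr ⟨f r', hfr'⟩))
    (Sum.inr ⟨r, hr⟩)
  rw [eL, eR] at h1
  have hne : c' * ((sgn.getD (D.rank + r) 0 : ℤ) : K) ≠ 0 :=
    mul_ne_zero hc' (pm1_ne_zero _ hsg)
  by_cases hcond : D.rank + f r' = perm.getD (D.rank + f r) 0
  · exact hcond
  · rw [if_neg hcond, zero_mul] at h1
    exact absurd h1 hne

theorem word_pair_gen (hD : Seven D)
    (hinv : allN D.rank (fun i => allN D.nroots (fun r => allN D.nroots (fun s =>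
      decide (D.pairing (wAt D i r) (wAt D i s) = D.pairing r s)))) = true)
    (v : List ℕ) (hv : ∀ i ∈ v, i < D.rank) :
    ∀ r s, r < D.nroots → s < D.nroots →
      D.pairing (wordApply D v r) (wordApply D v s) = D.pairing r s := by
  induction v with
  | nil => intro r s _ _; rfl
  | cons i rest ih =>
    intro r s hr hs
    have hi := hv i List.mem_cons_self
    have hrest : ∀ j ∈ rest, j < D.rank := fun j hj => hv j (List.mem_cons_of_mem _ hj)
    have h1 := of_decide_eq_true ((allN_spec _ _).mp ((allN_spec _ _).mp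
      ((allN_spec _ _).mp hinv i hi) _ (wordApply_lt hD rest hrest r hr)) _
      (wordApply_lt hD rest hrest s hs))
    rw [wordApply_cons, wordApply_cons, h1]
    exact ih hrest r s hr hs

/-- A word is determined by its action on the fundamental roots. -/
theorem word_det_gen (hD : Seven D)
    (hinv : allN D.rank (fun i => allN D.nroots (fun r => allN D.nroots (fun s =>
      decide (D.pairing (wAt D i r) (wAt D i s) = D.pairing r s)))) = true)
    (hdet : allN D.nroots (fun r => allN D.nroots (fun s =>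
      cond (Nat.beq r s) true
        (anyN D.rank (fun i =>
          cond (decide (D.pairing (D.simple i) r = D.pairing (D.simple i) s))
            false true)))) = true)
    (v w : List ℕ) (hv : ∀ i ∈ v, i < D.rank)
    (hw : ∀ i ∈ w, i < D.rank)
    (h : ∀ i, i < D.rank →
      wordApply D w (D.simple i) = wordApply D v (D.simple i)) :
    ∀ s, s < D.nroots → wordApply D w s = wordApply D v s := by
  intro s hs
  have hvr : ∀ i ∈ v.reverse, i < D.rank := fun i hi => hv i (List.mem_reverse.mp hi)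
  have hws := wordApply_lt hD w hw s hs
  have hu := wordApply_lt hD v.reverse hvr _ hws
  have key : wordApply D v.reverse (wordApply D w s) = s := by
    by_contra hne
    have t := (allN_spec _ _).mp ((allN_spec _ _).mp hdet _ hu) s hs
    rw [beq_false_of_ne hne, cond_false] at t
    obtain ⟨i, hi, h2⟩ := (anyN_spec _ _).mp t
    have hp := simple_lt7 hD i hi
    have h3 : D.pairing (D.simple i)
        (wordApply D v.reverse (wordApply D w s)) =
        D.pairing (D.simple i) s := by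
      rw [← word_pair_gen hD hinv v hv _ _ hp hu, wordApply_reverse hD v hv _ hws, ← h i hi,
        word_pair_gen hD hinv w hw _ _ hp hs]
    simp [h3] at h2
  have e := congrArg (wordApply D v) key
  rw [wordApply_reverse hD v hv _ hws] at e
  exact e

end Gen2

theorem d4_word_T (hD : Seven chevD4) (v : List ℕ) (hv : ∀ i ∈ v, i < chevD4.rank) :
    ∀ r s, r < chevD4.nroots → s < chevD4.nroots → d4Tb r s = true →
      d4Tb (wordApply chevD4 v r) (wordApply chevD4 v s) = true := by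
  induction v with
  | nil => intro r s _ _ h; exact h
  | cons i rest ih =>
    intro r s hr hs h
    have hi := hv i List.mem_cons_self
    have hrest : ∀ j ∈ rest, j < chevD4.rank := fun j hj => hv j (List.mem_cons_of_mem _ hj)
    have h0 := ih hrest r s hr hs h
    have h1 := (allN_spec _ _).mp ((allN_spec _ _).mp
      ((allN_spec _ _).mp d4_T_inv i hi) _ (wordApply_lt hD rest hrest r hr)) _
      (wordApply_lt hD rest hrest s hs)
    rw [h0, cond_true] at h1
    rw [wordApply_cons, wordApply_cons]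
    exact h1

theorem d4pw_lt : ∀ j, ∀ i ∈ d4pw j, i < chevD4.rank := by
  intro j
  induction j with
  | zero => intro i hi; exact absurd hi List.not_mem_nil
  | succ j ih =>
    intro i hi
    rw [d4pw_succ] at hi
    rcases List.mem_append.mp hi with h | h
    · unfold d4AB at h
      simp only [List.mem_cons, List.mem_nil_iff, or_false] at h
      rcases h with rfl | rfl | rfl | rfl <;> decide
    · exact ih i h

theorem d4aw_lt : ∀ j, ∀ i ∈ d4aw j, i < chevD4.rank := by
  intro j i hi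
  unfold d4aw at hi
  rcases List.mem_append.mp hi with h | h
  · simp only [List.mem_cons, List.mem_nil_iff, or_false] at h
    subst h
    decide
  · exact d4pw_lt j i h

/-- `N¹ = N ∩ ³D₄`. -/
abbrev D4N1 (K : Type*) [Field K] (q : ℕ) : Subgroup (GL chevD4.Idx K) :=
  chevD4.monomialSubgroup K ⊓ twistedD4 K q

/-- `H¹ = H ∩ ³D₄` as a subgroup of `N¹`. -/
abbrev D4H1 (K : Type*) [Field K] (q : ℕ) : Subgroup ↥(D4N1 K q) :=
  (chevD4.diagonalSubgroup K ⊓ twistedD4 K q).subgroupOf (D4N1 K q)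

theorem d4_weyl {K : Type*} [Field K] [Fintype K] {q : ℕ} (hq : IsPrimePow q)
    (hK : Fintype.card K = q ^ 3) :
    ∃ φ : ↥(chevD4.monomialSubgroup K ⊓ twistedD4 K q) →* CoxeterMatrix.G₂.Group,
      Function.Surjective φ ∧
      φ.ker = (chevD4.diagonalSubgroup K ⊓ twistedD4 K q).subgroupOf
        (chevD4.monomialSubgroup K ⊓ twistedD4 K q) := by
  classical
  have hD : Seven chevD4 := by simp
  have hfr : IsFrob K q := isFrob_of_card hq hK
  have hfr2 : IsFrob K (q ^ 2) := by rw [sq]; exact hfr.mul hfr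
  have hS := d4_le_fix hq hK hfr
  obtain ⟨n18, n13, n12, n14, s0, s1, s2, s3, -, -, -, -, -⟩ := d4_facts
  obtain ⟨o1, o2, o3⟩ := d4_orth
  obtain ⟨a1, a2, a3, a4, a5, a6, a7, rk⟩ := d4_facts4
  have gen1 : ∀ t : K, t ^ q = t → ∀ r ∈ [d4p2, d4m2], xG hD r t ∈ twistedD4 K q := by
    intro t ht r hr
    rw [← wG_one]
    exact mem_gen hD _ _ (Or.inl ⟨t, ht, r, hr, rfl⟩)
  have gen2 : ∀ t : K, ∀ rs ∈ [(d4p1, d4p3, d4p4), (d4m1, d4m3, d4m4)],
      xG hD rs.1 t * (xG hD rs.2.1 (t ^ q) * xG hD rs.2.2 (t ^ (q ^ 2))) ∈ twistedD4 K q := by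
    intro t rs hrs
    rw [← wG_three]
    exact mem_gen hD _ _ (Or.inr ⟨t, rs, hrs, rfl⟩)
  have hP : ∀ t : K, t ^ q = t → (-t) ^ q = -t := fun t ht => by rw [hfr.neg, ht]
  have P1 : (1 : K) ^ q = 1 := one_pow q
  have Pm : (-(1 : K)⁻¹) ^ q = -(1 : K)⁻¹ := by rw [inv_one]; exact hP 1 P1
  have g14 : ∀ t : K, t ^ q = t → xG hD 14 t ∈ twistedD4 K q :=
    fun t ht => gen1 t ht d4p2 (by simp)
  have g9 : ∀ t : K, t ^ q = t → xG hD 9 t ∈ twistedD4 K q :=
    fun t ht => gen1 t ht d4m2 (by simp)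
  have hn2 : nG hD (chevD4.simple 1) (1 : K) ∈ twistedD4 K q := by
    rw [nG_eq, s1, n14]
    exact mul_mem (mul_mem (g14 1 P1) (g9 _ Pm)) (g14 1 P1)
  have hNS : nG hD 18 (1 : K) * (nG hD 13 1 * nG hD 12 1) ∈ twistedD4 K q :=
    tri_clsN_mem hD _ 18 13 12 q hfr hfr2 o1 o2 o3
      (fun t => gen2 t (d4p1, d4p3, d4p4) (by simp))
      (fun t => by rw [n18, n13, n12]; exact gen2 t (d4m1, d4m3, d4m4) (by simp))
  have eA : wordN (F := K) hD [1] = nG hD (chevD4.simple 1) 1 := by
    show nG hD (chevD4.simple 1) 1 * 1 = _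
    rw [mul_one]
  have eB : wordN (F := K) hD [0, 2, 3] = nG hD 18 1 * (nG hD 13 1 * nG hD 12 1) := by
    show nG hD (chevD4.simple 0) 1 * (nG hD (chevD4.simple 2) 1 *
        (nG hD (chevD4.simple 3) 1 * 1)) = _
    rw [s0, s2, s3, mul_one]
  have hA_G : wordN (F := K) hD [1] ∈ twistedD4 K q := by rw [eA]; exact hn2
  have hB_G : wordN (F := K) hD [0, 2, 3] ∈ twistedD4 K q := by rw [eB]; exact hNS
  have hwA : ∀ i ∈ ([1] : List ℕ), i < chevD4.rank := by
    intro i hi
    simp only [List.mem_cons, List.mem_nil_iff, or_false] at hi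
    subst hi
    decide
  have hwB : ∀ i ∈ ([0, 2, 3] : List ℕ), i < chevD4.rank := by
    intro i hi
    simp only [List.mem_cons, List.mem_nil_iff, or_false] at hi
    rcases hi with rfl | rfl | rfl <;> decide
  have hpw : ∀ j, wordN (F := K) hD (d4pw j) =
      (wordN hD [1] * wordN hD [0, 2, 3]) ^ j := by
    intro j
    induction j with
    | zero => exact (wordN_nil hD).trans (pow_zero _).symm
    | succ j ih =>
      rw [d4pw_succ, show d4AB = [1] ++ [0, 2, 3] from rfl, wordN_append, wordN_append, ih,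
        pow_succ']
  have haw : ∀ j, wordN (F := K) hD (d4aw j) =
      wordN hD [1] * (wordN hD [1] * wordN hD [0, 2, 3]) ^ j := by
    intro j
    rw [← hpw j]
    exact wordN_append hD [1] (d4pw j)
  haveI hnorm : (D4H1 K q).Normal := ⟨fun x hx g => by
    rw [Subgroup.mem_subgroupOf] at hx
    rw [Subgroup.mem_subgroupOf, Subgroup.coe_mul, Subgroup.coe_mul, Subgroup.coe_inv]
    exact Subgroup.mem_inf.mpr ⟨N_conj_H hD g.2.1 hx.1,
      mul_mem (mul_mem g.2.2 hx.2) (inv_mem g.2.2)⟩⟩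
  have memH : ∀ x : ↥(D4N1 K q),
      x ∈ D4H1 K q ↔ (x : GL chevD4.Idx K) ∈ chevD4.diagonalSubgroup K := by
    intro x
    rw [Subgroup.mem_subgroupOf]
    exact ⟨fun h => h.1, fun h => Subgroup.mem_inf.mpr ⟨h, x.2.2⟩⟩
  obtain ⟨a, ha⟩ : ∃ a : ↥(D4N1 K q), (a : GL chevD4.Idx K) = wordN hD [1] :=
    ⟨⟨wordN hD [1], Subgroup.mem_inf.mpr ⟨wordN_mem hD _ hwA, hA_G⟩⟩, rfl⟩
  obtain ⟨b, hb⟩ : ∃ b : ↥(D4N1 K q), (b : GL chevD4.Idx K) = wordN hD [0, 2, 3] :=
    ⟨⟨wordN hD [0, 2, 3], Subgroup.mem_inf.mpr ⟨wordN_mem hD _ hwB, hB_G⟩⟩, rfl⟩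
  have cpw : ∀ j, (((a * b) ^ j : ↥(D4N1 K q)) : GL chevD4.Idx K) =
      wordN hD (d4pw j) := by
    intro j
    rw [hpw, Subgroup.coe_pow, Subgroup.coe_mul, ha, hb]
  have caw : ∀ j, ((a * (a * b) ^ j : ↥(D4N1 K q)) : GL chevD4.Idx K) =
      wordN hD (d4aw j) := by
    intro j
    rw [haw, Subgroup.coe_mul, Subgroup.coe_pow, Subgroup.coe_mul, ha, hb]
  have h1 : a * a ∈ D4H1 K q := by
    rw [memH, Subgroup.coe_mul, ha, ← wordN_append]
    exact wordN_id_H hD _ (fun i hi => by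
        rcases List.mem_append.mp hi with h | h <;> exact hwA i h)
      (fun s hs => (beq_iff _ _).mp ((allN_spec _ _).mp d4_w_id1 s hs))
  have h2' : (a * b) ^ 6 ∈ D4H1 K q := by
    rw [memH, cpw]
    exact wordN_id_H hD _ (d4pw_lt 6)
      (fun s hs => (beq_iff _ _).mp ((allN_spec _ _).mp d4_w_id2 s hs))
  have h3 : a * (a * b) * (a * (a * b)) ∈ D4H1 K q := by
    have c1 : ((a * (a * b) : ↥(D4N1 K q)) : GL chevD4.Idx K) = wordN hD (d4aw 1) := by
      have h := caw 1
      rw [pow_one] at h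
      exact h
    rw [memH, Subgroup.coe_mul, c1, ← wordN_append]
    exact wordN_id_H hD _ (fun i hi => by
        rcases List.mem_append.mp hi with h | h <;> exact d4aw_lt 1 i h)
      (fun s hs => (beq_iff _ _).mp ((allN_spec _ _).mp d4_w_id3 s hs))
  have hd1 : ∀ j : ℕ, 0 < j → j < 6 → (a * b) ^ j ∉ D4H1 K q := by
    intro j hj0 hj6 hmem
    rw [memH, cpw] at hmem
    have hid := wordN_H_id hD (d4pw j) (d4pw_lt j) hmem
    have t := (allN_spec _ _).mp d4_w_ne1 j hj6
    rw [beq_false_of_ne hj0.ne', cond_false] at t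
    obtain ⟨s, hs, hne⟩ := (anyN_spec _ _).mp t
    rw [(beq_iff _ _).mpr (hid s hs), cond_true] at hne
    exact Bool.false_ne_true hne
  have hd2 : ∀ j : ℕ, j < 6 → a * (a * b) ^ j ∉ D4H1 K q := by
    intro j hj6 hmem
    rw [memH, caw] at hmem
    have hid := wordN_H_id hD (d4aw j) (d4aw_lt j) hmem
    obtain ⟨s, hs, hne⟩ := (anyN_spec _ _).mp ((allN_spec _ _).mp d4_w_ne2 j hj6)
    rw [(beq_iff _ _).mpr (hid s hs), cond_true] at hne
    exact Bool.false_ne_true hne
  have hcov : ∀ g : ↥(D4N1 K q), ∃ j : ℕ, j < 6 ∧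
      (((a * b) ^ j)⁻¹ * g ∈ D4H1 K q ∨ (a * (a * b) ^ j)⁻¹ * g ∈ D4H1 K q) := by
    intro g
    obtain ⟨h, hh, v, hv, e⟩ := N_word_form hD (g : GL chevD4.Idx K) g.2.1
    have hcol : ∀ s (hs : s < chevD4.nroots), ∃ c : K, c ≠ 0 ∧ ∀ x : chevD4.Idx,
        ((g : GL chevD4.Idx K) : Matrix chevD4.Idx chevD4.Idx K) x (Sum.inr ⟨s, hs⟩) =
          if code chevD4 x = chevD4.rank + wordApply chevD4 v s then c else 0 := by
      intro s hs
      rw [e]
      exact N_col hD h hh v hv s hs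
    have hlt : ∀ s, s < chevD4.nroots → wordApply chevD4 v s < chevD4.nroots :=
      fun s hs => wordApply_lt hD v hv s hs
    have hfix := hS g.2.2
    have e13 : wordApply chevD4 v 13 = d4rho.getD (wordApply chevD4 v 18) 0 := by
      have t := N_rho_gen gaBig_D4a twPerm_D4 twSgn_D4 twMono_D4 (frobHom hfr) _ hfix
        (wordApply chevD4 v) hcol hlt 18 13 (by decide) (by decide) a2 a5
      rw [d4_rho_tab _ (hlt 18 (by decide))] at t
      exact Nat.add_left_cancel t
    have e12 : wordApply chevD4 v 12 = d4rho.getD (wordApply chevD4 v 13) 0 := by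
      have t := N_rho_gen gaBig_D4a twPerm_D4 twSgn_D4 twMono_D4 (frobHom hfr) _ hfix
        (wordApply chevD4 v) hcol hlt 13 12 (by decide) (by decide) a3 a6
      rw [d4_rho_tab _ (hlt 13 (by decide))] at t
      exact Nat.add_left_cancel t
    have inv := word_pair_gen hD d4_pair_inv v hv
    have hF : ∀ i, i < chevD4.rank →
        d4img (wordApply chevD4 v 18) (wordApply chevD4 v 14) i =
          wordApply chevD4 v (chevD4.simple i) := by
      intro i hi
      have hi' : i < 4 := hi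
      interval_cases i
      · show wordApply chevD4 v 18 = wordApply chevD4 v (chevD4.simple 0)
        rw [s0]
      · show wordApply chevD4 v 14 = wordApply chevD4 v (chevD4.simple 1)
        rw [s1]
      · show d4rho.getD (wordApply chevD4 v 18) 0 = wordApply chevD4 v (chevD4.simple 2)
        rw [s2]; exact e13.symm
      · show d4rho.getD (d4rho.getD (wordApply chevD4 v 18) 0) 0 =
          wordApply chevD4 v (chevD4.simple 3)
        rw [s3, ← e13]; exact e12.symm
    have hT : d4Tb (wordApply chevD4 v 13) (wordApply chevD4 v 12) = true :=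
      d4_word_T hD v hv 13 12 (by decide) (by decide) d4_T_base
    have hcand : d4cand (wordApply chevD4 v 18) (wordApply chevD4 v 14) = true := by
      unfold d4cand
      refine Bool.and_eq_true_iff.mpr ⟨?_, ?_⟩
      · rw [hF 2 (by decide), hF 3 (by decide), s2, s3]
        exact hT
      · refine (allN_spec _ _).mpr (fun i hi => (allN_spec _ _).mpr (fun j hj =>
          decide_eq_true ?_))
        rw [hF i hi, hF j hj]
        exact inv _ _ (simple_lt7 hD i hi) (simple_lt7 hD j hj)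
    have t6 := (allN_spec _ _).mp ((allN_spec _ _).mp d4_class _ (hlt 18 (by decide))) _
      (hlt 14 (by decide))
    rw [hcand, cond_true] at t6
    obtain ⟨j, hj, hjw⟩ := (anyN_spec _ _).mp t6
    refine ⟨j, hj, ?_⟩
    simp only [Bool.or_eq_true] at hjw
    have conj : ∀ w : List ℕ, (∀ i ∈ w, i < chevD4.rank) →
        (∀ i, i < chevD4.rank → wordApply chevD4 w (chevD4.simple i) =
          d4img (wordApply chevD4 v 18) (wordApply chevD4 v 14) i) →
        (wordN (F := K) hD w)⁻¹ * (h * wordN hD v) ∈ chevD4.diagonalSubgroup K := by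
      intro w hw hw4
      have det := word_det_gen hD d4_pair_inv d4_pair_det v w hv hw
        (fun i hi => (hw4 i hi).trans (hF i hi))
      have hH := wordN_H_of (F := K) hD w v hw hv det
      have e1 : (wordN (F := K) hD w)⁻¹ * (h * wordN hD v) =
          ((wordN hD w)⁻¹ * h * ((wordN hD w)⁻¹)⁻¹) * ((wordN hD w)⁻¹ * wordN hD v) := by group
      rw [e1]
      exact mul_mem (N_conj_H hD (inv_mem (wordN_mem hD w hw)) hh) hH
    rcases hjw with hp | hp
    · left
      rw [memH, Subgroup.coe_mul, Subgroup.coe_inv, cpw, e]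
      exact conj _ (d4pw_lt j) (fun i hi => (beq_iff _ _).mp ((allN_spec _ _).mp hp i hi))
    · right
      rw [memH, Subgroup.coe_mul, Subgroup.coe_inv, caw, e]
      exact conj _ (d4aw_lt j) (fun i hi => (beq_iff _ _).mp ((allN_spec _ _).mp hp i hi))
  obtain ⟨φ, hφs, hφk⟩ := dihedral_hom_n (n := 6) (D4H1 K q) a b h1 h2' h3 hd1 hd2 hcov
  obtain ⟨π, hπ⟩ := coxG2_dih
  refine ⟨π.comp φ, hπ.2.comp hφs, ?_⟩
  refine Eq.trans ?_ hφk
  ext x
  rw [MonoidHom.mem_ker, MonoidHom.mem_ker]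
  show π (φ x) = 1 ↔ φ x = 1
  exact ⟨fun h => hπ.1 (h.trans (map_one π).symm), fun h => by rw [h, map_one]⟩

end Cfsg.Agent.Helper11
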