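import Cfsg.Agent.Helper11.ChevTwF4Q
import Cfsg.Agent.Helper11.ChevTwHG2

set_option autoImplicit false

/-!
The torus of `²F₄(q)`: `|H ∩ ²F₄(q)| = (q - 1)²`.  The elements of `H` fixed by the twisted operator
are determined by their entries at the two short fundamental roots, and all pairs of values are
attained by the products `T(a) · n T(b) n⁻¹`, `T(l) = h_{p₁}(l^θ) h_{p₄}(l)`.
-/

namespace Cfsg.Agent.Helper11

open Cfsg.Lie

/-- The twisted image of a root element. -/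
def f4R {K : Type*} [Field K] (φ : K →+* K) (s : ℕ) (c : K) : ℕ × K :=
  (f4rho.getD s 0, (φ c) ^ (f4lam.getD s 1))

theorem f4_inj_aux {K : Type*} [Field K] (θ : ℕ) (h2 : (2 : K) = 0)
    (hq : ∀ t : K, ((t ^ θ) ^ θ) ^ 2 = t) (a b a' b' : K) (ha : a ≠ 0) (hb : b ≠ 0)
    (ha' : a' ≠ 0) (hb' : b' ≠ 0)
    (e1 : a ^ 2 * ((b ^ θ) ^ 2)⁻¹ = a' ^ 2 * ((b' ^ θ) ^ 2)⁻¹)
    (e2 : a⁻¹ * b = a'⁻¹ * b') : a = a' ∧ b = b' := by
  have hbθ : b ^ θ ≠ 0 := pow_ne_zero _ hb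
  have hbθ' : b' ^ θ ≠ 0 := pow_ne_zero _ hb'
  have haθ : a ^ θ ≠ 0 := pow_ne_zero _ ha
  have haθ' : a' ^ θ ≠ 0 := pow_ne_zero _ ha'
  have hX : (b ^ θ) ^ 2 ≠ 0 := pow_ne_zero _ hbθ
  have hY : (b' ^ θ) ^ 2 ≠ 0 := pow_ne_zero _ hbθ'
  have f2 : b * a' = b' * a := by
    have l : b * a' = a⁻¹ * b * (a * a') := by
      have h : a⁻¹ * b * (a * a') = b * a' * (a⁻¹ * a) := by ring
      rw [h, inv_mul_cancel₀ ha, mul_one]
    have r : b' * a = a'⁻¹ * b' * (a * a') := by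
      have h : a'⁻¹ * b' * (a * a') = b' * a * (a'⁻¹ * a') := by ring
      rw [h, inv_mul_cancel₀ ha', mul_one]
    rw [l, r, e2]
  have f1 : (a * b' ^ θ) ^ 2 = (a' * b ^ θ) ^ 2 := by
    have l : (a * b' ^ θ) ^ 2 = a ^ 2 * ((b ^ θ) ^ 2)⁻¹ * ((b ^ θ) ^ 2 * (b' ^ θ) ^ 2) := by
      have h : a ^ 2 * ((b ^ θ) ^ 2)⁻¹ * ((b ^ θ) ^ 2 * (b' ^ θ) ^ 2) =
          a ^ 2 * (b' ^ θ) ^ 2 * (((b ^ θ) ^ 2)⁻¹ * (b ^ θ) ^ 2) := by ring
      rw [h, inv_mul_cancel₀ hX, mul_one, mul_pow]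
    have r : (a' * b ^ θ) ^ 2 = a' ^ 2 * ((b' ^ θ) ^ 2)⁻¹ * ((b ^ θ) ^ 2 * (b' ^ θ) ^ 2) := by
      have h : a' ^ 2 * ((b' ^ θ) ^ 2)⁻¹ * ((b ^ θ) ^ 2 * (b' ^ θ) ^ 2) =
          a' ^ 2 * (b ^ θ) ^ 2 * (((b' ^ θ) ^ 2)⁻¹ * (b' ^ θ) ^ 2) := by ring
      rw [h, inv_mul_cancel₀ hY, mul_one, mul_pow]
    rw [l, r, e1]
  have sq_inj : ∀ x y : K, x ^ 2 = y ^ 2 → x = y := by
    intro x y h
    have h' : (x - y) ^ 2 = 0 := by
      have e : (x - y) ^ 2 = x ^ 2 - y ^ 2 - 2 * (y * (x - y)) := by ring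
      rw [e, h, h2]; ring
    exact sub_eq_zero.mp ((pow_eq_zero_iff (by norm_num : (2 : ℕ) ≠ 0)).mp h')
  have f3 : a * b' ^ θ = a' * b ^ θ := sq_inj _ _ f1
  have f4 : b ^ θ * a' ^ θ = b' ^ θ * a ^ θ := by rw [← mul_pow, ← mul_pow, f2]
  have f5 : a * a' ^ θ = a' * a ^ θ := by
    have h : b ^ θ * (a * a' ^ θ) = b ^ θ * (a' * a ^ θ) := by
      linear_combination a * f4 + a ^ θ * f3
    exact mul_left_cancel₀ hbθ h
  have f6 : (a * a'⁻¹) ^ θ = a * a'⁻¹ := by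
    rw [mul_pow, inv_pow]
    have h : a ^ θ * (a' ^ θ)⁻¹ * (a' ^ θ * a') = a * a'⁻¹ * (a' ^ θ * a') := by
      have l : a ^ θ * (a' ^ θ)⁻¹ * (a' ^ θ * a') = a ^ θ * a' * ((a' ^ θ)⁻¹ * a' ^ θ) := by ring
      have r : a * a'⁻¹ * (a' ^ θ * a') = a * a' ^ θ * (a'⁻¹ * a') := by ring
      rw [l, r, inv_mul_cancel₀ haθ', inv_mul_cancel₀ ha', mul_one, mul_one]
      linear_combination -f5
    exact mul_right_cancel₀ (mul_ne_zero haθ' ha') h
  have f7 : (a * a'⁻¹) ^ 2 = a * a'⁻¹ := by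
    have h := hq (a * a'⁻¹)
    rw [f6, f6] at h
    exact h
  have hc : a * a'⁻¹ ≠ 0 := mul_ne_zero ha (inv_ne_zero ha')
  have f8 : a * a'⁻¹ = 1 := by
    have h : a * a'⁻¹ * (a * a'⁻¹) = a * a'⁻¹ * 1 := by rw [mul_one, ← sq]; exact f7
    exact mul_left_cancel₀ hc h
  have f9 : a = a' := by
    have h : a * a'⁻¹ * a' = 1 * a' := by rw [f8]
    rw [mul_assoc, inv_mul_cancel₀ ha', mul_one, one_mul] at h
    exact h
  refine ⟨f9, ?_⟩
  rw [← f9] at f2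
  exact mul_right_cancel₀ ha f2

section F4H
variable {K : Type*} [Field K]

theorem f4R_spec (hD : Seven chevF4) (h2z : ((2 : ℤ) : K) = 0) (φ : K →+* K) (s : ℕ) (c : K)
    (hs : s < chevF4.nroots) :
    opMat chevF4 K f4Qbig * (chevF4.x K s c).map φ =
      chevF4.x K (f4R φ s c).1 (f4R φ s c).2 * opMat chevF4 K f4Qbig := by
  have hT := tabOK_seven chevF4 hD
  have h := permP_sound (F := K) hT 2 h2z f4Qbig s _ _ ((allN_spec _ _).mp f4QOK s hs) (φ c)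
  rw [x_map_hom, h]
  have e : evalPoly (φ c) (0 : K) [(1, f4lam.getD s 1, 0)] = (φ c) ^ (f4lam.getD s 1) := by
    simp [evalPoly, evalMono]
  rw [e]
  rfl

theorem f4_fix_P (hD : Seven chevF4) (θ : ℕ) (h2z : ((2 : ℤ) : K) = 0) (hθ : IsFrob K θ)
    (hq : ∀ t : K, ((t ^ θ) ^ θ) ^ 2 = t) (r r' : ℕ) (hr : r < chevF4.nroots)
    (hr' : r' < chevF4.nroots) (e1 : f4rho.getD r 0 = r') (e2 : f4rho.getD r' 0 = r)
    (l1 : f4lam.getD r 1 = 2) (l2 : f4lam.getD r' 1 = 1)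
    (hc : ∀ x y : K, Commute (xG hD r x) (xG hD r' y)) (u : K) :
    xG hD r (u ^ θ) * xG hD r' u ∈ fixSub (opMat chevF4 K f4Qbig) (frobHom hθ) := by
  rw [← wG_two]
  apply tw_fix hD _ _ (f4R (frobHom hθ)) (fun s c hs => f4R_spec hD h2z _ s c hs)
  · intro p hp
    simp only [List.mem_cons, List.mem_nil_iff, or_false] at hp
    rcases hp with rfl | rfl
    · exact hr
    · exact hr'
  · rw [List.map_cons, List.map_cons, List.map_nil]
    dsimp only [f4R]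
    rw [e1, e2, l1, l2]
    simp only [frobHom_apply]
    rw [hq, pow_one, wG_two, wG_two]
    exact ((hc _ _).eq).symm

theorem f4_fix_S (hD : Seven chevF4) (θ : ℕ) (h2z : ((2 : ℤ) : K) = 0) (hθ : IsFrob K θ)
    (hq : ∀ t : K, ((t ^ θ) ^ θ) ^ 2 = t) (t : K) :
    wG hD [(27, t ^ θ), (25, t), (28, t ^ θ * t)] ∈
      fixSub (opMat chevF4 K f4Qbig) (frobHom hθ) ∧
    wG hD [(20, t ^ θ), (22, t), (19, t ^ θ * t)] ∈
      fixSub (opMat chevF4 K f4Qbig) (frobHom hθ) := by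
  have a1 : ((t ^ θ * t) ^ θ) ^ 2 = (t ^ θ) ^ 2 * t := by
    have h1 : ((t ^ θ * t) ^ θ) ^ 2 = (t ^ θ) ^ 2 * ((t ^ θ) ^ θ) ^ 2 := by ring
    rw [h1, hq]
  constructor
  · apply tw_fix hD _ _ (f4R (frobHom hθ)) (fun s c hs => f4R_spec hD h2z _ s c hs)
    · intro p hp
      simp only [List.mem_cons, List.mem_nil_iff, or_false] at hp
      rcases hp with rfl | rfl | rfl
      · exact (by decide : 27 < chevF4.nroots)
      · exact (by decide : 25 < chevF4.nroots)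
      · exact (by decide : 28 < chevF4.nroots)
    · rw [List.map_cons, List.map_cons, List.map_cons, List.map_nil]
      dsimp only [f4R]
      rw [show f4rho.getD 27 0 = 25 from by decide, show f4rho.getD 25 0 = 27 from by decide,
        show f4rho.getD 28 0 = 30 from by decide, show f4lam.getD 27 1 = 2 from by decide,
        show f4lam.getD 25 1 = 1 from by decide, show f4lam.getD 28 1 = 2 from by decide]
      simp only [frobHom_apply]
      rw [hq, pow_one, a1]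
      have key := wG_eq_of_wordEqPN hD 2 h2z _ _ f4_fix_ok.1 (t ^ θ) t
      have e1 : evalWord (t ^ θ) t f4F1 = [(25, t), (27, t ^ θ), (30, (t ^ θ) ^ 2 * t)] := by
        unfold f4F1 evalWord
        simp only [List.map_cons, List.map_nil, evalPoly, evalMono, List.sum_cons, List.sum_nil,
          List.cons.injEq, Prod.mk.injEq, eq_self, true_and, and_true]
        refine ⟨?_, ?_, ?_⟩ <;> (push_cast; ring)
      have e2 : evalWord (t ^ θ) t f4F2 = [(27, t ^ θ), (25, t), (28, t ^ θ * t)] := by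
        unfold f4F2 evalWord
        simp only [List.map_cons, List.map_nil, evalPoly, evalMono, List.sum_cons, List.sum_nil,
          List.cons.injEq, Prod.mk.injEq, eq_self, true_and, and_true]
        refine ⟨?_, ?_, ?_⟩ <;> (push_cast; ring)
      rw [e1, e2] at key
      exact key
  · apply tw_fix hD _ _ (f4R (frobHom hθ)) (fun s c hs => f4R_spec hD h2z _ s c hs)
    · intro p hp
      simp only [List.mem_cons, List.mem_nil_iff, or_false] at hp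
      rcases hp with rfl | rfl | rfl
      · exact (by decide : 20 < chevF4.nroots)
      · exact (by decide : 22 < chevF4.nroots)
      · exact (by decide : 19 < chevF4.nroots)
    · rw [List.map_cons, List.map_cons, List.map_cons, List.map_nil]
      dsimp only [f4R]
      rw [show f4rho.getD 20 0 = 22 from by decide, show f4rho.getD 22 0 = 20 from by decide,
        show f4rho.getD 19 0 = 17 from by decide, show f4lam.getD 20 1 = 2 from by decide,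
        show f4lam.getD 22 1 = 1 from by decide, show f4lam.getD 19 1 = 2 from by decide]
      simp only [frobHom_apply]
      rw [hq, pow_one, a1]
      have key := wG_eq_of_wordEqPN hD 2 h2z _ _ f4_fix_ok.2 (t ^ θ) t
      have e1 : evalWord (t ^ θ) t f4F3 = [(22, t), (20, t ^ θ), (17, (t ^ θ) ^ 2 * t)] := by
        unfold f4F3 evalWord
        simp only [List.map_cons, List.map_nil, evalPoly, evalMono, List.sum_cons, List.sum_nil,
          List.cons.injEq, Prod.mk.injEq, eq_self, true_and, and_true]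
        refine ⟨?_, ?_, ?_⟩ <;> (push_cast; ring)
      have e2 : evalWord (t ^ θ) t f4F4 = [(20, t ^ θ), (22, t), (19, t ^ θ * t)] := by
        unfold f4F4 evalWord
        simp only [List.map_cons, List.map_nil, evalPoly, evalMono, List.sum_cons, List.sum_nil,
          List.cons.injEq, Prod.mk.injEq, eq_self, true_and, and_true]
        refine ⟨?_, ?_, ?_⟩ <;> (push_cast; ring)
      rw [e1, e2] at key
      exact key

theorem f4_fix_B2 (hD : Seven chevF4) (θ : ℕ) (hq : ∀ t : K, ((t ^ θ) ^ θ) ^ 2 = t)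
    (a b ab aab : ℕ) (t u : K) :
    wG hD (b2ClassWord θ a b ab aab t u) =
      wG hD [(a, t ^ θ), (b, t), (ab, t ^ θ * t)] *
        (xG hD ab ((u ^ (2 * θ)) ^ θ) * xG hD aab (u ^ (2 * θ))) := by
  have e1 : (u ^ (2 * θ)) ^ θ = u := by
    have h : (u ^ (2 * θ)) ^ θ = ((u ^ θ) ^ θ) ^ 2 := by ring
    rw [h, hq]
  have e2 : t ^ (θ + 1) + u = t ^ θ * t + u := by rw [pow_succ]
  unfold b2ClassWord
  rw [e1, e2]
  simp only [wG_cons, wG_nil, mul_one]
  rw [← xG_mul]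
  simp only [mul_assoc]

theorem f4_le_fix (hD : Seven chevF4) (θ : ℕ) (h2z : ((2 : ℤ) : K) = 0) (hθ : IsFrob K θ)
    (hq : ∀ t : K, ((t ^ θ) ^ θ) ^ 2 = t) :
    twistedF4 K θ ≤ fixSub (opMat chevF4 K f4Qbig) (frobHom hθ) := by
  obtain ⟨n33, n24⟩ := f4_facts
  have so := sorth_of_OK (K := K) hD 33 24 f4_orth
  have c1 : ∀ x y : K, Commute (xG hD 33 x) (xG hD 24 y) := fun x y => (so x y).1
  have c2 : ∀ x y : K, Commute (xG hD 14 x) (xG hD 23 y) := fun x y => by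
    have h := (so x y).2.2.2
    rw [n33, n24] at h
    exact h
  have c3 : ∀ x y : K, Commute (xG hD 28 x) (xG hD 30 y) :=
    fun x y => orth1_spec hD 28 30 f4_suz_pos.2.2.2.2.2 x y
  have c4 : ∀ x y : K, Commute (xG hD 19 x) (xG hD 17 y) :=
    fun x y => orth1_spec hD 19 17 f4_suz_neg.2.2.2.2.2 x y
  apply gen_le hD
  intro w hw
  have hw' : (∃ t : K, w = f4PairWord θ f4p1 f4p4 t ∨ w = f4PairWord θ f4m1 f4m4 t) ∨
      (∃ t u : K, w = b2ClassWord θ f4a f4b f4ab f4aab t u ∨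
        w = b2ClassWord θ f4ma f4mb f4mab f4maab t u) := hw
  rcases hw' with ⟨t, rfl | rfl⟩ | ⟨t, u, rfl | rfl⟩
  · show wG hD [(33, t ^ θ), (24, t)] ∈ _
    rw [wG_two]
    exact f4_fix_P hD θ h2z hθ hq 33 24 (by decide) (by decide) (by decide) (by decide)
      (by decide) (by decide) c1 t
  · show wG hD [(14, t ^ θ), (23, t)] ∈ _
    rw [wG_two]
    exact f4_fix_P hD θ h2z hθ hq 14 23 (by decide) (by decide) (by decide) (by decide)
      (by decide) (by decide) c2 t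
  · show wG hD (b2ClassWord θ 27 25 28 30 t u) ∈ _
    rw [f4_fix_B2 hD θ hq]
    exact mul_mem (f4_fix_S hD θ h2z hθ hq t).1
      (f4_fix_P hD θ h2z hθ hq 28 30 (by decide) (by decide) (by decide) (by decide)
        (by decide) (by decide) c3 _)
  · show wG hD (b2ClassWord θ 20 22 19 17 t u) ∈ _
    rw [f4_fix_B2 hD θ hq]
    exact mul_mem (f4_fix_S hD θ h2z hθ hq t).2
      (f4_fix_P hD θ h2z hθ hq 19 17 (by decide) (by decide) (by decide) (by decide)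
        (by decide) (by decide) c4 _)

theorem f4_H_fix_inj (hD : Seven chevF4) (φ : K →+* K) (h h' : GL chevF4.Idx K)
    (hh : h ∈ chevF4.diagonalSubgroup K) (hh' : h' ∈ chevF4.diagonalSubgroup K)
    (hf : h ∈ fixSub (opMat chevF4 K f4Qbig) φ) (hf' : h' ∈ fixSub (opMat chevF4 K f4Qbig) φ)
    (e24 : dEnt h 24 = dEnt h' 24) (e25 : dEnt h 25 = dEnt h' 25) : h = h' := by
  obtain ⟨d1, d2, d3, d4, rk⟩ := f4_dfacts
  obtain ⟨s0, s1, s2, s3, -, -⟩ := f4_facts3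
  have r33 : ∀ g : GL chevF4.Idx K, g ∈ fixSub (opMat chevF4 K f4Qbig) φ →
      dEnt g 33 = φ (dEnt g 24) := fun g hg =>
    dEnt_rel' hD f4Qbig f4Qperm f4Qsgn f4QMono φ g hg 24 33 (by decide) (by decide) d1 d2 f4_dhu1
  have r27 : ∀ g : GL chevF4.Idx K, g ∈ fixSub (opMat chevF4 K f4Qbig) φ →
      dEnt g 27 = φ (dEnt g 25) := fun g hg =>
    dEnt_rel' hD f4Qbig f4Qperm f4Qsgn f4QMono φ g hg 25 27 (by decide) (by decide) d3 d4 f4_dhu2
  apply H_eq_of_dEnt hD _ _ _ _ _ _ smith_F4 h h' hh hh'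
  intro j hj
  rw [rk] at hj
  interval_cases j
  · rw [s0, r33 h hf, r33 h' hf', e24]
  · rw [s1, r27 h hf, r27 h' hf', e25]
  · rw [s2]; exact e25
  · rw [s3]; exact e24

theorem dEnt_conjTo {D : ChevalleyDatum} (hD : Seven D) (n : GL D.Idx K) (f : ℕ → ℕ)
    (hn : ConjTo hD n f) (hnN : n ∈ D.monomialSubgroup K) (h : GL D.Idx K)
    (hh : h ∈ D.diagonalSubgroup K) (s : ℕ) (hs : s < D.nroots) :
    dEnt (n * h * n⁻¹) (f s) = dEnt h s := by
  obtain ⟨hfs, ε, hε, hc⟩ := hn s hs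
  have hH : n * h * n⁻¹ ∈ D.diagonalSubgroup K := N_conj_H hD hnN hh
  have e1 := H_conj_dEnt hD (n * h * n⁻¹) hH (f s) hfs (ε * 1)
  have e2 : n * h * n⁻¹ * xG hD (f s) (ε * 1) * (n * h * n⁻¹)⁻¹ =
      xG hD (f s) (ε * dEnt h s) := by
    rw [← hc 1]
    have e : n * h * n⁻¹ * (n * xG hD s 1 * n⁻¹) * (n * h * n⁻¹)⁻¹ =
        n * (h * xG hD s 1 * h⁻¹) * n⁻¹ := by group
    rw [e, H_conj_dEnt hD h hh s hs 1, mul_one, hc]
  rw [e1] at e2
  have e3 := xG_inj hD (f s) hfs _ _ e2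
  have hε0 : ε ≠ 0 := by
    rintro rfl
    rw [mul_zero] at hε
    exact zero_ne_one hε
  have e4 : ε * dEnt (n * h * n⁻¹) (f s) = ε * dEnt h s := by linear_combination e3
  exact mul_left_cancel₀ hε0 e4

theorem f4_T1_mem (hD : Seven chevF4) (θ : ℕ) (hθ : IsFrob K θ) (l : K) :
    hG hD 33 (l ^ θ) * hG hD 24 l ∈ twistedF4 K θ := by
  obtain ⟨n33, n24⟩ := f4_facts
  have gen1 : ∀ t : K, xG hD 33 (t ^ θ) * xG hD 24 t ∈ twistedF4 K θ := by
    intro t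
    rw [← wG_two]
    exact mem_gen hD _ _ (Or.inl ⟨t, Or.inl rfl⟩)
  have gen2 : ∀ t : K, xG hD 14 (t ^ θ) * xG hD 23 t ∈ twistedF4 K θ := by
    intro t
    rw [← wG_two]
    exact mem_gen hD _ _ (Or.inl ⟨t, Or.inr rfl⟩)
  have hX : ∀ t : K, clsX hD [(33, θ), (24, 1)] t = xG hD 33 (t ^ θ) * xG hD 24 t := by
    intro t
    simp only [clsX, List.map_cons, List.map_nil, List.prod_cons, List.prod_nil, pow_one, mul_one]
  have hXn : ∀ t : K, clsX hD (negCls chevF4 [(33, θ), (24, 1)]) t =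
      xG hD 14 (t ^ θ) * xG hD 23 t := by
    intro t
    simp only [clsX, negCls, List.map_cons, List.map_nil, List.prod_cons, List.prod_nil, pow_one,
      mul_one, n33, n24]
  have hc : ([(33, θ), (24, 1)] : List (ℕ × ℕ)).Pairwise
      (fun p p' => SOrth hD K p.1 p'.1) :=
    List.pairwise_pair.mpr (sorth_of_OK hD 33 24 f4_orth)
  have hf : ∀ p ∈ ([(33, θ), (24, 1)] : List (ℕ × ℕ)), IsFrob K p.2 :=
    forall_mem2 hθ (isFrob_one K)
  have h1 : ∀ t : K, clsX hD [(33, θ), (24, 1)] t ∈ twistedF4 K θ := fun t => by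
    rw [hX]; exact gen1 t
  have h1n : ∀ t : K, clsX hD (negCls chevF4 [(33, θ), (24, 1)]) t ∈ twistedF4 K θ := fun t => by
    rw [hXn]; exact gen2 t
  have h := (clsH_mem hD (twistedF4 K θ) [(33, θ), (24, 1)] hc hf h1 h1n l).2
  have e : clsH hD [(33, θ), (24, 1)] l = hG hD 33 (l ^ θ) * hG hD 24 l := by
    simp only [clsH, List.map_cons, List.map_nil, List.prod_cons, List.prod_nil, pow_one, mul_one]
  rw [e] at h
  exact h

theorem f4_nB_mem (hD : Seven chevF4) (θ : ℕ) (hθ0 : θ ≠ 0) (h2z : ((2 : ℤ) : K) = 0) :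
    wordN (F := K) hD [1, 2, 1, 2] ∈ twistedF4 K θ := by
  have hT := tabOK_seven chevF4 hD
  obtain ⟨s0, s1, s2, s3, n27, n25⟩ := f4_facts3
  have hθ1 : θ + 1 ≠ 0 := Nat.succ_ne_zero _
  have gen3 : ∀ t u : K, wG hD (b2ClassWord θ 27 25 28 30 t u) ∈ twistedF4 K θ :=
    fun t u => mem_gen hD _ _ (Or.inr ⟨t, u, Or.inl rfl⟩)
  have gen4 : ∀ t u : K, wG hD (b2ClassWord θ 20 22 19 17 t u) ∈ twistedF4 K θ :=
    fun t u => mem_gen hD _ _ (Or.inr ⟨t, u, Or.inr rfl⟩)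
  have hZ : ∀ a b ab aab : ℕ, wG hD (b2ClassWord θ a b ab aab (0 : K) 1) =
      xG hD ab 1 * xG hD aab 1 := by
    intro a b ab aab
    unfold b2ClassWord
    rw [wG_cons, wG_cons, wG_cons, wG_cons, wG_nil]
    simp only [zero_pow hθ0, zero_pow hθ1, xG_zero, one_pow, zero_add, one_mul, mul_one]
  have hZY : wG hD [(28, (1 : K)), (30, 1), (19, 1), (17, 1), (28, 1), (30, 1), (19, 1), (17, 1),
      (28, 1), (30, 1)] ∈ twistedF4 K θ := by
    have hz := gen3 0 1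
    have hy := gen4 0 1
    rw [hZ] at hz hy
    have e : wG hD [(28, (1 : K)), (30, 1), (19, 1), (17, 1), (28, 1), (30, 1), (19, 1), (17, 1),
        (28, 1), (30, 1)] =
        (xG hD 28 1 * xG hD 30 1) * ((xG hD 19 1 * xG hD 17 1) * ((xG hD 28 1 * xG hD 30 1) *
          ((xG hD 19 1 * xG hD 17 1) * (xG hD 28 1 * xG hD 30 1)))) := by
      simp only [wG_cons, wG_nil, mul_one, mul_assoc]
    rw [e]
    exact mul_mem hz (mul_mem hy (mul_mem hz (mul_mem hy hz)))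
  have hNB : nG hD 27 (1 : K) * (nG hD 25 1 * (nG hD 27 1 * nG hD 25 1)) ∈
      twistedF4 K θ := by
    have key := wordEqPN_sound (F := K) hT 2 h2z f4zy f4nn f4_nB_ok 1 1
    have e1 : evalWord (1 : K) 1 f4zy = [(28, 1), (30, 1), (19, 1), (17, 1), (28, 1), (30, 1),
        (19, 1), (17, 1), (28, 1), (30, 1)] := by
      simp [evalWord, evalPoly, evalMono, f4zy]
    have e2 : evalWord (1 : K) 1 f4nn = [(27, 1), (20, -1), (27, 1), (25, 1), (22, -1), (25, 1),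
        (27, 1), (20, -1), (27, 1), (25, 1), (22, -1), (25, 1)] := by
      simp [evalWord, evalPoly, evalMono, f4nn]
    rw [e1, e2] at key
    have e3 : nG hD 27 (1 : K) * (nG hD 25 1 * (nG hD 27 1 * nG hD 25 1)) =
        wG hD [(27, 1), (20, -1), (27, 1), (25, 1), (22, -1), (25, 1),
          (27, 1), (20, -1), (27, 1), (25, 1), (22, -1), (25, 1)] := by
      rw [nG_eq, nG_eq, n27, n25, inv_one]
      simp only [wG_cons, wG_nil, mul_one, mul_assoc]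
    rw [e3]
    have e4 : wG hD [(27, (1 : K)), (20, -1), (27, 1), (25, 1), (22, -1), (25, 1),
        (27, 1), (20, -1), (27, 1), (25, 1), (22, -1), (25, 1)] =
        wG hD [(28, (1 : K)), (30, 1), (19, 1), (17, 1), (28, 1), (30, 1), (19, 1), (17, 1),
          (28, 1), (30, 1)] :=
      Units.ext (by rw [wG_val, wG_val]; exact key.symm)
    rw [e4]; exact hZY
  have e : wordN (F := K) hD [1, 2, 1, 2] =
      nG hD 27 1 * (nG hD 25 1 * (nG hD 27 1 * nG hD 25 1)) := by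
    show nG hD (chevF4.simple 1) 1 * (nG hD (chevF4.simple 2) 1 * (nG hD (chevF4.simple 1) 1 *
      (nG hD (chevF4.simple 2) 1 * 1))) = _
    rw [s1, s2, mul_one]
  rw [e]
  exact hNB

theorem f4_T1_dEnt (hD : Seven chevF4) (θ : ℕ) (l : K) (hl : l ≠ 0) (s : ℕ)
    (hs : s < chevF4.nroots) :
    dEnt (hG hD 33 (l ^ θ) * hG hD 24 l) s =
      (l ^ θ) ^ chevF4.pairing 33 s * l ^ chevF4.pairing 24 s := by
  rw [dEnt_mul hD _ _ (hG_mem_H hD 33 (by decide) _ (pow_ne_zero _ hl)),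
    dEnt_hG hD 33 (by decide) _ (pow_ne_zero _ hl) s hs,
    dEnt_hG hD 24 (by decide) _ hl s hs]

theorem f4_w1212 : ∀ i ∈ ([1, 2, 1, 2] : List ℕ), i < chevF4.rank := by
  intro i hi
  simp only [List.mem_cons, List.mem_nil_iff, or_false] at hi
  rcases hi with rfl | rfl | rfl | rfl <;> decide

theorem f4_P_dEnt (hD : Seven chevF4) (θ : ℕ) (a b : K) (ha : a ≠ 0) (hb : b ≠ 0) :
    dEnt (hG hD 33 (a ^ θ) * hG hD 24 a *
      (wordN hD [1, 2, 1, 2] * (hG hD 33 (b ^ θ) * hG hD 24 b) *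
        (wordN hD [1, 2, 1, 2])⁻¹)) 24 = a ^ 2 * ((b ^ θ) ^ 2)⁻¹ ∧
    dEnt (hG hD 33 (a ^ θ) * hG hD 24 a *
      (wordN hD [1, 2, 1, 2] * (hG hD 33 (b ^ θ) * hG hD 24 b) *
        (wordN hD [1, 2, 1, 2])⁻¹)) 25 = a⁻¹ * b := by
  obtain ⟨p1, p2, p3, p4, -, -, -, -⟩ := f4_pairs
  obtain ⟨q1, q2, q3, q4, -, -, -, -⟩ := f4_pairs_pos
  obtain ⟨v1, v2, v3, v4, -, -, -, -⟩ := f4_pairs_neg
  obtain ⟨w1, w2, w3, w4⟩ := f4_pairs32
  have hw := f4_w1212
  have hTa : hG hD 33 (a ^ θ) * hG hD 24 a ∈ chevF4.diagonalSubgroup K :=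
    mul_mem (hG_mem_H hD 33 (by decide) _ (pow_ne_zero _ ha)) (hG_mem_H hD 24 (by decide) _ ha)
  have hTb : hG hD 33 (b ^ θ) * hG hD 24 b ∈ chevF4.diagonalSubgroup K :=
    mul_mem (hG_mem_H hD 33 (by decide) _ (pow_ne_zero _ hb)) (hG_mem_H hD 24 (by decide) _ hb)
  have hcj := wordN_conj (F := K) hD [1, 2, 1, 2] hw
  have hnN := wordN_mem (F := K) hD [1, 2, 1, 2] hw
  have c1 := dEnt_conjTo hD _ _ hcj hnN _ hTb 32 (by decide)
  have c2 := dEnt_conjTo hD _ _ hcj hnN _ hTb 22 (by decide)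
  rw [w3] at c1
  rw [w4] at c2
  refine ⟨?_, ?_⟩
  · rw [dEnt_mul hD _ _ hTa, c1, f4_T1_dEnt hD θ a ha 24 (by decide),
      f4_T1_dEnt hD θ b hb 32 (by decide), p3, p4, w1, w2]
    rw [zpow_zero, zpow_zero, one_mul, mul_one, zpow_neg, zpow_ofNat, zpow_ofNat]
  · rw [dEnt_mul hD _ _ hTa, c2, f4_T1_dEnt hD θ a ha 25 (by decide),
      f4_T1_dEnt hD θ b hb 22 (by decide), q3, q4, v3, v4]
    rw [zpow_zero, zpow_zero, one_mul, one_mul, zpow_neg_one, zpow_one]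

end F4H

theorem f4_H_card {K : Type*} [Field K] [Fintype K] {m : ℕ}
    (hK : Fintype.card K = 2 ^ (2 * m + 1)) :
    Nat.card ↥(chevF4.diagonalSubgroup K ⊓ twistedF4 K (2 ^ m)) = (2 ^ (2 * m + 1) - 1) ^ 2 := by
  classical
  have hD : Seven chevF4 := by simp
  haveI hch : CharP K 2 := charP_of_card Nat.prime_two hK
  haveI : Fact (Nat.Prime 2) := ⟨Nat.prime_two⟩
  have h2 : (2 : K) = 0 := by
    have h := CharP.cast_eq_zero K 2
    exact_mod_cast h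
  have h2z : ((2 : ℤ) : K) = 0 := by exact_mod_cast h2
  have hθ : IsFrob K (2 ^ m) := isFrob_pow 2 m
  have hq : ∀ t : K, ((t ^ 2 ^ m) ^ 2 ^ m) ^ 2 = t := by
    intro t
    rw [← pow_mul, ← pow_mul]
    have e : 2 ^ m * (2 ^ m * 2) = Fintype.card K := by rw [hK]; ring
    rw [e]; exact FiniteField.pow_card t
  have hS := f4_le_fix hD (2 ^ m) h2z hθ hq
  have hcard : Nat.card (Kˣ × Kˣ) = (2 ^ (2 * m + 1) - 1) ^ 2 := by
    rw [Nat.card_prod, Nat.card_units, Nat.card_eq_fintype_card (α := K), hK, sq]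
  rw [← hcard]
  apply le_antisymm
  · let f : ↥(chevF4.diagonalSubgroup K ⊓ twistedF4 K (2 ^ m)) → Kˣ × Kˣ := fun h =>
      (Units.mk0 (dEnt (h : GL chevF4.Idx K) 24) (dEnt_ne_zero hD _ h.2.1 24 (by decide)),
       Units.mk0 (dEnt (h : GL chevF4.Idx K) 25) (dEnt_ne_zero hD _ h.2.1 25 (by decide)))
    have hinj : Function.Injective f := by
      intro h h' e
      have e1 : dEnt (h : GL chevF4.Idx K) 24 = dEnt (h' : GL chevF4.Idx K) 24 :=
        congrArg (fun p : Kˣ × Kˣ => (p.1 : K)) e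
      have e2 : dEnt (h : GL chevF4.Idx K) 25 = dEnt (h' : GL chevF4.Idx K) 25 :=
        congrArg (fun p : Kˣ × Kˣ => (p.2 : K)) e
      exact Subtype.ext
        (f4_H_fix_inj hD (frobHom hθ) _ _ h.2.1 h'.2.1 (hS h.2.2) (hS h'.2.2) e1 e2)
    exact Nat.card_le_card_of_injective f hinj
  · have hnN := wordN_mem (F := K) hD [1, 2, 1, 2] f4_w1212
    have hnG := f4_nB_mem (K := K) hD (2 ^ m) hθ.1 h2z
    have hTH : ∀ l : Kˣ, hG hD 33 ((l : K) ^ 2 ^ m) * hG hD 24 (l : K) ∈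
        chevF4.diagonalSubgroup K :=
      fun l => mul_mem (hG_mem_H hD 33 (by decide) _ (pow_ne_zero _ l.ne_zero))
        (hG_mem_H hD 24 (by decide) _ l.ne_zero)
    have hTG : ∀ l : Kˣ, hG hD 33 ((l : K) ^ 2 ^ m) * hG hD 24 (l : K) ∈ twistedF4 K (2 ^ m) :=
      fun l => f4_T1_mem hD (2 ^ m) hθ l
    let g : Kˣ × Kˣ → ↥(chevF4.diagonalSubgroup K ⊓ twistedF4 K (2 ^ m)) := fun p =>
      ⟨hG hD 33 ((p.1 : K) ^ 2 ^ m) * hG hD 24 (p.1 : K) *
        (wordN hD [1, 2, 1, 2] * (hG hD 33 ((p.2 : K) ^ 2 ^ m) * hG hD 24 (p.2 : K)) *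
          (wordN hD [1, 2, 1, 2])⁻¹),
        Subgroup.mem_inf.mpr ⟨mul_mem (hTH p.1) (N_conj_H hD hnN (hTH p.2)),
          mul_mem (hTG p.1) (mul_mem (mul_mem hnG (hTG p.2)) (inv_mem hnG))⟩⟩
    have hinj : Function.Injective g := by
      intro p p' e
      have e' : hG hD 33 ((p.1 : K) ^ 2 ^ m) * hG hD 24 (p.1 : K) *
          (wordN hD [1, 2, 1, 2] * (hG hD 33 ((p.2 : K) ^ 2 ^ m) * hG hD 24 (p.2 : K)) *
            (wordN hD [1, 2, 1, 2])⁻¹) =
          hG hD 33 ((p'.1 : K) ^ 2 ^ m) * hG hD 24 (p'.1 : K) *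
          (wordN hD [1, 2, 1, 2] * (hG hD 33 ((p'.2 : K) ^ 2 ^ m) * hG hD 24 (p'.2 : K)) *
            (wordN hD [1, 2, 1, 2])⁻¹) :=
        congrArg (fun x : ↥(chevF4.diagonalSubgroup K ⊓ twistedF4 K (2 ^ m)) =>
          (x : GL chevF4.Idx K)) e
      obtain ⟨d1, d2⟩ := f4_P_dEnt hD (2 ^ m) (p.1 : K) (p.2 : K) p.1.ne_zero p.2.ne_zero
      obtain ⟨d1', d2'⟩ := f4_P_dEnt hD (2 ^ m) (p'.1 : K) (p'.2 : K) p'.1.ne_zero p'.2.ne_zero
      rw [e'] at d1 d2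
      have k := f4_inj_aux (2 ^ m) h2 hq (p.1 : K) (p.2 : K) (p'.1 : K) (p'.2 : K)
        p.1.ne_zero p.2.ne_zero p'.1.ne_zero p'.2.ne_zero (d1.symm.trans d1') (d2.symm.trans d2')
      exact Prod.ext (Units.ext k.1) (Units.ext k.2)
    exact Nat.card_le_card_of_injective g hinj

end Cfsg.Agent.Helper11
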