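import Cfsg.Agent.Helper11.ChevTwF4Q
import Cfsg.Agent.Helper11.ChevW

set_option autoImplicit false

/-!
Table facts on the Weyl group of `F₄` and the twisting map `ρ` of the roots: the `16` elements
commuting with `ρ` are the alternating words in `w_A = s₁s₄` and `w_B = (s₂s₃)²`.
-/

namespace Cfsg.Agent.Helper11

open Cfsg.Lie

def f4AB : List ℕ := [0, 3, 1, 2, 1, 2]

/-- The word `(w_A w_B)^j`. -/
noncomputable def f4pw (j : ℕ) : List ℕ :=
  @Nat.rec (fun _ => List ℕ) [] (fun _ ih => f4AB ++ ih) j

/-- The word `w_A (w_A w_B)^j`. -/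
noncomputable def f4aw (j : ℕ) : List ℕ := [0, 3] ++ f4pw j

theorem f4pw_succ (j : ℕ) : f4pw (j + 1) = f4AB ++ f4pw j := rfl

/-- The candidate images of the fundamental roots. -/
noncomputable def f4img (r3 r4 i : ℕ) : ℕ :=
  [f4rho.getD r4 0, f4rho.getD r3 0, r3, r4].getD i 0

noncomputable def f4cand (r3 r4 : ℕ) : Bool :=
  allN chevF4.rank (fun i => allN chevF4.rank (fun j =>
    decide (chevF4.pairing (f4img r3 r4 i) (f4img r3 r4 j) =
      chevF4.pairing (chevF4.simple i) (chevF4.simple j))))

set_option maxRecDepth 100000 in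
set_option maxHeartbeats 0 in
theorem f4_w_id1 : allN chevF4.nroots (fun s =>
    Nat.beq (wordApply chevF4 ([0, 3] ++ [0, 3]) s) s) = true := by decide +kernel

set_option maxRecDepth 100000 in
set_option maxHeartbeats 0 in
theorem f4_w_id2 : allN chevF4.nroots (fun s =>
    Nat.beq (wordApply chevF4 (f4pw 8) s) s) = true := by decide +kernel

set_option maxRecDepth 100000 in
set_option maxHeartbeats 0 in
theorem f4_w_id3 : allN chevF4.nroots (fun s =>
    Nat.beq (wordApply chevF4 (f4aw 1 ++ f4aw 1) s) s) = true := by decide +kernel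

set_option maxRecDepth 100000 in
set_option maxHeartbeats 0 in
theorem f4_w_ne1 : allN 8 (fun j => cond (Nat.beq j 0) true
    (anyN chevF4.nroots (fun s => cond (Nat.beq (wordApply chevF4 (f4pw j) s) s) false true))) =
      true := by decide +kernel

set_option maxRecDepth 100000 in
set_option maxHeartbeats 0 in
theorem f4_w_ne2 : allN 8 (fun j =>
    anyN chevF4.nroots (fun s => cond (Nat.beq (wordApply chevF4 (f4aw j) s) s) false true)) =
      true := by decide +kernel

set_option maxRecDepth 100000 in
set_option maxHeartbeats 0 in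
theorem f4_class : allN chevF4.nroots (fun r3 => allN chevF4.nroots (fun r4 =>
    cond (f4cand r3 r4)
      (anyN 8 (fun j =>
        allN chevF4.rank (fun i =>
          Nat.beq (wordApply chevF4 (f4pw j) (chevF4.simple i)) (f4img r3 r4 i)) ||
        allN chevF4.rank (fun i =>
          Nat.beq (wordApply chevF4 (f4aw j) (chevF4.simple i)) (f4img r3 r4 i))))
      true)) = true := by decide +kernel

set_option maxRecDepth 100000 in
set_option maxHeartbeats 0 in
theorem f4_pair_inv : allN chevF4.rank (fun i => allN chevF4.nroots (fun r =>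
    allN chevF4.nroots (fun s =>
      decide (chevF4.pairing (wAt chevF4 i r) (wAt chevF4 i s) = chevF4.pairing r s)))) = true := by
  decide +kernel

set_option maxRecDepth 100000 in
set_option maxHeartbeats 0 in
theorem f4_pair_det : allN chevF4.nroots (fun r => allN chevF4.nroots (fun s =>
    cond (Nat.beq r s) true
      (anyN chevF4.rank (fun i =>
        cond (decide (chevF4.pairing (chevF4.simple i) r = chevF4.pairing (chevF4.simple i) s))
          false true)))) = true := by decide +kernel

set_option maxRecDepth 100000 in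
set_option maxHeartbeats 0 in
theorem f4_sgn_rho : ∀ s, s < chevF4.nroots → f4Qsgn.getD (chevF4.rank + s) 0 ≠ 0 →
    f4Qperm.getD (chevF4.rank + s) 0 = chevF4.rank + f4rho.getD s 0 := by decide +kernel

end Cfsg.Agent.Helper11
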