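import Cfsg.Agent.Helper11.ChevTwF4H
import Cfsg.Agent.Helper11.ChevTwF4Wt
import Cfsg.Agent.Helper11.ChevCox2
import Mathlib.GroupTheory.SpecificGroups.Dihedral

set_option autoImplicit false

/-!
`N¹/H¹` is dihedral of order `16` for `²F₄(q)`: the elements of `N ∩ ²F₄` act on the roots by
elements of the Weyl group commuting with the twisting map, and these are the sixteen alternating
words in `w_A`, `w_B`.
-/

namespace Cfsg.Agent.Helper11

open Cfsg.Lie

/-- The map of the dihedral group of order `16` given by an involution and a rotation. -/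
def dihMap {Q : Type*} [Mul Q] (s : Q) (z : ZMod 8 → Q) : DihedralGroup 8 → Q
  | DihedralGroup.r i => z i
  | DihedralGroup.sr i => s * z i

theorem dihMap_r {Q : Type*} [Mul Q] (s : Q) (z : ZMod 8 → Q) (i : ZMod 8) :
    dihMap s z (DihedralGroup.r i) = z i := rfl

theorem dihMap_sr {Q : Type*} [Mul Q] (s : Q) (z : ZMod 8 → Q) (i : ZMod 8) :
    dihMap s z (DihedralGroup.sr i) = s * z i := rfl

theorem dihedral8_hom {G : Type*} [Group G] (H : Subgroup G) [H.Normal] (a b : G)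
    (h1 : a * a ∈ H) (h2 : (a * b) ^ 8 ∈ H) (h3 : a * (a * b) * (a * (a * b)) ∈ H)
    (hd1 : ∀ j : ℕ, 0 < j → j < 8 → (a * b) ^ j ∉ H)
    (hd2 : ∀ j : ℕ, j < 8 → a * (a * b) ^ j ∉ H)
    (hcov : ∀ g : G, ∃ j : ℕ, j < 8 ∧
      (((a * b) ^ j)⁻¹ * g ∈ H ∨ (a * (a * b) ^ j)⁻¹ * g ∈ H)) :
    ∃ φ : G →* DihedralGroup 8, Function.Surjective φ ∧ φ.ker = H := by
  obtain ⟨s, hs_def⟩ : ∃ s : G ⧸ H, s = QuotientGroup.mk a := ⟨_, rfl⟩
  obtain ⟨c, hc_def⟩ : ∃ c : G ⧸ H, c = QuotientGroup.mk (a * b) := ⟨_, rfl⟩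
  have hss : s * s = 1 := by
    rw [hs_def, ← QuotientGroup.mk_mul]
    exact (QuotientGroup.eq_one_iff (a * a)).mpr h1
  have hc8 : c ^ 8 = 1 := by
    rw [hc_def, ← QuotientGroup.mk_pow]
    exact (QuotientGroup.eq_one_iff ((a * b) ^ 8)).mpr h2
  have hscsc : s * c * (s * c) = 1 := by
    have e1 : (QuotientGroup.mk (a * (a * b) * (a * (a * b))) : G ⧸ H) =
        QuotientGroup.mk a * QuotientGroup.mk (a * b) *
          (QuotientGroup.mk a * QuotientGroup.mk (a * b)) := rfl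
    rw [hs_def, hc_def, ← e1]
    exact (QuotientGroup.eq_one_iff _).mpr h3
  have hsinv : s⁻¹ = s := inv_eq_of_mul_eq_one_left hss
  have hcs1 : c * s = s * c⁻¹ := by
    have e1 : c * s = s⁻¹ * (s * c * (s * c)) * c⁻¹ := by group
    rw [e1, hscsc, mul_one, hsinv]
  have hcs : ∀ k : ℕ, c ^ k * s = s * (c ^ k)⁻¹ := by
    intro k
    induction k with
    | zero => simp
    | succ k ih =>
      calc c ^ (k + 1) * s = c ^ k * (c * s) := by rw [pow_succ, mul_assoc]
        _ = c ^ k * s * c⁻¹ := by rw [hcs1, mul_assoc]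
        _ = s * (c ^ k)⁻¹ * c⁻¹ := by rw [ih]
        _ = s * (c ^ (k + 1))⁻¹ := by rw [pow_succ', mul_inv_rev, mul_assoc]
  obtain ⟨z, hz⟩ : ∃ z : ZMod 8 → G ⧸ H, ∀ i, z i = c ^ i.val := ⟨fun i => c ^ i.val, fun _ => rfl⟩
  have hzadd : ∀ i j, z (i + j) = z i * z j := by
    intro i j
    rw [hz, hz, hz, ZMod.val_add, ← pow_add]
    exact (pow_eq_pow_mod _ hc8).symm
  have hzsub : ∀ i j, z (j - i) = (z i)⁻¹ * z j := by
    intro i j
    rw [eq_inv_mul_iff_mul_eq, ← hzadd, add_sub_cancel]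
  have hzs : ∀ i, z i * s = s * (z i)⁻¹ := fun i => by rw [hz]; exact hcs _
  have hf : ∀ x y : DihedralGroup 8, dihMap s z (x * y) = dihMap s z x * dihMap s z y := by
    rintro (i | i) (j | j)
    · rw [DihedralGroup.r_mul_r, dihMap_r, dihMap_r, dihMap_r]
      exact hzadd i j
    · rw [DihedralGroup.r_mul_sr, dihMap_r, dihMap_sr, dihMap_sr, hzsub, ← mul_assoc (z i), hzs,
        mul_assoc]
    · rw [DihedralGroup.sr_mul_r, dihMap_sr, dihMap_sr, dihMap_r, hzadd, mul_assoc]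
    · rw [DihedralGroup.sr_mul_sr, dihMap_r, dihMap_sr, dihMap_sr, hzsub]
      have e1 : s * z i * (s * z j) = s * (z i * s) * z j := by group
      have e2 : s * (s * (z i)⁻¹) * z j = s * s * ((z i)⁻¹ * z j) := by group
      rw [e1, hzs, e2, hss, one_mul]
  obtain ⟨ψ, hψ⟩ : ∃ ψ : DihedralGroup 8 →* G ⧸ H, ∀ x, ψ x = dihMap s z x :=
    ⟨MonoidHom.mk' (dihMap s z) hf, fun _ => rfl⟩
  have hinj : Function.Injective ψ := by
    rw [injective_iff_map_eq_one]
    rintro (i | i) hx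
    · rw [hψ, dihMap_r, hz] at hx
      have hi0 : i.val = 0 := by
        by_contra hne
        refine hd1 i.val (Nat.pos_of_ne_zero hne) (ZMod.val_lt i)
          ((QuotientGroup.eq_one_iff _).mp ?_)
        rw [QuotientGroup.mk_pow, ← hc_def]
        exact hx
      exact (congrArg DihedralGroup.r ((ZMod.val_eq_zero i).mp hi0)).trans DihedralGroup.r_zero
    · exfalso
      rw [hψ, dihMap_sr, hz] at hx
      refine hd2 i.val (ZMod.val_lt i) ((QuotientGroup.eq_one_iff _).mp ?_)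
      rw [QuotientGroup.mk_mul, QuotientGroup.mk_pow, ← hc_def, ← hs_def]
      exact hx
  have hsurj : Function.Surjective ψ := by
    intro q
    obtain ⟨g, rfl⟩ := QuotientGroup.mk_surjective q
    obtain ⟨j, hj, h | h⟩ := hcov g
    · refine ⟨DihedralGroup.r (j : ZMod 8), ?_⟩
      rw [hψ, dihMap_r, hz, ZMod.val_cast_of_lt hj, hc_def, ← QuotientGroup.mk_pow]
      exact QuotientGroup.eq.mpr h
    · refine ⟨DihedralGroup.sr (j : ZMod 8), ?_⟩
      rw [hψ, dihMap_sr, hz, ZMod.val_cast_of_lt hj, hc_def, hs_def, ← QuotientGroup.mk_pow,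
        ← QuotientGroup.mk_mul]
      exact QuotientGroup.eq.mpr h
  obtain ⟨e, he⟩ : ∃ e : DihedralGroup 8 ≃* G ⧸ H, ∀ x, e x = ψ x :=
    ⟨MulEquiv.ofBijective ψ ⟨hinj, hsurj⟩, fun _ => rfl⟩
  refine ⟨e.symm.toMonoidHom.comp (QuotientGroup.mk' H), ?_, ?_⟩
  · intro d
    obtain ⟨g, hg⟩ := QuotientGroup.mk_surjective (e d)
    refine ⟨g, ?_⟩
    show e.symm (QuotientGroup.mk g) = d
    rw [hg, MulEquiv.symm_apply_apply]
  · ext x
    rw [MonoidHom.mem_ker]
    show e.symm (QuotientGroup.mk x) = 1 ↔ x ∈ H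
    rw [MulEquiv.map_eq_one_iff]
    exact QuotientGroup.eq_one_iff x

section Gen
variable {F : Type*} [Field F] {D : ChevalleyDatum}

theorem wordN_id_H (hD : Seven D) (w : List ℕ) (hw : ∀ i ∈ w, i < D.rank)
    (h : ∀ s, s < D.nroots → wordApply D w s = s) :
    wordN (F := F) hD w ∈ D.diagonalSubgroup F := by
  have h1 := wordN_H_of (F := F) hD [] w (fun i hi => absurd hi List.not_mem_nil) hw
    (fun s hs => (h s hs).symm)
  rw [wordN_nil, inv_one, one_mul] at h1
  exact h1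

theorem wordN_H_id (hD : Seven D) (w : List ℕ) (hw : ∀ i ∈ w, i < D.rank)
    (h : wordN (F := F) hD w ∈ D.diagonalSubgroup F) :
    ∀ s, s < D.nroots → wordApply D w s = s := by
  have h1 : (wordN (F := F) hD [])⁻¹ * wordN hD w ∈ D.diagonalSubgroup F := by
    rw [wordN_nil, inv_one, one_mul]; exact h
  intro s hs
  exact (wordN_H_imp hD [] w (fun i hi => absurd hi List.not_mem_nil) hw h1 s hs).symm

/-- The matrix of a word of fundamental reflections maps root vectors to root vectors. -/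
theorem wordN_col (hD : Seven D) (v : List ℕ) (hv : ∀ i ∈ v, i < D.rank) (s : ℕ)
    (hs : s < D.nroots) :
    ∃ c : F, c ≠ 0 ∧
      ((wordN (F := F) hD v : GL D.Idx F) : Matrix D.Idx D.Idx F).mulVec
        (basisVec D F (D.rank + s)) = c • basisVec D F (D.rank + wordApply D v s) := by
  induction v with
  | nil =>
    refine ⟨1, one_ne_zero, ?_⟩
    show ((1 : GL D.Idx F) : Matrix D.Idx D.Idx F).mulVec (basisVec D F (D.rank + s)) =
      (1 : F) • basisVec D F (D.rank + s)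
    rw [one_smul, Units.val_one, Matrix.one_mulVec]
  | cons i rest ih =>
    have hi := hv i List.mem_cons_self
    have hrest : ∀ j ∈ rest, j < D.rank := fun j hj => hv j (List.mem_cons_of_mem _ hj)
    obtain ⟨c, hc, e⟩ := ih hrest
    have h1 := wordApply_lt hD rest hrest s hs
    have hη : ((etaAt D i (wordApply D rest s) : ℤ) : F) ≠ 0 := by
      rcases eta_F_cases (F := F) hD i hi _ h1 with h | h <;> rw [h] <;> simp
    refine ⟨c * ((etaAt D i (wordApply D rest s) : ℤ) : F), mul_ne_zero hc hη, ?_⟩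
    rw [wordN_cons, Units.val_mul, nG_val, ← Matrix.mulVec_mulVec, e, Matrix.mulVec_smul,
      nMat_col_root7 hD i hi _ h1, smul_smul, wordApply_cons, wAt_eq7 hD i hi _ h1]

/-- The columns at the roots of an element of `N`. -/
theorem N_col (hD : Seven D) (h : GL D.Idx F) (hh : h ∈ D.diagonalSubgroup F)
    (v : List ℕ) (hv : ∀ i ∈ v, i < D.rank) (s : ℕ) (hs : s < D.nroots) :
    ∃ c : F, c ≠ 0 ∧ ∀ a : D.Idx,
      ((h * wordN hD v : GL D.Idx F) : Matrix D.Idx D.Idx F) a (Sum.inr ⟨s, hs⟩) =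
        if code D a = D.rank + wordApply D v s then c else 0 := by
  obtain ⟨c, hc, e⟩ := wordN_col (F := F) hD v hv s hs
  have hfs := wordApply_lt hD v hv s hs
  have b1 : basisVec D F (D.rank + s) = Pi.single (Sum.inr ⟨s, hs⟩) 1 := basisVec_inr D ⟨s, hs⟩
  have b2 : basisVec D F (D.rank + wordApply D v s) =
      Pi.single (Sum.inr ⟨wordApply D v s, hfs⟩) 1 := basisVec_inr D ⟨_, hfs⟩
  rw [b1, b2, Matrix.mulVec_single_one] at e
  have hW : ∀ x : D.Idx, ((wordN (F := F) hD v : GL D.Idx F) : Matrix D.Idx D.Idx F) x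
      (Sum.inr ⟨s, hs⟩) =
      (c • (Pi.single (Sum.inr ⟨wordApply D v s, hfs⟩) (1 : F) : D.Idx → F)) x :=
    fun x => congrFun e x
  have hW1 : ((wordN (F := F) hD v : GL D.Idx F) : Matrix D.Idx D.Idx F)
      (Sum.inr ⟨wordApply D v s, hfs⟩) (Sum.inr ⟨s, hs⟩) = c := by
    rw [hW, Pi.smul_apply, Pi.single_eq_same, smul_eq_mul, mul_one]
  have hW0 : ∀ x : D.Idx, x ≠ Sum.inr ⟨wordApply D v s, hfs⟩ →
      ((wordN (F := F) hD v : GL D.Idx F) : Matrix D.Idx D.Idx F) x (Sum.inr ⟨s, hs⟩) = 0 := by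
    intro x hx
    rw [hW, Pi.smul_apply, Pi.single_eq_of_ne hx, smul_zero]
  refine ⟨dEnt h (wordApply D v s) * c, mul_ne_zero (dEnt_ne_zero hD h hh _ hfs) hc, fun a => ?_⟩
  rw [Units.val_mul, Matrix.mul_apply, Finset.sum_eq_single (Sum.inr ⟨wordApply D v s, hfs⟩)]
  · rw [hW1]
    by_cases ha : code D a = D.rank + wordApply D v s
    · have ha' : a = Sum.inr ⟨wordApply D v s, hfs⟩ :=
        code_inj D a (Sum.inr ⟨wordApply D v s, hfs⟩) ha
      rw [if_pos ha, ha']
      unfold dEnt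
      rw [dif_pos hfs]
    · rw [if_neg ha]
      have hne : a ≠ Sum.inr ⟨wordApply D v s, hfs⟩ := fun e' => ha (by subst e'; rfl)
      rw [H_le_diag hD hh _ _ hne, zero_mul]
  · intro x _ hx
    rw [hW0 x hx, mul_zero]
  · intro h'
    exact absurd (Finset.mem_univ _) h'

end Gen

section F4W
variable {K : Type*} [Field K]

/-- An element of `N` fixed by the twisting operator permutes the roots compatibly with `ρ`. -/
theorem f4_N_rho (φ : K →+* K) (n : GL chevF4.Idx K)
    (hfix : n ∈ fixSub (opMat chevF4 K f4Qbig) φ) (f : ℕ → ℕ)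
    (hcol : ∀ s (hs : s < chevF4.nroots), ∃ c : K, c ≠ 0 ∧ ∀ a : chevF4.Idx,
      (n : Matrix chevF4.Idx chevF4.Idx K) a (Sum.inr ⟨s, hs⟩) =
        if code chevF4 a = chevF4.rank + f s then c else 0)
    (hf : ∀ s, s < chevF4.nroots → f s < chevF4.nroots)
    (r r' : ℕ) (hr : r < chevF4.nroots) (hr' : r' < chevF4.nroots)
    (e : f4Qperm.getD (chevF4.rank + r) 0 = chevF4.rank + r')
    (hsg : isPM1 (f4Qsgn.getD (chevF4.rank + r) 0) = true) :
    f r' = f4rho.getD (f r) 0 := by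
  have hQ := mono_sound (D := chevF4) (K := K) f4Qbig f4Qperm f4Qsgn f4QMono
  obtain ⟨c, hc, hn⟩ := hcol r hr
  obtain ⟨c', hc', hn'⟩ := hcol r' hr'
  have hfr := hf r hr
  have hfr' := hf r' hr'
  have cr : ∀ (s : ℕ) (hs : s < chevF4.nroots),
      code chevF4 (Sum.inr ⟨s, hs⟩ : chevF4.Idx) = chevF4.rank + s := fun _ _ => rfl
  have q1 : ∀ x : chevF4.Idx, opMat chevF4 K f4Qbig x (Sum.inr ⟨r, hr⟩) =
      if code chevF4 x = chevF4.rank + r' then ((f4Qsgn.getD (chevF4.rank + r) 0 : ℤ) : K)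
      else 0 := by
    intro x
    rw [hQ, cr, e]
  have q2 : ∀ x : chevF4.Idx, opMat chevF4 K f4Qbig (Sum.inr ⟨f r', hfr'⟩) x =
      if chevF4.rank + f r' = f4Qperm.getD (code chevF4 x) 0 then
        ((f4Qsgn.getD (code chevF4 x) 0 : ℤ) : K) else 0 := by
    intro x
    rw [hQ, cr]
  have eL : ((n : Matrix chevF4.Idx chevF4.Idx K) * opMat chevF4 K f4Qbig)
      (Sum.inr ⟨f r', hfr'⟩) (Sum.inr ⟨r, hr⟩) =
      c' * ((f4Qsgn.getD (chevF4.rank + r) 0 : ℤ) : K) := by
    rw [Matrix.mul_apply, Finset.sum_eq_single (Sum.inr ⟨r', hr'⟩)]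
    · rw [hn', cr, if_pos (rfl : chevF4.rank + f r' = chevF4.rank + f r'), q1, cr,
        if_pos (rfl : chevF4.rank + r' = chevF4.rank + r')]
    · intro x _ hx
      have hx' : ¬ (code chevF4 x = chevF4.rank + r') :=
        fun ex => hx (code_inj chevF4 x (Sum.inr ⟨r', hr'⟩) ex)
      rw [q1, if_neg hx', mul_zero]
    · intro h'
      exact absurd (Finset.mem_univ _) h'
  have eR : (opMat chevF4 K f4Qbig * (n : Matrix chevF4.Idx chevF4.Idx K).map φ)
      (Sum.inr ⟨f r', hfr'⟩) (Sum.inr ⟨r, hr⟩) =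
      (if chevF4.rank + f r' = f4Qperm.getD (chevF4.rank + f r) 0 then
        ((f4Qsgn.getD (chevF4.rank + f r) 0 : ℤ) : K) else 0) * φ c := by
    rw [Matrix.mul_apply, Finset.sum_eq_single (Sum.inr ⟨f r, hfr⟩)]
    · rw [q2, cr, Matrix.map_apply, hn, cr,
        if_pos (rfl : chevF4.rank + f r = chevF4.rank + f r)]
    · intro x _ hx
      have hx' : ¬ (code chevF4 x = chevF4.rank + f r) :=
        fun ex => hx (code_inj chevF4 x (Sum.inr ⟨f r, hfr⟩) ex)
      rw [Matrix.map_apply, hn, if_neg hx', map_zero, mul_zero]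
    · intro h'
      exact absurd (Finset.mem_univ _) h'
  have h1 := congrFun (congrFun ((mem_fixSub _ _ _).mp hfix) (Sum.inr ⟨f r', hfr'⟩))
    (Sum.inr ⟨r, hr⟩)
  rw [eL, eR] at h1
  have hne : c' * ((f4Qsgn.getD (chevF4.rank + r) 0 : ℤ) : K) ≠ 0 :=
    mul_ne_zero hc' (pm1_ne_zero _ hsg)
  by_cases hcond : chevF4.rank + f r' = f4Qperm.getD (chevF4.rank + f r) 0
  · rw [if_pos hcond] at h1
    have hs0 : f4Qsgn.getD (chevF4.rank + f r) 0 ≠ 0 := by
      intro h0
      rw [h0, Int.cast_zero, zero_mul] at h1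
      exact hne h1
    have h3 := f4_sgn_rho (f r) hfr hs0
    rw [h3] at hcond
    exact Nat.add_left_cancel hcond
  · rw [if_neg hcond, zero_mul] at h1
    exact absurd h1 hne

theorem f4_word_pair (hD : Seven chevF4) (v : List ℕ) (hv : ∀ i ∈ v, i < chevF4.rank) :
    ∀ r s, r < chevF4.nroots → s < chevF4.nroots →
      chevF4.pairing (wordApply chevF4 v r) (wordApply chevF4 v s) = chevF4.pairing r s := by
  induction v with
  | nil => intro r s _ _; rfl
  | cons i rest ih =>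
    intro r s hr hs
    have hi := hv i List.mem_cons_self
    have hrest : ∀ j ∈ rest, j < chevF4.rank := fun j hj => hv j (List.mem_cons_of_mem _ hj)
    have h1 := of_decide_eq_true ((allN_spec _ _).mp ((allN_spec _ _).mp
      ((allN_spec _ _).mp f4_pair_inv i hi) _ (wordApply_lt hD rest hrest r hr)) _
      (wordApply_lt hD rest hrest s hs))
    rw [wordApply_cons, wordApply_cons, h1]
    exact ih hrest r s hr hs

/-- A word is determined by its action on the fundamental roots. -/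
theorem f4_word_det (hD : Seven chevF4) (v w : List ℕ) (hv : ∀ i ∈ v, i < chevF4.rank)
    (hw : ∀ i ∈ w, i < chevF4.rank)
    (h : ∀ i, i < chevF4.rank →
      wordApply chevF4 w (chevF4.simple i) = wordApply chevF4 v (chevF4.simple i)) :
    ∀ s, s < chevF4.nroots → wordApply chevF4 w s = wordApply chevF4 v s := by
  intro s hs
  have hvr : ∀ i ∈ v.reverse, i < chevF4.rank := fun i hi => hv i (List.mem_reverse.mp hi)
  have hws := wordApply_lt hD w hw s hs
  have hu := wordApply_lt hD v.reverse hvr _ hws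
  have key : wordApply chevF4 v.reverse (wordApply chevF4 w s) = s := by
    by_contra hne
    have t := (allN_spec _ _).mp ((allN_spec _ _).mp f4_pair_det _ hu) s hs
    rw [beq_false_of_ne hne, cond_false] at t
    obtain ⟨i, hi, h2⟩ := (anyN_spec _ _).mp t
    have hp := simple_lt7 hD i hi
    have h3 : chevF4.pairing (chevF4.simple i)
        (wordApply chevF4 v.reverse (wordApply chevF4 w s)) =
        chevF4.pairing (chevF4.simple i) s := by
      rw [← f4_word_pair hD v hv _ _ hp hu, wordApply_reverse hD v hv _ hws, ← h i hi,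
        f4_word_pair hD w hw _ _ hp hs]
    simp [h3] at h2
  have e := congrArg (wordApply chevF4 v) key
  rw [wordApply_reverse hD v hv _ hws] at e
  exact e

theorem f4pw_lt : ∀ j, ∀ i ∈ f4pw j, i < chevF4.rank := by
  intro j
  induction j with
  | zero => intro i hi; exact absurd hi List.not_mem_nil
  | succ j ih =>
    intro i hi
    rw [f4pw_succ] at hi
    rcases List.mem_append.mp hi with h | h
    · unfold f4AB at h
      simp only [List.mem_cons, List.mem_nil_iff, or_false] at h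
      rcases h with rfl | rfl | rfl | rfl | rfl | rfl <;> decide
    · exact ih i h

theorem f4aw_lt : ∀ j, ∀ i ∈ f4aw j, i < chevF4.rank := by
  intro j i hi
  unfold f4aw at hi
  rcases List.mem_append.mp hi with h | h
  · simp only [List.mem_cons, List.mem_nil_iff, or_false] at h
    rcases h with rfl | rfl <;> decide
  · exact f4pw_lt j i h

theorem f4_nA_mem (hD : Seven chevF4) (θ : ℕ) (hθ : IsFrob K θ) :
    wordN (F := K) hD [0, 3] ∈ twistedF4 K θ := by
  obtain ⟨n33, n24⟩ := f4_facts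
  obtain ⟨s0, s1, s2, s3, -, -⟩ := f4_facts3
  have gen1 : ∀ t : K, xG hD 33 (t ^ θ) * xG hD 24 t ∈ twistedF4 K θ := by
    intro t
    rw [← wG_two]
    exact mem_gen hD _ _ (Or.inl ⟨t, Or.inl rfl⟩)
  have gen2 : ∀ t : K, xG hD 14 (t ^ θ) * xG hD 23 t ∈ twistedF4 K θ := by
    intro t
    rw [← wG_two]
    exact mem_gen hD _ _ (Or.inl ⟨t, Or.inr rfl⟩)
  have hX : ∀ t : K, clsX hD [(33, θ), (24, 1)] t = xG hD 33 (t ^ θ) * xG hD 24 t := by
    intro t
    simp only [clsX, List.map_cons, List.map_nil, List.prod_cons, List.prod_nil, pow_one, mul_one]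
  have hXn : ∀ t : K, clsX hD (negCls chevF4 [(33, θ), (24, 1)]) t =
      xG hD 14 (t ^ θ) * xG hD 23 t := by
    intro t
    simp only [clsX, negCls, List.map_cons, List.map_nil, List.prod_cons, List.prod_nil, pow_one,
      mul_one, n33, n24]
  have hc : ([(33, θ), (24, 1)] : List (ℕ × ℕ)).Pairwise
      (fun p p' => SOrth hD K p.1 p'.1) :=
    List.pairwise_pair.mpr (sorth_of_OK hD 33 24 f4_orth)
  have hf : ∀ p ∈ ([(33, θ), (24, 1)] : List (ℕ × ℕ)), IsFrob K p.2 :=
    forall_mem2 hθ (isFrob_one K)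
  have h1 : ∀ t : K, clsX hD [(33, θ), (24, 1)] t ∈ twistedF4 K θ := fun t => by
    rw [hX]; exact gen1 t
  have h1n : ∀ t : K, clsX hD (negCls chevF4 [(33, θ), (24, 1)]) t ∈ twistedF4 K θ := fun t => by
    rw [hXn]; exact gen2 t
  have h := (clsH_mem hD (twistedF4 K θ) [(33, θ), (24, 1)] hc hf h1 h1n 1).1
  have e : clsN hD [(33, θ), (24, 1)] (1 : K) = nG hD 33 1 * nG hD 24 1 := by
    simp only [clsN, List.map_cons, List.map_nil, List.prod_cons, List.prod_nil, one_pow,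
      mul_one]
  rw [e] at h
  have e2 : wordN (F := K) hD [0, 3] = nG hD 33 1 * nG hD 24 1 := by
    show nG hD (chevF4.simple 0) 1 * (nG hD (chevF4.simple 3) 1 * 1) = _
    rw [s0, s3, mul_one]
  rw [e2]
  exact h

end F4W

/-- `N¹ = N ∩ ²F₄`. -/
abbrev F4N1 (K : Type*) [Field K] (θ : ℕ) : Subgroup (GL chevF4.Idx K) :=
  chevF4.monomialSubgroup K ⊓ twistedF4 K θ

/-- `H¹ = H ∩ ²F₄` as a subgroup of `N¹`. -/
abbrev F4H1 (K : Type*) [Field K] (θ : ℕ) : Subgroup ↥(F4N1 K θ) :=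
  (chevF4.diagonalSubgroup K ⊓ twistedF4 K θ).subgroupOf (F4N1 K θ)

theorem f4_weyl {K : Type*} [Field K] [Fintype K] {m : ℕ}
    (hK : Fintype.card K = 2 ^ (2 * m + 1)) :
    ∃ φ : ↥(chevF4.monomialSubgroup K ⊓ twistedF4 K (2 ^ m)) →* DihedralGroup 8,
      Function.Surjective φ ∧
      φ.ker = (chevF4.diagonalSubgroup K ⊓ twistedF4 K (2 ^ m)).subgroupOf
        (chevF4.monomialSubgroup K ⊓ twistedF4 K (2 ^ m)) := by
  classical
  have hD : Seven chevF4 := by simp
  haveI hch : CharP K 2 := charP_of_card Nat.prime_two hK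
  haveI : Fact (Nat.Prime 2) := ⟨Nat.prime_two⟩
  have h2 : (2 : K) = 0 := by
    have h := CharP.cast_eq_zero K 2
    exact_mod_cast h
  have h2z : ((2 : ℤ) : K) = 0 := by exact_mod_cast h2
  have hθ : IsFrob K (2 ^ m) := isFrob_pow 2 m
  have hq : ∀ t : K, ((t ^ 2 ^ m) ^ 2 ^ m) ^ 2 = t := by
    intro t
    rw [← pow_mul, ← pow_mul]
    have e : 2 ^ m * (2 ^ m * 2) = Fintype.card K := by rw [hK]; ring
    rw [e]; exact FiniteField.pow_card t
  have hS := f4_le_fix hD (2 ^ m) h2z hθ hq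
  obtain ⟨d1, d2, d3, d4, rk⟩ := f4_dfacts
  obtain ⟨s0, s1, s2, s3, -, -⟩ := f4_facts3
  have hwA : ∀ i ∈ ([0, 3] : List ℕ), i < chevF4.rank := by
    intro i hi
    simp only [List.mem_cons, List.mem_nil_iff, or_false] at hi
    rcases hi with rfl | rfl <;> decide
  have hA_G := f4_nA_mem (K := K) hD (2 ^ m) hθ
  have hB_G := f4_nB_mem (K := K) hD (2 ^ m) hθ.1 h2z
  have hpw : ∀ j, wordN (F := K) hD (f4pw j) =
      (wordN hD [0, 3] * wordN hD [1, 2, 1, 2]) ^ j := by
    intro j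
    induction j with
    | zero => exact (wordN_nil hD).trans (pow_zero _).symm
    | succ j ih =>
      rw [f4pw_succ, show f4AB = [0, 3] ++ [1, 2, 1, 2] from rfl, wordN_append, wordN_append, ih,
        pow_succ']
  have haw : ∀ j, wordN (F := K) hD (f4aw j) =
      wordN hD [0, 3] * (wordN hD [0, 3] * wordN hD [1, 2, 1, 2]) ^ j := by
    intro j
    rw [← hpw j]
    exact wordN_append hD [0, 3] (f4pw j)
  haveI hnorm : (F4H1 K (2 ^ m)).Normal := ⟨fun x hx g => by
    rw [Subgroup.mem_subgroupOf] at hx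
    rw [Subgroup.mem_subgroupOf, Subgroup.coe_mul, Subgroup.coe_mul, Subgroup.coe_inv]
    exact Subgroup.mem_inf.mpr ⟨N_conj_H hD g.2.1 hx.1,
      mul_mem (mul_mem g.2.2 hx.2) (inv_mem g.2.2)⟩⟩
  have memH : ∀ x : ↥(F4N1 K (2 ^ m)),
      x ∈ F4H1 K (2 ^ m) ↔ (x : GL chevF4.Idx K) ∈ chevF4.diagonalSubgroup K := by
    intro x
    rw [Subgroup.mem_subgroupOf]
    exact ⟨fun h => h.1, fun h => Subgroup.mem_inf.mpr ⟨h, x.2.2⟩⟩
  obtain ⟨a, ha⟩ : ∃ a : ↥(F4N1 K (2 ^ m)), (a : GL chevF4.Idx K) = wordN hD [0, 3] :=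
    ⟨⟨wordN hD [0, 3], Subgroup.mem_inf.mpr ⟨wordN_mem hD _ hwA, hA_G⟩⟩, rfl⟩
  obtain ⟨b, hb⟩ : ∃ b : ↥(F4N1 K (2 ^ m)), (b : GL chevF4.Idx K) = wordN hD [1, 2, 1, 2] :=
    ⟨⟨wordN hD [1, 2, 1, 2], Subgroup.mem_inf.mpr ⟨wordN_mem hD _ f4_w1212, hB_G⟩⟩, rfl⟩
  have cpw : ∀ j, (((a * b) ^ j : ↥(F4N1 K (2 ^ m))) : GL chevF4.Idx K) =
      wordN hD (f4pw j) := by
    intro j
    rw [hpw, Subgroup.coe_pow, Subgroup.coe_mul, ha, hb]
  have caw : ∀ j, ((a * (a * b) ^ j : ↥(F4N1 K (2 ^ m))) : GL chevF4.Idx K) =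
      wordN hD (f4aw j) := by
    intro j
    rw [haw, Subgroup.coe_mul, Subgroup.coe_pow, Subgroup.coe_mul, ha, hb]
  have h1 : a * a ∈ F4H1 K (2 ^ m) := by
    rw [memH, Subgroup.coe_mul, ha, ← wordN_append]
    exact wordN_id_H hD _ (fun i hi => by
        rcases List.mem_append.mp hi with h | h <;> exact hwA i h)
      (fun s hs => (beq_iff _ _).mp ((allN_spec _ _).mp f4_w_id1 s hs))
  have h2' : (a * b) ^ 8 ∈ F4H1 K (2 ^ m) := by
    rw [memH, cpw]
    exact wordN_id_H hD _ (f4pw_lt 8)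
      (fun s hs => (beq_iff _ _).mp ((allN_spec _ _).mp f4_w_id2 s hs))
  have h3 : a * (a * b) * (a * (a * b)) ∈ F4H1 K (2 ^ m) := by
    have c1 : ((a * (a * b) : ↥(F4N1 K (2 ^ m))) : GL chevF4.Idx K) = wordN hD (f4aw 1) := by
      have h := caw 1
      rw [pow_one] at h
      exact h
    rw [memH, Subgroup.coe_mul, c1, ← wordN_append]
    exact wordN_id_H hD _ (fun i hi => by
        rcases List.mem_append.mp hi with h | h <;> exact f4aw_lt 1 i h)
      (fun s hs => (beq_iff _ _).mp ((allN_spec _ _).mp f4_w_id3 s hs))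
  have hd1 : ∀ j : ℕ, 0 < j → j < 8 → (a * b) ^ j ∉ F4H1 K (2 ^ m) := by
    intro j hj0 hj8 hmem
    rw [memH, cpw] at hmem
    have hid := wordN_H_id hD (f4pw j) (f4pw_lt j) hmem
    have t := (allN_spec _ _).mp f4_w_ne1 j hj8
    rw [beq_false_of_ne hj0.ne', cond_false] at t
    obtain ⟨s, hs, hne⟩ := (anyN_spec _ _).mp t
    rw [(beq_iff _ _).mpr (hid s hs), cond_true] at hne
    exact Bool.false_ne_true hne
  have hd2 : ∀ j : ℕ, j < 8 → a * (a * b) ^ j ∉ F4H1 K (2 ^ m) := by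
    intro j hj8 hmem
    rw [memH, caw] at hmem
    have hid := wordN_H_id hD (f4aw j) (f4aw_lt j) hmem
    obtain ⟨s, hs, hne⟩ := (anyN_spec _ _).mp ((allN_spec _ _).mp f4_w_ne2 j hj8)
    rw [(beq_iff _ _).mpr (hid s hs), cond_true] at hne
    exact Bool.false_ne_true hne
  have hcov : ∀ g : ↥(F4N1 K (2 ^ m)), ∃ j : ℕ, j < 8 ∧
      (((a * b) ^ j)⁻¹ * g ∈ F4H1 K (2 ^ m) ∨ (a * (a * b) ^ j)⁻¹ * g ∈ F4H1 K (2 ^ m)) := by
    intro g
    obtain ⟨h, hh, v, hv, e⟩ := N_word_form hD (g : GL chevF4.Idx K) g.2.1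
    have hcol : ∀ s (hs : s < chevF4.nroots), ∃ c : K, c ≠ 0 ∧ ∀ x : chevF4.Idx,
        ((g : GL chevF4.Idx K) : Matrix chevF4.Idx chevF4.Idx K) x (Sum.inr ⟨s, hs⟩) =
          if code chevF4 x = chevF4.rank + wordApply chevF4 v s then c else 0 := by
      intro s hs
      rw [e]
      exact N_col hD h hh v hv s hs
    have hlt : ∀ s, s < chevF4.nroots → wordApply chevF4 v s < chevF4.nroots :=
      fun s hs => wordApply_lt hD v hv s hs
    have hfix := hS g.2.2
    have e33 : wordApply chevF4 v 33 = f4rho.getD (wordApply chevF4 v 24) 0 :=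
      f4_N_rho (frobHom hθ) _ hfix (wordApply chevF4 v) hcol hlt 24 33 (by decide) (by decide)
        d1 d2
    have e27 : wordApply chevF4 v 27 = f4rho.getD (wordApply chevF4 v 25) 0 :=
      f4_N_rho (frobHom hθ) _ hfix (wordApply chevF4 v) hcol hlt 25 27 (by decide) (by decide)
        d3 d4
    have inv := f4_word_pair hD v hv
    have hF : ∀ i, i < chevF4.rank →
        f4img (wordApply chevF4 v 25) (wordApply chevF4 v 24) i =
          wordApply chevF4 v (chevF4.simple i) := by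
      intro i hi
      have hi' : i < 4 := hi
      interval_cases i
      · show f4rho.getD (wordApply chevF4 v 24) 0 = wordApply chevF4 v (chevF4.simple 0)
        rw [s0]; exact e33.symm
      · show f4rho.getD (wordApply chevF4 v 25) 0 = wordApply chevF4 v (chevF4.simple 1)
        rw [s1]; exact e27.symm
      · show wordApply chevF4 v 25 = wordApply chevF4 v (chevF4.simple 2)
        rw [s2]
      · show wordApply chevF4 v 24 = wordApply chevF4 v (chevF4.simple 3)
        rw [s3]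
    have hcand : f4cand (wordApply chevF4 v 25) (wordApply chevF4 v 24) = true := by
      unfold f4cand
      refine (allN_spec _ _).mpr (fun i hi => (allN_spec _ _).mpr (fun j hj =>
        decide_eq_true ?_))
      rw [hF i hi, hF j hj]
      exact inv _ _ (simple_lt7 hD i hi) (simple_lt7 hD j hj)
    have t6 := (allN_spec _ _).mp ((allN_spec _ _).mp f4_class _ (hlt 25 (by decide))) _
      (hlt 24 (by decide))
    rw [hcand, cond_true] at t6
    obtain ⟨j, hj, hjw⟩ := (anyN_spec _ _).mp t6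
    refine ⟨j, hj, ?_⟩
    simp only [Bool.or_eq_true] at hjw
    have conj : ∀ w : List ℕ, (∀ i ∈ w, i < chevF4.rank) →
        (∀ i, i < chevF4.rank → wordApply chevF4 w (chevF4.simple i) =
          f4img (wordApply chevF4 v 25) (wordApply chevF4 v 24) i) →
        (wordN (F := K) hD w)⁻¹ * (h * wordN hD v) ∈ chevF4.diagonalSubgroup K := by
      intro w hw hw4
      have det := f4_word_det hD v w hv hw (fun i hi => (hw4 i hi).trans (hF i hi))
      have hH := wordN_H_of (F := K) hD w v hw hv det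
      have e1 : (wordN (F := K) hD w)⁻¹ * (h * wordN hD v) =
          ((wordN hD w)⁻¹ * h * ((wordN hD w)⁻¹)⁻¹) * ((wordN hD w)⁻¹ * wordN hD v) := by group
      rw [e1]
      exact mul_mem (N_conj_H hD (inv_mem (wordN_mem hD w hw)) hh) hH
    rcases hjw with hp | hp
    · left
      rw [memH, Subgroup.coe_mul, Subgroup.coe_inv, cpw, e]
      exact conj _ (f4pw_lt j) (fun i hi => (beq_iff _ _).mp ((allN_spec _ _).mp hp i hi))
    · right
      rw [memH, Subgroup.coe_mul, Subgroup.coe_inv, caw, e]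
      exact conj _ (f4aw_lt j) (fun i hi => (beq_iff _ _).mp ((allN_spec _ _).mp hp i hi))
  exact dihedral8_hom (F4H1 K (2 ^ m)) a b h1 h2' h3 hd1 hd2 hcov

end Cfsg.Agent.Helper11
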