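import Cfsg.Agent.Helper11.ChevTwH
import Cfsg.Agent.Helper11.ChevTwUD4
import Cfsg.Agent.Helper11.ChevTorusAll

set_option autoImplicit false

/-!
The order of `H ∩ ³D₄(q)`.
-/

namespace Cfsg.Agent.Helper11

open Cfsg.Lie

set_option maxRecDepth 100000 in
set_option maxHeartbeats 0 in
theorem d4_facts3 : chevD4.pairing 14 18 = -1 ∧ chevD4.pairing 18 14 = -1 ∧
    chevD4.pairing 13 14 = -1 ∧ chevD4.pairing 12 14 = -1 ∧
    chevD4.pairing 18 18 = 2 ∧ chevD4.pairing 13 18 = 0 ∧ chevD4.pairing 12 18 = 0 ∧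
    chevD4.pairing 14 14 = 2 := by decide +kernel

set_option maxRecDepth 100000 in
set_option maxHeartbeats 0 in
theorem d4_facts4 : twPerm_D4.getD (chevD4.rank + 14) 0 = chevD4.rank + 14 ∧
    twPerm_D4.getD (chevD4.rank + 18) 0 = chevD4.rank + 13 ∧
    twPerm_D4.getD (chevD4.rank + 13) 0 = chevD4.rank + 12 ∧
    isPM1 (twSgn_D4.getD (chevD4.rank + 14) 0) = true ∧
    isPM1 (twSgn_D4.getD (chevD4.rank + 18) 0) = true ∧
    isPM1 (twSgn_D4.getD (chevD4.rank + 13) 0) = true ∧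
    (18 < chevD4.nroots) ∧ chevD4.rank = 4 := by decide +kernel

theorem d4_le_fix {K : Type*} [Field K] [Fintype K] {q : ℕ} (hq : IsPrimePow q)
    (hK : Fintype.card K = q ^ 3) (hfr : IsFrob K q) :
    twistedD4 K q ≤ fixSub (opMat chevD4 K gaBig_D4a) (frobHom hfr) := by
  have hD : Seven chevD4 := by simp
  have hqqq : ∀ t : K, ((t ^ q) ^ q) ^ q = t := fun t => by
    rw [← pow_mul, ← pow_mul, show q * (q * q) = q ^ 3 by ring, ← hK]
    exact FiniteField.pow_card t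
  have hsq : ∀ t : K, t ^ (q ^ 2) = (t ^ q) ^ q := fun t => by rw [← pow_mul, sq]
  have hφ3 : ∀ t : K, frobHom hfr (frobHom hfr (frobHom hfr t)) = t := fun t => hqqq t
  obtain ⟨p1, p2, p3, p4, p5, p6, p7, p8⟩ := d4_permOKs
  obtain ⟨n18, n13, n12, n14, s0, s1, s2, s3, r1, r2, r3, r4, r5⟩ := d4_facts
  obtain ⟨o1, o2, o3⟩ := d4_orth
  have so1 := sorth_of_OK (K := K) hD 18 13 o1
  have so2 := sorth_of_OK (K := K) hD 18 12 o2
  have so3 := sorth_of_OK (K := K) hD 13 12 o3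
  apply gen_le hD
  intro w hw
  rcases hw with ⟨t, ht, r, hr, rfl⟩ | ⟨t, rs, hrs, rfl⟩
  · rw [wG_one]
    simp only [List.mem_cons, List.mem_nil_iff, or_false] at hr
    rcases hr with rfl | rfl
    · exact fix_single hD _ _ 14 p7 t ht
    · exact fix_single hD _ _ 9 p8 t ht
  · rw [wG_three]
    simp only [List.mem_cons, List.mem_nil_iff, or_false] at hrs
    rcases hrs with rfl | rfl
    · show xG hD 18 t * (xG hD 13 (t ^ q) * xG hD 12 (t ^ (q ^ 2))) ∈ _
      rw [hsq]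
      exact fix_triple hD _ _ 18 13 12 p1 p2 p3 (fun t u => ((so2 u t).1).symm)
        (fun t u => ((so3 u t).1).symm) t (hφ3 t)
    · show xG hD 5 t * (xG hD 10 (t ^ q) * xG hD 11 (t ^ (q ^ 2))) ∈ _
      rw [hsq]
      exact fix_triple hD _ _ 5 10 11 p4 p5 p6 (fun t u => by
          have h := (so2 u t).2.2.2
          rw [n18, n12] at h
          exact h.symm)
        (fun t u => by
          have h := (so3 u t).2.2.2
          rw [n13, n12] at h
          exact h.symm) t (hφ3 t)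

/-- The torus elements of `³D₄(q)`. -/
theorem d4_h_mem {K : Type*} [Field K] [Fintype K] {q : ℕ} (hq : IsPrimePow q)
    (hK : Fintype.card K = q ^ 3) (hD : Seven chevD4) (a b : K) (haq : a ^ q = a) :
    hG hD 14 a * (hG hD 18 b * (hG hD 13 (b ^ q) * hG hD 12 (b ^ (q ^ 2)))) ∈
      twistedD4 K q := by
  have hfr : IsFrob K q := isFrob_of_card hq hK
  have hfr2 : IsFrob K (q ^ 2) := by rw [sq]; exact hfr.mul hfr
  obtain ⟨n18, n13, n12, n14, s0, s1, s2, s3, r1, r2, r3, r4, r5⟩ := d4_facts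
  obtain ⟨o1, o2, o3⟩ := d4_orth
  have gen1 : ∀ t : K, t ^ q = t → ∀ r ∈ [d4p2, d4m2], xG hD r t ∈ twistedD4 K q := by
    intro t ht r hr
    rw [← wG_one]
    exact mem_gen hD _ _ (Or.inl ⟨t, ht, r, hr, rfl⟩)
  have gen2 : ∀ t : K, ∀ rs ∈ [(d4p1, d4p3, d4p4), (d4m1, d4m3, d4m4)],
      xG hD rs.1 t * (xG hD rs.2.1 (t ^ q) * xG hD rs.2.2 (t ^ (q ^ 2))) ∈ twistedD4 K q := by
    intro t rs hrs
    rw [← wG_three]
    exact mem_gen hD _ _ (Or.inr ⟨t, rs, hrs, rfl⟩)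
  have g14 : ∀ t : K, t ^ q = t → xG hD 14 t ∈ twistedD4 K q :=
    fun t ht => gen1 t ht d4p2 (by simp)
  have g9 : ∀ t : K, t ^ q = t → xG hD 9 t ∈ twistedD4 K q :=
    fun t ht => gen1 t ht d4m2 (by simp)
  have fni : ∀ t : K, t ^ q = t → (-t⁻¹) ^ q = -t⁻¹ := fun t ht => by
    rw [hfr.neg, inv_pow, ht]
  have hm1 : (-1 : K) ^ q = -1 := by rw [hfr.neg, one_pow]
  have hn : ∀ t : K, t ^ q = t → nG hD 14 t ∈ twistedD4 K q := fun t ht => by
    rw [nG_eq, n14]
    exact mul_mem (mul_mem (g14 t ht) (g9 _ (fni t ht))) (g14 t ht)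
  have h14 : hG hD 14 a ∈ twistedD4 K q := by
    rw [hG_eq]; exact mul_mem (hn a haq) (hn (-1) hm1)
  have hX : ∀ t : K, clsX hD [(18, 1), (13, q), (12, q ^ 2)] t =
      xG hD 18 t * (xG hD 13 (t ^ q) * xG hD 12 (t ^ (q ^ 2))) := by
    intro t
    simp only [clsX, List.map_cons, List.map_nil, List.prod_cons, List.prod_nil, pow_one, mul_one]
  have hXn : ∀ t : K, clsX hD (negCls chevD4 [(18, 1), (13, q), (12, q ^ 2)]) t =
      xG hD (chevD4.neg 18) t * (xG hD (chevD4.neg 13) (t ^ q) *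
        xG hD (chevD4.neg 12) (t ^ (q ^ 2))) := by
    intro t
    simp only [clsX, negCls, List.map_cons, List.map_nil, List.prod_cons, List.prod_nil, pow_one,
      mul_one]
  have h := (clsH_mem hD (twistedD4 K q) [(18, 1), (13, q), (12, q ^ 2)]
    (pairwise3 (sorth_of_OK hD 18 13 o1) (sorth_of_OK hD 18 12 o2) (sorth_of_OK hD 13 12 o3))
    (forall_mem3 (isFrob_one K) hfr hfr2)
    (fun t => by rw [hX]; exact gen2 t (d4p1, d4p3, d4p4) (by simp))
    (fun t => by rw [hXn, n18, n13, n12]; exact gen2 t (d4m1, d4m3, d4m4) (by simp)) b).2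
  have e : clsH hD [(18, 1), (13, q), (12, q ^ 2)] b =
      hG hD 18 b * (hG hD 13 (b ^ q) * hG hD 12 (b ^ (q ^ 2))) := by
    simp only [clsH, List.map_cons, List.map_nil, List.prod_cons, List.prod_nil, pow_one, mul_one]
  rw [e] at h
  exact mul_mem h14 h

/-- The algebra behind the injectivity of the torus parametrisation. -/
theorem d4_tor_inj {K : Type*} [Field K] (q : ℕ) (hneg : ∀ x : K, (-x) ^ q = -(x ^ q))
    (a a' b b' : K) (ha : a ≠ 0) (ha' : a' ≠ 0) (hb' : b' ≠ 0)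
    (haq : a ^ q = a) (haq' : a' ^ q = a')
    (E1 : b ^ 2 * a' = b' ^ 2 * a)
    (E2 : a ^ 2 * (b' * b' ^ q * (b' ^ q) ^ q) = a' ^ 2 * (b * b ^ q * (b ^ q) ^ q)) :
    a = a' ∧ b = b' := by
  have frob : ∀ x y : K, x ^ 2 * a' = y ^ 2 * a → (x ^ q) ^ 2 * a' = (y ^ q) ^ 2 * a := by
    intro x y h
    have h2 : (x ^ 2 * a') ^ q = (y ^ 2 * a) ^ q := by rw [h]
    rw [mul_pow, mul_pow, haq, haq'] at h2
    calc (x ^ q) ^ 2 * a' = (x ^ 2) ^ q * a' := by rw [← pow_mul, ← pow_mul, Nat.mul_comm q 2]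
      _ = (y ^ 2) ^ q * a := h2
      _ = (y ^ q) ^ 2 * a := by rw [← pow_mul, ← pow_mul, Nat.mul_comm q 2]
  have E1q := frob b b' E1
  have E1qq := frob _ _ E1q
  have hP' : b' * b' ^ q * (b' ^ q) ^ q ≠ 0 :=
    mul_ne_zero (mul_ne_zero hb' (pow_ne_zero _ hb')) (pow_ne_zero _ (pow_ne_zero _ hb'))
  have E3 : (b * b ^ q * (b ^ q) ^ q) ^ 2 * a' ^ 3 = (b' * b' ^ q * (b' ^ q) ^ q) ^ 2 * a ^ 3 := by
    linear_combination ((b ^ q) ^ 2 * a' * (((b ^ q) ^ q) ^ 2 * a')) * E1 +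
      (b' ^ 2 * a) * (((b ^ q) ^ q) ^ 2 * a') * E1q + (b' ^ 2 * a) * ((b' ^ q) ^ 2 * a) * E1qq
  have E4 : a ^ 4 * (b' * b' ^ q * (b' ^ q) ^ q) ^ 2 = a' ^ 4 * (b * b ^ q * (b ^ q) ^ q) ^ 2 := by
    linear_combination (a ^ 2 * (b' * b' ^ q * (b' ^ q) ^ q) +
      a' ^ 2 * (b * b ^ q * (b ^ q) ^ q)) * E2
  have E5 : (a - a') * (a ^ 3 * a' ^ 3 * (b' * b' ^ q * (b' ^ q) ^ q) ^ 2) = 0 := by
    linear_combination a' ^ 3 * E4 + a' ^ 4 * E3
  have haa : a = a' := by
    rcases mul_eq_zero.mp E5 with h | h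
    · exact sub_eq_zero.mp h
    · exact absurd h (mul_ne_zero (mul_ne_zero (pow_ne_zero _ ha) (pow_ne_zero _ ha'))
        (pow_ne_zero _ hP'))
  subst haa
  refine ⟨rfl, ?_⟩
  have E6 : (b - b') * (b + b') = 0 := by
    have h0 : (b ^ 2 - b' ^ 2) * a = 0 := by linear_combination E1
    rcases mul_eq_zero.mp h0 with h | h
    · linear_combination h
    · exact absurd h ha
  rcases mul_eq_zero.mp E6 with h | h
  · exact sub_eq_zero.mp h
  · have hb2 : b = -b' := eq_neg_of_add_eq_zero_left h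
    have hP : b * b ^ q * (b ^ q) ^ q = -(b' * b' ^ q * (b' ^ q) ^ q) := by
      rw [hb2, hneg, hneg]; ring
    have h2 : (2 : K) * (a ^ 2 * (b' * b' ^ q * (b' ^ q) ^ q)) = 0 := by
      linear_combination E2 + a ^ 2 * hP
    have h3 : (2 : K) = 0 := by
      rcases mul_eq_zero.mp h2 with h' | h'
      · exact h'
      · exact absurd h' (mul_ne_zero (pow_ne_zero _ ha) hP')
    linear_combination h - b' * h3

theorem d4_H_card {K : Type*} [Field K] [Fintype K] {q : ℕ} (hq : IsPrimePow q)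
    (hK : Fintype.card K = q ^ 3) :
    Nat.card ↥(chevD4.diagonalSubgroup K ⊓ twistedD4 K q) = (q - 1) ^ 2 * (q ^ 2 + q + 1) := by
  classical
  have hD : Seven chevD4 := by simp
  have hfr : IsFrob K q := isFrob_of_card hq hK
  have hq2 : 2 ≤ q := hq.two_le
  have hsq : ∀ t : K, t ^ (q ^ 2) = (t ^ q) ^ q := fun t => by rw [← pow_mul, sq]
  obtain ⟨n18, n13, n12, n14, s0, s1, s2, s3, r1, r2, r3, r4, r5⟩ := d4_facts
  obtain ⟨c1, c2, c3, c4, c5, c6, c7, c8⟩ := d4_facts3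
  obtain ⟨f1, f2, f3, f4, f5, f6, f7, f8⟩ := d4_facts4
  have l18 : 18 < chevD4.nroots := f7
  have l14 : 14 < chevD4.nroots := by omega
  have l13 : 13 < chevD4.nroots := by omega
  have l12 : 12 < chevD4.nroots := by omega
  have hS := d4_le_fix hq hK hfr
  -- the fixed field
  have hTq : (Finset.univ.filter (fun t : K => t ^ q = t)).card = q := by
    apply le_antisymm
    · have h := card_pow_eq_mul_le (K := K) q hq2 1
      have e : (Finset.univ.filter (fun y : K => y ^ q = 1 * y)) =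
          Finset.univ.filter (fun t : K => t ^ q = t) := by
        apply Finset.filter_congr; intro y _; rw [one_mul]
      rw [e] at h; exact h
    · exact card_fix_ge3 q hq2 hfr hK
  have h0T : (0 : K) ∈ Finset.univ.filter (fun t : K => t ^ q = t) := by
    rw [Finset.mem_filter]; exact ⟨Finset.mem_univ _, zero_pow (by omega)⟩
  have hT'c : ((Finset.univ.filter (fun t : K => t ^ q = t)).erase 0).card = q - 1 := by
    rw [Finset.card_erase_of_mem h0T, hTq]
  have hS1c : ((Finset.univ : Finset K).erase 0).card = q ^ 3 - 1 := by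
    rw [Finset.card_erase_of_mem (Finset.mem_univ _), Finset.card_univ, hK]
  have hfin : (q - 1) ^ 2 * (q ^ 2 + q + 1) = (q ^ 3 - 1) * (q - 1) := by
    obtain ⟨r, rfl⟩ : ∃ r, q = r + 1 := ⟨q - 1, by omega⟩
    have e1 : (r + 1) ^ 3 - 1 = r * ((r + 1) ^ 2 + (r + 1) + 1) := by
      apply Nat.sub_eq_of_eq_add; ring
    rw [e1, Nat.add_sub_cancel]; ring
  rw [hfin, ← hS1c, ← hT'c]
  have hrel : ∀ h : GL chevD4.Idx K, h ∈ twistedD4 K q →
      dEnt h 14 = (dEnt h 14) ^ q ∧ dEnt h 13 = (dEnt h 18) ^ q ∧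
        dEnt h 12 = (dEnt h 13) ^ q := by
    intro h hh
    have hf := hS hh
    exact ⟨dEnt_rel hD gaBig_D4a twPerm_D4 twPinv_D4 twSgn_D4 twMono_D4 twInj_D4 (frobHom hfr) h
        hf 14 14 l14 l14 f1 f4,
      dEnt_rel hD gaBig_D4a twPerm_D4 twPinv_D4 twSgn_D4 twMono_D4 twInj_D4 (frobHom hfr) h
        hf 18 13 l18 l13 f2 f5,
      dEnt_rel hD gaBig_D4a twPerm_D4 twPinv_D4 twSgn_D4 twMono_D4 twInj_D4 (frobHom hfr) h
        hf 13 12 l13 l12 f3 f6⟩
  apply le_antisymm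
  · -- upper bound
    have hmem : ∀ h : ↥(chevD4.diagonalSubgroup K ⊓ twistedD4 K q),
        ((dEnt (h : GL chevD4.Idx K) 18, dEnt (h : GL chevD4.Idx K) 14) : K × K) ∈
          ((Finset.univ : Finset K).erase 0) ×ˢ
            ((Finset.univ.filter (fun t : K => t ^ q = t)).erase 0) := by
      intro h
      rw [Finset.mem_product, Finset.mem_erase, Finset.mem_erase, Finset.mem_filter]
      exact ⟨⟨dEnt_ne_zero hD _ h.2.1 18 l18, Finset.mem_univ _⟩,
        dEnt_ne_zero hD _ h.2.1 14 l14, Finset.mem_univ _, ((hrel _ h.2.2).1).symm⟩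
    have hinj : Function.Injective (fun h : ↥(chevD4.diagonalSubgroup K ⊓ twistedD4 K q) =>
        (⟨(dEnt (h : GL chevD4.Idx K) 18, dEnt (h : GL chevD4.Idx K) 14), hmem h⟩ :
          ↥(((Finset.univ : Finset K).erase 0) ×ˢ
            ((Finset.univ.filter (fun t : K => t ^ q = t)).erase 0)))) := by
      intro h h' e
      have e' := congrArg Subtype.val e
      have e18 : dEnt (h : GL chevD4.Idx K) 18 = dEnt (h' : GL chevD4.Idx K) 18 :=
        congrArg Prod.fst e'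
      have e14 : dEnt (h : GL chevD4.Idx K) 14 = dEnt (h' : GL chevD4.Idx K) 14 :=
        congrArg Prod.snd e'
      obtain ⟨-, a1, a2⟩ := hrel _ h.2.2
      obtain ⟨-, b1, b2⟩ := hrel _ h'.2.2
      apply Subtype.ext
      apply H_eq_of_dEnt hD _ _ _ _ _ _ smith_D4 _ _ h.2.1 h'.2.1
      intro j hj
      rw [f8] at hj
      have hj' : j = 0 ∨ j = 1 ∨ j = 2 ∨ j = 3 := by omega
      rcases hj' with rfl | rfl | rfl | rfl
      · rw [s0]; exact e18
      · rw [s1]; exact e14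
      · rw [s2, a1, b1, e18]
      · rw [s3, a2, b2, a1, b1, e18]
    have h4 := Nat.card_le_card_of_injective _ hinj
    rw [Nat.card_eq_fintype_card (α := ↥(((Finset.univ : Finset K).erase 0) ×ˢ
      ((Finset.univ.filter (fun t : K => t ^ q = t)).erase 0))), Fintype.card_coe,
      Finset.card_product] at h4
    exact h4
  · -- lower bound
    have hmemT : ∀ p : ↥((Finset.univ : Finset K).erase 0) ×
        ↥((Finset.univ.filter (fun t : K => t ^ q = t)).erase 0),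
        (p.1 : K) ≠ 0 ∧ (p.2 : K) ≠ 0 ∧ (p.2 : K) ^ q = (p.2 : K) := by
      intro p
      have h1 := p.1.2
      have h2 := p.2.2
      rw [Finset.mem_erase] at h1 h2
      rw [Finset.mem_filter] at h2
      exact ⟨h1.1, h2.1, h2.2.2⟩
    have hel : ∀ p : ↥((Finset.univ : Finset K).erase 0) ×
        ↥((Finset.univ.filter (fun t : K => t ^ q = t)).erase 0),
        hG hD 14 (p.2 : K) * (hG hD 18 (p.1 : K) * (hG hD 13 ((p.1 : K) ^ q) *
          hG hD 12 ((p.1 : K) ^ (q ^ 2)))) ∈ chevD4.diagonalSubgroup K ⊓ twistedD4 K q := by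
      intro p
      obtain ⟨hb, ha, haq⟩ := hmemT p
      exact ⟨mul_mem (hG_mem_H hD 14 l14 _ ha) (mul_mem (hG_mem_H hD 18 l18 _ hb)
        (mul_mem (hG_mem_H hD 13 l13 _ (pow_ne_zero _ hb))
          (hG_mem_H hD 12 l12 _ (pow_ne_zero _ hb)))), d4_h_mem hq hK hD _ _ haq⟩
    have hd : ∀ (a b : K), a ≠ 0 → b ≠ 0 → ∀ s, s < chevD4.nroots →
        dEnt (hG hD 14 a * (hG hD 18 b * (hG hD 13 (b ^ q) * hG hD 12 (b ^ (q ^ 2))))) s =
          a ^ chevD4.pairing 14 s * (b ^ chevD4.pairing 18 s * ((b ^ q) ^ chevD4.pairing 13 s *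
            (b ^ (q ^ 2)) ^ chevD4.pairing 12 s)) := by
      intro a b ha hb s hs
      rw [dEnt_mul hD _ _ (hG_mem_H hD 14 l14 _ ha), dEnt_mul hD _ _ (hG_mem_H hD 18 l18 _ hb),
        dEnt_mul hD _ _ (hG_mem_H hD 13 l13 _ (pow_ne_zero _ hb)),
        dEnt_hG hD 14 l14 a ha s hs, dEnt_hG hD 18 l18 b hb s hs,
        dEnt_hG hD 13 l13 _ (pow_ne_zero _ hb) s hs, dEnt_hG hD 12 l12 _ (pow_ne_zero _ hb) s hs]
    have hinj : Function.Injective (fun p : ↥((Finset.univ : Finset K).erase 0) ×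
        ↥((Finset.univ.filter (fun t : K => t ^ q = t)).erase 0) =>
        (⟨_, hel p⟩ : ↥(chevD4.diagonalSubgroup K ⊓ twistedD4 K q))) := by
      intro p p' e
      have e' := congrArg Subtype.val e
      obtain ⟨hb, ha, haq⟩ := hmemT p
      obtain ⟨hb', ha', haq'⟩ := hmemT p'
      have e18 := congrArg (fun g => dEnt g 18) e'
      have e14 := congrArg (fun g => dEnt g 14) e'
      simp only at e18 e14
      rw [hd _ _ ha hb 18 l18, hd _ _ ha' hb' 18 l18, c1, c5, c6, c7] at e18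
      rw [hd _ _ ha hb 14 l14, hd _ _ ha' hb' 14 l14, c8, c2, c3, c4, hsq, hsq] at e14
      have E1 : (p.1 : K) ^ 2 * (p'.2 : K) = (p'.1 : K) ^ 2 * (p.2 : K) := by
        simp only [zpow_neg, zpow_one, zpow_zero, mul_one] at e18
        have h2 : ∀ x : K, x ^ (2 : ℤ) = x ^ 2 := fun x => zpow_ofNat x 2
        rw [h2, h2] at e18
        field_simp at e18
        linear_combination e18
      have hbq := pow_ne_zero q hb
      have hbq' := pow_ne_zero q hb'
      have hbqq := pow_ne_zero q hbq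
      have hbqq' := pow_ne_zero q hbq'
      have E2 : (p.2 : K) ^ 2 * ((p'.1 : K) * (p'.1 : K) ^ q * ((p'.1 : K) ^ q) ^ q) =
          (p'.2 : K) ^ 2 * ((p.1 : K) * (p.1 : K) ^ q * ((p.1 : K) ^ q) ^ q) := by
        simp only [zpow_neg, zpow_one] at e14
        have h2 : ∀ x : K, x ^ (2 : ℤ) = x ^ 2 := fun x => zpow_ofNat x 2
        rw [h2, h2] at e14
        field_simp at e14
        linear_combination e14
      obtain ⟨ea, eb⟩ := d4_tor_inj q hfr.neg _ _ _ _ ha ha' hb' haq haq' E1 E2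
      exact Prod.ext (Subtype.ext eb) (Subtype.ext ea)
    have h4 := Nat.card_le_card_of_injective _ hinj
    rw [Nat.card_prod, Nat.card_eq_fintype_card, Nat.card_eq_fintype_card, Fintype.card_coe,
      Fintype.card_coe] at h4
    exact h4

end Cfsg.Agent.Helper11
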