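import Cfsg.Agent.Helper11.ChevSuz

set_option autoImplicit false

/-!
`²F₄(2^(2m+1))` is perfect for `m ≥ 1`.
-/

namespace Cfsg.Agent.Helper11

open Cfsg.Lie

set_option maxRecDepth 100000 in
set_option maxHeartbeats 0 in
theorem f4_facts : chevF4.neg 33 = 14 ∧ chevF4.neg 24 = 23 := by decide +kernel

set_option maxRecDepth 100000 in
set_option maxHeartbeats 0 in
theorem f4_orth : orthOK chevF4 33 24 = true := by decide +kernel

set_option maxRecDepth 100000 in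
set_option maxHeartbeats 0 in
theorem f4_pairs : chevF4.pairing 33 33 = 2 ∧ chevF4.pairing 24 33 = 0 ∧
    chevF4.pairing 33 24 = 0 ∧ chevF4.pairing 24 24 = 2 ∧
    chevF4.pairing 33 (chevF4.neg 33) = -2 ∧ chevF4.pairing 24 (chevF4.neg 33) = 0 ∧
    chevF4.pairing 33 (chevF4.neg 24) = 0 ∧ chevF4.pairing 24 (chevF4.neg 24) = -2 := by
  decide +kernel

set_option maxRecDepth 100000 in
set_option maxHeartbeats 0 in
theorem f4_pairs_pos : chevF4.pairing 33 27 = -1 ∧ chevF4.pairing 24 27 = 0 ∧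
    chevF4.pairing 33 25 = 0 ∧ chevF4.pairing 24 25 = -1 ∧ chevF4.pairing 33 28 = -1 ∧
    chevF4.pairing 24 28 = -1 ∧ chevF4.pairing 33 30 = -2 ∧ chevF4.pairing 24 30 = -1 := by
  decide +kernel

set_option maxRecDepth 100000 in
set_option maxHeartbeats 0 in
theorem f4_pairs_neg : chevF4.pairing 33 20 = 1 ∧ chevF4.pairing 24 20 = 0 ∧
    chevF4.pairing 33 22 = 0 ∧ chevF4.pairing 24 22 = 1 ∧ chevF4.pairing 33 19 = 1 ∧
    chevF4.pairing 24 19 = 1 ∧ chevF4.pairing 33 17 = 2 ∧ chevF4.pairing 24 17 = 1 := by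
  decide +kernel

set_option maxRecDepth 100000 in
set_option maxHeartbeats 0 in
theorem f4_suz_pos : commTermsF chevF4 27 25 = [(28, -1, 1, 1), (30, -1, 2, 1)] ∧
    commTermsF chevF4 27 28 = [(30, 2, 1, 1)] ∧ orth1 chevF4 27 30 = true ∧
    orth1 chevF4 25 28 = true ∧ orth1 chevF4 25 30 = true ∧ orth1 chevF4 28 30 = true := by
  decide +kernel

set_option maxRecDepth 100000 in
set_option maxHeartbeats 0 in
theorem f4_suz_neg : commTermsF chevF4 20 22 = [(19, 1, 1, 1), (17, -1, 2, 1)] ∧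
    commTermsF chevF4 20 19 = [(17, -2, 1, 1)] ∧ orth1 chevF4 20 17 = true ∧
    orth1 chevF4 22 19 = true ∧ orth1 chevF4 22 17 = true ∧ orth1 chevF4 19 17 = true := by
  decide +kernel

theorem f4_twisted_perfect {K : Type*} [Field K] [Fintype K] {m : ℕ}
    (hK : Fintype.card K = 2 ^ (2 * m + 1)) (hm : 1 ≤ m) :
    commutator ↥(twistedF4 K (2 ^ m)) = ⊤ := by
  have hD : Seven chevF4 := by simp
  have hT := tabOK_seven chevF4 hD
  haveI hch : CharP K 2 := charP_of_card Nat.prime_two hK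
  haveI : Fact (Nat.Prime 2) := ⟨Nat.prime_two⟩
  have h2 : (2 : K) = 0 := by
    have h := CharP.cast_eq_zero K 2
    exact_mod_cast h
  have hθ : IsFrob K (2 ^ m) := isFrob_pow 2 m
  have h2θ : IsFrob K (2 * 2 ^ m) := by
    have h := isFrob_pow (K := K) 2 (m + 1)
    rw [pow_succ'] at h
    exact h
  have hq : ∀ t : K, t ^ (2 ^ m * (2 * 2 ^ m)) = t := by
    intro t
    have e : 2 ^ m * (2 * 2 ^ m) = Fintype.card K := by rw [hK]; ring
    rw [e]; exact FiniteField.pow_card t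
  have hcard : 3 < Fintype.card K := by
    rw [hK]
    calc 3 < 2 ^ 3 := by norm_num
      _ ≤ 2 ^ (2 * m + 1) := Nat.pow_le_pow_right (by norm_num) (by omega)
  obtain ⟨l, hl0, hl2⟩ := exists_sq_ne_one hcard
  have hl1 : l ≠ 1 := fun h => hl2 (by rw [h, one_pow])
  have hθ1 : 1 ≤ 2 ^ m := Nat.one_le_two_pow
  obtain ⟨n33, n24⟩ := f4_facts
  obtain ⟨p1, p2, p3, p4, p5, p6, p7, p8⟩ := f4_pairs
  -- the generators
  have gen1 : ∀ t : K, xG hD 33 (t ^ 2 ^ m) * xG hD 24 t ∈ twistedF4 K (2 ^ m) := by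
    intro t
    rw [← wG_two]
    exact mem_gen hD _ _ (Or.inl ⟨t, Or.inl rfl⟩)
  have gen2 : ∀ t : K, xG hD 14 (t ^ 2 ^ m) * xG hD 23 t ∈ twistedF4 K (2 ^ m) := by
    intro t
    rw [← wG_two]
    exact mem_gen hD _ _ (Or.inl ⟨t, Or.inr rfl⟩)
  have gen3 : ∀ t u : K, suzZ hD 27 25 28 30 (2 ^ m) t u ∈ twistedF4 K (2 ^ m) := by
    intro t u
    rw [← wG_suz]
    exact mem_gen hD _ _ (Or.inr ⟨t, u, Or.inl rfl⟩)
  have gen4 : ∀ t u : K, suzZ hD 20 22 19 17 (2 ^ m) t u ∈ twistedF4 K (2 ^ m) := by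
    intro t u
    rw [← wG_suz]
    exact mem_gen hD _ _ (Or.inr ⟨t, u, Or.inr rfl⟩)
  -- the class of the orthogonal short/long pair
  have hX : ∀ t : K, clsX hD [(33, 2 ^ m), (24, 1)] t =
      xG hD 33 (t ^ 2 ^ m) * xG hD 24 t := by
    intro t
    simp only [clsX, List.map_cons, List.map_nil, List.prod_cons, List.prod_nil, pow_one, mul_one]
  have hXn : ∀ t : K, clsX hD (negCls chevF4 [(33, 2 ^ m), (24, 1)]) t =
      xG hD 14 (t ^ 2 ^ m) * xG hD 23 t := by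
    intro t
    simp only [clsX, negCls, List.map_cons, List.map_nil, List.prod_cons, List.prod_nil, pow_one,
      mul_one, n33, n24]
  have hc : ([(33, 2 ^ m), (24, 1)] : List (ℕ × ℕ)).Pairwise
      (fun p p' => SOrth hD K p.1 p'.1) :=
    List.pairwise_pair.mpr (sorth_of_OK hD 33 24 f4_orth)
  have hf : ∀ p ∈ ([(33, 2 ^ m), (24, 1)] : List (ℕ × ℕ)), IsFrob K p.2 :=
    forall_mem2 hθ (isFrob_one K)
  have hr : ∀ p ∈ ([(33, 2 ^ m), (24, 1)] : List (ℕ × ℕ)), p.1 < chevF4.nroots :=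
    forall_mem2 (show 33 < chevF4.nroots by decide) (show 24 < chevF4.nroots by decide)
  have h1 : ∀ t : K, clsX hD [(33, 2 ^ m), (24, 1)] t ∈ twistedF4 K (2 ^ m) := fun t => by
    rw [hX]; exact gen1 t
  have h2' : ∀ t : K, clsX hD (negCls chevF4 [(33, 2 ^ m), (24, 1)]) t ∈
      twistedF4 K (2 ^ m) := fun t => by
    rw [hXn]; exact gen2 t
  have hyp1 : ∀ p' ∈ ([(33, 2 ^ m), (24, 1)] : List (ℕ × ℕ)),
      (([(33, 2 ^ m), (24, 1)] : List (ℕ × ℕ)).map fun p =>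
        (l ^ p.2) ^ chevF4.pairing p.1 p'.1).prod = (l ^ 2) ^ p'.2 := by
    intro p' hp'
    simp only [List.mem_cons, List.mem_nil_iff, or_false] at hp'
    rcases hp' with rfl | rfl
    · simp only [List.map_cons, List.map_nil, List.prod_cons, List.prod_nil, p1, p2, zpow_zero,
        mul_one]
      rw [zpow_ofNat, ← pow_mul, ← pow_mul, mul_comm]
    · simp only [List.map_cons, List.map_nil, List.prod_cons, List.prod_nil, p3, p4, zpow_zero,
        one_mul, mul_one, pow_one]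
      exact zpow_ofNat l 2
  have hyp2 : ∀ p' ∈ ([(33, 2 ^ m), (24, 1)] : List (ℕ × ℕ)),
      (([(33, 2 ^ m), (24, 1)] : List (ℕ × ℕ)).map fun p =>
        (l ^ p.2) ^ chevF4.pairing p.1 (chevF4.neg p'.1)).prod = ((l ^ 2)⁻¹) ^ p'.2 := by
    intro p' hp'
    simp only [List.mem_cons, List.mem_nil_iff, or_false] at hp'
    rcases hp' with rfl | rfl
    · simp only [List.map_cons, List.map_nil, List.prod_cons, List.prod_nil, p5, p6, zpow_zero,
        mul_one]
      rw [zpow_neg, zpow_ofNat, inv_pow, ← pow_mul, ← pow_mul, mul_comm]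
    · simp only [List.map_cons, List.map_nil, List.prod_cons, List.prod_nil, p7, p8, zpow_zero,
        one_mul, mul_one, pow_one]
      rw [zpow_neg, zpow_ofNat]
  have both := fun t : K =>
    cls_perf_both hD (twistedF4 K (2 ^ m)) _ hc hf hr h1 h2' l hl0 hl2 hyp1 hyp2 t
  -- the torus element
  have hH : clsH hD [(33, 2 ^ m), (24, 1)] l ∈ twistedF4 K (2 ^ m) :=
    (clsH_mem hD _ _ hc hf h1 h2' l).2
  have hconjx : ∀ (s : ℕ) (_ : s < chevF4.nroots) (x : K),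
      clsH hD [(33, 2 ^ m), (24, 1)] l * xG hD s x * (clsH hD [(33, 2 ^ m), (24, 1)] l)⁻¹ =
        xG hD s ((l ^ 2 ^ m) ^ chevF4.pairing 33 s * (l ^ chevF4.pairing 24 s) * x) := by
    intro s hs x
    rw [clsH_conj_x hD _ hr l hl0 s hs]
    simp only [List.map_cons, List.map_nil, List.prod_cons, List.prod_nil, pow_one, mul_one]
  -- the classes of type `B₂`
  obtain ⟨q1, q2, q3, q4, q5, q6, q7, q8⟩ := f4_pairs_pos
  obtain ⟨v1, v2, v3, v4, v5, v6, v7, v8⟩ := f4_pairs_neg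
  have Spos : SuzCls hD K 27 25 28 30 := by
    obtain ⟨t1, t2, o2, o3, o4, o5⟩ := f4_suz_pos
    rw [commTermsF_eq hT] at t1 t2
    exact suzCls_of hD h2 27 25 28 30 (-1) (-1) 2 (by decide) (by decide) (by decide) (by decide)
      (by decide) (by decide) (by decide) t1 (Or.inr rfl) (Or.inr rfl) t2 (Or.inl rfl) o2 o3 o4 o5
  have Sneg : SuzCls hD K 20 22 19 17 := by
    obtain ⟨t1, t2, o2, o3, o4, o5⟩ := f4_suz_neg
    rw [commTermsF_eq hT] at t1 t2
    exact suzCls_of hD h2 20 22 19 17 1 (-1) (-2) (by decide) (by decide) (by decide) (by decide)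
      (by decide) (by decide) (by decide) t1 (Or.inl rfl) (Or.inr rfl) t2 (Or.inr rfl) o2 o3 o4 o5
  have hκ0 : l⁻¹ ≠ 0 := inv_ne_zero hl0
  have hκ1 : l⁻¹ ≠ 1 := fun h => hl1 (inv_eq_one.mp h)
  have cpos : ∀ t u : K, suzZ hD 27 25 28 30 (2 ^ m) t u ∈
      (commutator ↥(twistedF4 K (2 ^ m))).map (twistedF4 K (2 ^ m)).subtype := by
    apply suz_perf Spos _ (2 ^ m) hθ h2θ hq h2 gen3 _ hH l⁻¹ hκ1
      (pow_theta_ne_one _ hθ1 hq _ hκ0 hκ1)
    apply suzZ_conj (2 ^ m) hq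
    · intro x
      rw [hconjx 27 (by decide) x, q1, q2, zpow_neg_one, zpow_zero, mul_one, inv_pow]
    · intro x
      rw [hconjx 25 (by decide) x, q3, q4, zpow_zero, one_mul, zpow_neg_one]
    · intro x
      rw [hconjx 28 (by decide) x, q5, q6, zpow_neg_one, zpow_neg_one, inv_pow, pow_succ, mul_inv]
    · intro x
      have e : (l ^ 2 ^ m) ^ (-2 : ℤ) * l ^ (-1 : ℤ) = l⁻¹ ^ (2 * 2 ^ m + 1) := by
        rw [zpow_neg, zpow_ofNat, zpow_neg_one, inv_pow, ← mul_inv, ← pow_mul, pow_succ,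
          mul_comm (2 ^ m) 2]
      rw [hconjx 30 (by decide) x, q7, q8, e]
  have cneg : ∀ t u : K, suzZ hD 20 22 19 17 (2 ^ m) t u ∈
      (commutator ↥(twistedF4 K (2 ^ m))).map (twistedF4 K (2 ^ m)).subtype := by
    apply suz_perf Sneg _ (2 ^ m) hθ h2θ hq h2 gen4 _ hH l hl1
      (pow_theta_ne_one _ hθ1 hq _ hl0 hl1)
    apply suzZ_conj (2 ^ m) hq
    · intro x
      rw [hconjx 20 (by decide) x, v1, v2, zpow_one, zpow_zero, mul_one]
    · intro x
      rw [hconjx 22 (by decide) x, v3, v4, zpow_zero, one_mul, zpow_one]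
    · intro x
      rw [hconjx 19 (by decide) x, v5, v6, zpow_one, zpow_one, pow_succ]
    · intro x
      have e : (l ^ 2 ^ m) ^ (2 : ℤ) * l ^ (1 : ℤ) = l ^ (2 * 2 ^ m + 1) := by
        rw [zpow_ofNat, zpow_one, ← pow_mul, pow_succ, mul_comm (2 ^ m) 2]
      rw [hconjx 17 (by decide) x, v7, v8, e]
  apply perfect_of_le_map
  apply gen_le hD (f4Words K (2 ^ m))
  intro w hw
  rcases hw with ⟨t, rfl | rfl⟩ | ⟨t, u, rfl | rfl⟩
  · have h := (both t).1
    rw [hX] at h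
    rw [show wG hD (f4PairWord (2 ^ m) f4p1 f4p4 t) = xG hD 33 (t ^ 2 ^ m) * xG hD 24 t from
      wG_two hD _ _ _ _]
    exact h
  · have h := (both t).2
    rw [hXn] at h
    rw [show wG hD (f4PairWord (2 ^ m) f4m1 f4m4 t) = xG hD 14 (t ^ 2 ^ m) * xG hD 23 t from
      wG_two hD _ _ _ _]
    exact h
  · rw [wG_suz]; exact cpos t u
  · rw [wG_suz]; exact cneg t u

end Cfsg.Agent.Helper11
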