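import Cfsg.Agent.Helper11.ChevTwistCore2
import Cfsg.Agent.Helper11.ChevTwistF4

set_option autoImplicit false

/-!
The normal core of `B¹ = G¹ ∩ B` is trivial in `²F₄(2^(2m+1))`.
-/

namespace Cfsg.Agent.Helper11

open Cfsg.Lie

def f4zy : List (ℕ × Poly) :=
  [(28,[(1,0,0)]),(30,[(1,0,0)]),(19,[(1,0,0)]),(17,[(1,0,0)]),(28,[(1,0,0)]),(30,[(1,0,0)]),
   (19,[(1,0,0)]),(17,[(1,0,0)]),(28,[(1,0,0)]),(30,[(1,0,0)])]

def f4nn : List (ℕ × Poly) :=
  [(27,[(1,0,0)]),(20,[(-1,0,0)]),(27,[(1,0,0)]),(25,[(1,0,0)]),(22,[(-1,0,0)]),(25,[(1,0,0)]),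
   (27,[(1,0,0)]),(20,[(-1,0,0)]),(27,[(1,0,0)]),(25,[(1,0,0)]),(22,[(-1,0,0)]),(25,[(1,0,0)])]

set_option maxRecDepth 100000 in
set_option maxHeartbeats 0 in
theorem f4_nB_ok : wordEqPN 2 chevF4 f4zy f4nn = true := by decide +kernel

def twBlockF4 : List ℕ := [0, 3, 1, 2, 1, 2]

def twWordF4 : List ℕ := twBlockF4 ++ (twBlockF4 ++ (twBlockF4 ++ twBlockF4))

set_option maxRecDepth 100000 in
set_option maxHeartbeats 0 in
theorem twWordF4_ok : w0OK chevF4 twWordF4 = true := by decide +kernel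

set_option maxRecDepth 100000 in
set_option maxHeartbeats 0 in
theorem f4_facts3 : chevF4.simple 0 = 33 ∧ chevF4.simple 1 = 27 ∧ chevF4.simple 2 = 25 ∧
    chevF4.simple 3 = 24 ∧ chevF4.neg 27 = 20 ∧ chevF4.neg 25 = 22 := by decide +kernel

def f4g1 : List (ℕ × Poly) := [(33,[(1,0,0)]),(24,[(1,0,0)])]

def f4g2 : List (ℕ × Poly) := [(27,[(1,0,0)]),(25,[(1,0,0)]),(28,[(1,0,0)]),(30,[])]

set_option maxRecDepth 100000 in
set_option maxHeartbeats 0 in
theorem f4_entries :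
    coefZ 37 (applyWordF chevF4 f4g1 [(1, (1,0,0))]) = 1 ∧
    coefZ 28 (applyWordF chevF4 f4g1 [(2, (1,0,0))]) = 1 ∧
    coefZ 31 (applyWordF chevF4 f4g2 [(0, (1,0,0))]) = 1 ∧
    coefZ 29 (applyWordF chevF4 f4g2 [(3, (1,0,0))]) = 1 := by decide +kernel

theorem f4_twisted_core {K : Type*} [Field K] [Fintype K] {m : ℕ}
    (hK : Fintype.card K = 2 ^ (2 * m + 1)) :
    ((chevF4.borelSubgroup K ⊓ twistedF4 K (2 ^ m)).subgroupOf
      (twistedF4 K (2 ^ m))).normalCore = ⊥ := by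
  have hD : Seven chevF4 := by simp
  have hT := tabOK_seven chevF4 hD
  haveI hch : CharP K 2 := charP_of_card Nat.prime_two hK
  haveI : Fact (Nat.Prime 2) := ⟨Nat.prime_two⟩
  have h2 : (2 : K) = 0 := by
    have h := CharP.cast_eq_zero K 2
    exact_mod_cast h
  have h2z : (((2 : ℤ)) : K) = 0 := by exact_mod_cast h2
  have hθ : IsFrob K (2 ^ m) := isFrob_pow 2 m
  have hθ0 : (2 : ℕ) ^ m ≠ 0 := pow_ne_zero _ (by norm_num)
  have hθ1 : (2 : ℕ) ^ m + 1 ≠ 0 := Nat.succ_ne_zero _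
  obtain ⟨n33, n24⟩ := f4_facts
  obtain ⟨s0, s1, s2, s3, n27, n25⟩ := f4_facts3
  -- the generators
  have gen1 : ∀ t : K, xG hD 33 (t ^ 2 ^ m) * xG hD 24 t ∈ twistedF4 K (2 ^ m) := by
    intro t
    rw [← wG_two]
    exact mem_gen hD _ _ (Or.inl ⟨t, Or.inl rfl⟩)
  have gen2 : ∀ t : K, xG hD 14 (t ^ 2 ^ m) * xG hD 23 t ∈ twistedF4 K (2 ^ m) := by
    intro t
    rw [← wG_two]
    exact mem_gen hD _ _ (Or.inl ⟨t, Or.inr rfl⟩)
  have gen3 : ∀ t u : K, wG hD (b2ClassWord (2 ^ m) 27 25 28 30 t u) ∈ twistedF4 K (2 ^ m) :=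
    fun t u => mem_gen hD _ _ (Or.inr ⟨t, u, Or.inl rfl⟩)
  have gen4 : ∀ t u : K, wG hD (b2ClassWord (2 ^ m) 20 22 19 17 t u) ∈ twistedF4 K (2 ^ m) :=
    fun t u => mem_gen hD _ _ (Or.inr ⟨t, u, Or.inr rfl⟩)
  -- the class of the orthogonal short/long pair
  have hX : ∀ t : K, clsX hD [(33, 2 ^ m), (24, 1)] t =
      xG hD 33 (t ^ 2 ^ m) * xG hD 24 t := by
    intro t
    simp only [clsX, List.map_cons, List.map_nil, List.prod_cons, List.prod_nil, pow_one, mul_one]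
  have hXn : ∀ t : K, clsX hD (negCls chevF4 [(33, 2 ^ m), (24, 1)]) t =
      xG hD 14 (t ^ 2 ^ m) * xG hD 23 t := by
    intro t
    simp only [clsX, negCls, List.map_cons, List.map_nil, List.prod_cons, List.prod_nil, pow_one,
      mul_one, n33, n24]
  have hc : ([(33, 2 ^ m), (24, 1)] : List (ℕ × ℕ)).Pairwise
      (fun p p' => SOrth hD K p.1 p'.1) :=
    List.pairwise_pair.mpr (sorth_of_OK hD 33 24 f4_orth)
  have hf : ∀ p ∈ ([(33, 2 ^ m), (24, 1)] : List (ℕ × ℕ)), IsFrob K p.2 :=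
    forall_mem2 hθ (isFrob_one K)
  have h1 : ∀ t : K, clsX hD [(33, 2 ^ m), (24, 1)] t ∈ twistedF4 K (2 ^ m) := fun t => by
    rw [hX]; exact gen1 t
  have h1n : ∀ t : K, clsX hD (negCls chevF4 [(33, 2 ^ m), (24, 1)]) t ∈
      twistedF4 K (2 ^ m) := fun t => by
    rw [hXn]; exact gen2 t
  have hNA : nG hD 33 (1 : K) * nG hD 24 1 ∈ twistedF4 K (2 ^ m) := by
    have h := (clsH_mem hD (twistedF4 K (2 ^ m)) [(33, 2 ^ m), (24, 1)] hc hf h1 h1n 1).1
    have e : clsN hD [(33, 2 ^ m), (24, 1)] (1 : K) = nG hD 33 1 * nG hD 24 1 := by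
      simp only [clsN, List.map_cons, List.map_nil, List.prod_cons, List.prod_nil, one_pow,
        mul_one]
    rw [e] at h
    exact h
  -- the class of type `B₂`
  have hZ : ∀ a b ab aab : ℕ, wG hD (b2ClassWord (2 ^ m) a b ab aab (0 : K) 1) =
      xG hD ab 1 * xG hD aab 1 := by
    intro a b ab aab
    unfold b2ClassWord
    rw [wG_cons, wG_cons, wG_cons, wG_cons, wG_nil]
    simp only [zero_pow hθ0, zero_pow hθ1, xG_zero, one_pow, zero_add, one_mul, mul_one]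
  have hZY : wG hD [(28, (1 : K)), (30, 1), (19, 1), (17, 1), (28, 1), (30, 1), (19, 1), (17, 1),
      (28, 1), (30, 1)] ∈ twistedF4 K (2 ^ m) := by
    have hz := gen3 0 1
    have hy := gen4 0 1
    rw [hZ] at hz hy
    have e : wG hD [(28, (1 : K)), (30, 1), (19, 1), (17, 1), (28, 1), (30, 1), (19, 1), (17, 1),
        (28, 1), (30, 1)] =
        (xG hD 28 1 * xG hD 30 1) * ((xG hD 19 1 * xG hD 17 1) * ((xG hD 28 1 * xG hD 30 1) *
          ((xG hD 19 1 * xG hD 17 1) * (xG hD 28 1 * xG hD 30 1)))) := by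
      simp only [wG_cons, wG_nil, mul_one, mul_assoc]
    rw [e]
    exact mul_mem hz (mul_mem hy (mul_mem hz (mul_mem hy hz)))
  have hNB : nG hD 27 (1 : K) * (nG hD 25 1 * (nG hD 27 1 * nG hD 25 1)) ∈
      twistedF4 K (2 ^ m) := by
    have key := wordEqPN_sound (F := K) hT 2 h2z f4zy f4nn f4_nB_ok 1 1
    have e1 : evalWord (1 : K) 1 f4zy = [(28, 1), (30, 1), (19, 1), (17, 1), (28, 1), (30, 1),
        (19, 1), (17, 1), (28, 1), (30, 1)] := by
      simp [evalWord, evalPoly, evalMono, f4zy]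
    have e2 : evalWord (1 : K) 1 f4nn = [(27, 1), (20, -1), (27, 1), (25, 1), (22, -1), (25, 1),
        (27, 1), (20, -1), (27, 1), (25, 1), (22, -1), (25, 1)] := by
      simp [evalWord, evalPoly, evalMono, f4nn]
    rw [e1, e2] at key
    have e3 : nG hD 27 (1 : K) * (nG hD 25 1 * (nG hD 27 1 * nG hD 25 1)) =
        wG hD [(27, 1), (20, -1), (27, 1), (25, 1), (22, -1), (25, 1),
          (27, 1), (20, -1), (27, 1), (25, 1), (22, -1), (25, 1)] := by
      rw [nG_eq, nG_eq, n27, n25, inv_one]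
      simp only [wG_cons, wG_nil, mul_one, mul_assoc]
    rw [e3]
    have e4 : wG hD [(27, (1 : K)), (20, -1), (27, 1), (25, 1), (22, -1), (25, 1),
        (27, 1), (20, -1), (27, 1), (25, 1), (22, -1), (25, 1)] =
        wG hD [(28, (1 : K)), (30, 1), (19, 1), (17, 1), (28, 1), (30, 1), (19, 1), (17, 1),
          (28, 1), (30, 1)] :=
      Units.ext (by rw [wG_val, wG_val]; exact key.symm)
    rw [e4]; exact hZY
  have hblock : wordN (F := K) hD twBlockF4 ∈ twistedF4 K (2 ^ m) := by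
    have e : wordN (F := K) hD twBlockF4 = (nG hD 33 1 * nG hD 24 1) *
        (nG hD 27 1 * (nG hD 25 1 * (nG hD 27 1 * nG hD 25 1))) := by
      show nG hD (chevF4.simple 0) 1 * (nG hD (chevF4.simple 3) 1 * (nG hD (chevF4.simple 1) 1 *
        (nG hD (chevF4.simple 2) 1 * (nG hD (chevF4.simple 1) 1 *
          (nG hD (chevF4.simple 2) 1 * 1))))) = _
      rw [s0, s1, s2, s3, mul_one]
      simp only [mul_assoc]
    rw [e]
    exact mul_mem hNA hNB
  have hn₀G : wordN (F := K) hD twWordF4 ∈ twistedF4 K (2 ^ m) := by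
    unfold twWordF4
    rw [wordN_append, wordN_append, wordN_append]
    exact mul_mem hblock (mul_mem hblock (mul_mem hblock hblock))
  have hn₀N : wordN (F := K) hD twWordF4 ∈ chevF4.monomialSubgroup K :=
    wordN_mem hD _ (w0OK_lt _ twWordF4_ok)
  have hmap := w0_map (F := K) hD twWordF4 twWordF4_ok
  have pos : ∀ s, s < chevF4.nroots → chevF4.nroots / 2 ≤ s → chevF4.IsPosRoot s :=
    fun s hs h => ((pos_iff7 hD s hs).1).mpr h
  -- the test elements
  have hg1val : ((wG hD (f4PairWord (2 ^ m) 33 24 (1 : K)) : GL chevF4.Idx K) :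
      Matrix chevF4.Idx chevF4.Idx K) = chevF4.wordMat K (evalWord 1 1 f4g1) := by
    have e : f4PairWord (2 ^ m) 33 24 (1 : K) = evalWord 1 1 f4g1 := by
      unfold f4PairWord f4g1 evalWord
      simp only [List.map_cons, List.map_nil, evalPoly, evalMono, List.sum_cons, List.sum_nil,
        Int.cast_one, pow_zero, mul_one, add_zero, one_pow]
    rw [wG_val, e]
  have hg2val : ((wG hD (b2ClassWord (2 ^ m) 27 25 28 30 (1 : K) 0) : GL chevF4.Idx K) :
      Matrix chevF4.Idx chevF4.Idx K) = chevF4.wordMat K (evalWord 1 1 f4g2) := by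
    have h0 : (0 : K) ^ (2 * 2 ^ m) = 0 := zero_pow (by positivity)
    have e : b2ClassWord (2 ^ m) 27 25 28 30 (1 : K) 0 = evalWord 1 1 f4g2 := by
      unfold b2ClassWord f4g2 evalWord
      simp only [List.map_cons, List.map_nil, evalPoly, evalMono, List.sum_cons, List.sum_nil,
        Int.cast_one, pow_zero, mul_one, add_zero, one_pow, h0]
    rw [wG_val, e]
  have one_ne : ((1 : ℤ) : K) ≠ 0 := by rw [Int.cast_one]; exact one_ne_zero
  refine twist_core2 hD (twistedF4 K (2 ^ m)) _ hn₀G hn₀N hmap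
    [wG hD (f4PairWord (2 ^ m) 33 24 (1 : K)),
      wG hD (b2ClassWord (2 ^ m) 27 25 28 30 (1 : K) 0)] ?_ ?_
  · intro g hg
    simp only [List.mem_cons, List.mem_nil_iff, or_false] at hg
    rcases hg with rfl | rfl
    · refine ⟨mem_gen hD _ _ (Or.inl ⟨1, Or.inl rfl⟩), ?_⟩
      unfold f4PairWord
      rw [wG_two]
      exact mul_mem (xG_mem_posU hD 33 (pos 33 (by decide) (by decide)) _)
        (xG_mem_posU hD 24 (pos 24 (by decide) (by decide)) _)
    · refine ⟨gen3 1 0, ?_⟩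
      unfold b2ClassWord
      rw [wG_cons, wG_cons, wG_cons, wG_cons, wG_nil, mul_one]
      exact mul_mem (xG_mem_posU hD 27 (pos 27 (by decide) (by decide)) _)
        (mul_mem (xG_mem_posU hD 25 (pos 25 (by decide) (by decide)) _)
          (mul_mem (xG_mem_posU hD 28 (pos 28 (by decide) (by decide)) _)
            (xG_mem_posU hD 30 (pos 30 (by decide) (by decide)) _)))
  · intro j hj
    have hj' : j < 4 := hj
    interval_cases j
    · refine ⟨_, List.mem_cons_self, ⟨33, by decide⟩, ⟨1, by decide⟩, s0.symm, ?_⟩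
      rw [hg1val, wordMat_entry hT]
      show ((coefZ 37 (applyWordF chevF4 f4g1 [(1, (1, 0, 0))]) : ℤ) : K) ≠ 0
      rw [f4_entries.1]; exact one_ne
    · refine ⟨_, List.mem_cons_of_mem _ List.mem_cons_self, ⟨27, by decide⟩, ⟨0, by decide⟩,
        s1.symm, ?_⟩
      rw [hg2val, wordMat_entry hT]
      show ((coefZ 31 (applyWordF chevF4 f4g2 [(0, (1, 0, 0))]) : ℤ) : K) ≠ 0
      rw [f4_entries.2.2.1]; exact one_ne
    · refine ⟨_, List.mem_cons_of_mem _ List.mem_cons_self, ⟨25, by decide⟩, ⟨3, by decide⟩,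
        s2.symm, ?_⟩
      rw [hg2val, wordMat_entry hT]
      show ((coefZ 29 (applyWordF chevF4 f4g2 [(3, (1, 0, 0))]) : ℤ) : K) ≠ 0
      rw [f4_entries.2.2.2]; exact one_ne
    · refine ⟨_, List.mem_cons_self, ⟨24, by decide⟩, ⟨2, by decide⟩, s3.symm, ?_⟩
      rw [hg1val, wordMat_entry hT]
      show ((coefZ 28 (applyWordF chevF4 f4g1 [(2, (1, 0, 0))]) : ℤ) : K) ≠ 0
      rw [f4_entries.2.1]; exact one_ne

end Cfsg.Agent.Helper11
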