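import Mathlib

set_option autoImplicit false

namespace Cfsg.Agent.Helper11.ESA

/-- if `h ∣ p^j + 1` and `h ∣ p^(2n) - 1` then `h ∣ p^n + 1` or `h ∣ p^n - 1` -/
theorem nt (p h j n : ℕ) (hp : p.Prime) (h1 : h ∣ p ^ j + 1) (h2 : h ∣ p ^ (2 * n) - 1) :
    h ∣ p ^ n + 1 ∨ h ∣ p ^ n - 1 := by
  have hpos : ∀ k, 1 ≤ p ^ k := fun k => Nat.one_le_pow _ _ hp.pos
  have e1 : (p : ZMod h) ^ j = -1 := by
    have h0 := (ZMod.natCast_eq_zero_iff (p ^ j + 1) h).mpr h1
    push_cast at h0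
    exact eq_neg_of_add_eq_zero_left h0
  have e2 : (p : ZMod h) ^ (2 * n) = 1 := by
    have h0 := (ZMod.natCast_eq_zero_iff (p ^ (2 * n) - 1) h).mpr h2
    rw [Nat.cast_sub (hpos _)] at h0
    push_cast at h0
    exact sub_eq_zero.mp h0
  have c1 : (p : ZMod h) ^ n = -1 → h ∣ p ^ n + 1 := by
    intro e
    rw [← ZMod.natCast_eq_zero_iff]
    push_cast
    rw [e]
    exact neg_add_cancel 1
  have c2 : (p : ZMod h) ^ n = 1 → h ∣ p ^ n - 1 := by
    intro e
    rw [← ZMod.natCast_eq_zero_iff, Nat.cast_sub (hpos _)]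
    push_cast
    rw [e]
    exact sub_self 1
  by_cases htwo : (1 : ZMod h) = -1
  · have hh : h ∣ 2 := by
      rw [← ZMod.natCast_eq_zero_iff]
      push_cast
      linear_combination htwo
    rcases (Nat.dvd_prime Nat.prime_two).mp hh with rfl | rfl
    · exact Or.inl (one_dvd _)
    · right
      apply c2
      have e3 : ((p : ZMod 2) ^ n) ^ 2 = 1 := by rw [← pow_mul, mul_comm]; exact e2
      have key : ∀ x : ZMod 2, x ^ 2 = 1 → x = 1 := by decide
      exact key _ e3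
  · have ho2j : orderOf (p : ZMod h) ∣ 2 * j :=
      orderOf_dvd_of_pow_eq_one (by rw [mul_comm, pow_mul, e1, neg_one_sq])
    have ho2n : orderOf (p : ZMod h) ∣ 2 * n := orderOf_dvd_of_pow_eq_one e2
    have hoj : ¬ orderOf (p : ZMod h) ∣ j := by
      intro hd
      have h0 := orderOf_dvd_iff_pow_eq_one.mp hd
      rw [e1] at h0
      exact htwo h0.symm
    have hev : 2 ∣ orderOf (p : ZMod h) := by
      by_contra hodd
      have hc : Nat.Coprime 2 (orderOf (p : ZMod h)) :=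
        (Nat.Prime.coprime_iff_not_dvd Nat.prime_two).mpr hodd
      exact hoj (hc.symm.dvd_of_dvd_mul_left ho2j)
    obtain ⟨o', ho'⟩ := hev
    have ho'j : o' ∣ j := by
      rw [ho'] at ho2j
      exact (Nat.mul_dvd_mul_iff_left (by norm_num)).mp ho2j
    have ho'n : o' ∣ n := by
      rw [ho'] at ho2n
      exact (Nat.mul_dvd_mul_iff_left (by norm_num)).mp ho2n
    obtain ⟨a, ha⟩ := ho'j
    obtain ⟨b, hb⟩ := ho'n
    have hsq : ((p : ZMod h) ^ o') ^ 2 = 1 := by
      rw [← pow_mul, mul_comm, ← ho']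
      exact pow_orderOf_eq_one _
    have ha_odd : ¬ 2 ∣ a := by
      rintro ⟨a', rfl⟩
      apply hoj
      rw [ho', ha]
      exact ⟨a', by ring⟩
    have hy : (p : ZMod h) ^ o' = -1 := by
      obtain ⟨a', ha'⟩ : ∃ a', a = 2 * a' + 1 := ⟨a / 2, by omega⟩
      have h0 : (p : ZMod h) ^ j = (p : ZMod h) ^ o' := by
        rw [ha, ha', pow_mul, pow_succ, pow_mul, hsq, one_pow, one_mul]
      rw [← h0, e1]
    have hn : (p : ZMod h) ^ n = (-1) ^ b := by rw [hb, pow_mul, hy]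
    rcases Nat.even_or_odd b with hb' | hb'
    · right
      apply c2
      rw [hn, hb'.neg_one_pow]
    · left
      apply c1
      rw [hn, hb'.neg_one_pow]

end Cfsg.Agent.Helper11.ESA
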