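import Mathlib

namespace Cfsg.Agent.Helper11.S4692l

universe u

theorem coprime_lemma {G : Type u} [Group G] [Finite G] (p : ℕ) [Fact p.Prime] (N : Subgroup G) [N.Normal] (Q : Subgroup G) (hQ : IsPGroup p Q) (x : G) (hxN : x ∈ N) (hx : ¬ p ∣ orderOf x) (hxQ : x ∈ Subgroup.normalizer (Q : Set G)) (hc : ∀ r ∈ Q ⊓ N, x * r * x⁻¹ = r) : x ∈ Subgroup.centralizer (Q : Set G) := by
  have hp : p.Prime := Fact.out
  rw [Subgroup.mem_centralizer_iff]
  intro q hq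
  have hq' : q ∈ Q := hq
  have hxq : x * q * x⁻¹ ∈ Q := (Subgroup.mem_normalizer_iff.mp hxQ q).mp hq'
  obtain ⟨r, hr⟩ : ∃ r : G, r = q⁻¹ * (x * q * x⁻¹) := ⟨_, rfl⟩
  have hqr : q * r = x * q * x⁻¹ := by rw [hr]; group
  have hrQ : r ∈ Q := by rw [hr]; exact Q.mul_mem (Q.inv_mem hq') hxq
  have hrN : r ∈ N := by
    have h1 : q⁻¹ * x * q⁻¹⁻¹ ∈ N := ‹N.Normal›.conj_mem x hxN q⁻¹
    have h2 : r = (q⁻¹ * x * q⁻¹⁻¹) * x⁻¹ := by rw [hr]; group
    rw [h2]; exact N.mul_mem h1 (N.inv_mem hxN)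
  have hxr : x * r * x⁻¹ = r := hc r ⟨hrQ, hrN⟩
  have key : ∀ j : ℕ, x ^ j * q * (x ^ j)⁻¹ = q * r ^ j := by
    intro j
    induction j with
    | zero => simp
    | succ j ih =>
      have e1 : x ^ (j + 1) * q * (x ^ (j + 1))⁻¹ = x * (x ^ j * q * (x ^ j)⁻¹) * x⁻¹ := by
        rw [pow_succ']; group
      rw [e1, ih]
      have e2 : x * (q * r ^ j) * x⁻¹ = (x * q * x⁻¹) * (x * r * x⁻¹) ^ j := by
        rw [conj_pow]; group
      rw [e2, hxr, pow_succ', ← hqr, mul_assoc]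
  have hrj : r ^ orderOf x = 1 := by
    have h := key (orderOf x)
    rw [pow_orderOf_eq_one] at h
    simpa using h
  obtain ⟨k, hk⟩ := hQ ⟨r, hrQ⟩
  have hk' : r ^ p ^ k = 1 := by
    have := congrArg Subtype.val hk
    simpa using this
  have h1 : orderOf r ∣ orderOf x := orderOf_dvd_of_pow_eq_one hrj
  have h2 : orderOf r ∣ p ^ k := orderOf_dvd_of_pow_eq_one hk'
  have hcop : Nat.Coprime (orderOf x) (p ^ k) :=
    Nat.Coprime.pow_right _ (((Nat.Prime.coprime_iff_not_dvd hp).mpr hx).symm)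
  have h3 : orderOf r ∣ Nat.gcd (orderOf x) (p ^ k) := Nat.dvd_gcd h1 h2
  rw [hcop.gcd_eq_one] at h3
  have hr1 : r = 1 := orderOf_eq_one_iff.mp (Nat.dvd_one.mp h3)
  rw [hr1, mul_one] at hqr
  calc q * x = x * q * x⁻¹ * x := by rw [← hqr]
    _ = x * q := by group

end Cfsg.Agent.Helper11.S4692l
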