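import Mathlib

namespace Cfsg.Agent.Helper11.S4692p

universe u

theorem p_lemma {G : Type u} [Group G] [Finite G] (p : ℕ) [Fact p.Prime] (R' : Subgroup G) (x w : G) (hx : ¬ p ∣ orderOf x) (hxR : ∀ r ∈ R', x * r * x⁻¹ ∈ R') (hwx : ∀ r ∈ R', w * r * w⁻¹ = x * r * x⁻¹) (hw : ∀ k : ℕ, ¬ p ∣ orderOf (w ^ k) → ∀ r ∈ R', w ^ k * r * (w ^ k)⁻¹ = r) : ∀ r ∈ R', x * r * x⁻¹ = r := by
  have hp : p.Prime := Fact.out
  have key : ∀ j : ℕ, ∀ r ∈ R', x ^ j * r * (x ^ j)⁻¹ ∈ R' ∧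
      w ^ j * r * (w ^ j)⁻¹ = x ^ j * r * (x ^ j)⁻¹ := by
    intro j
    induction j with
    | zero => intro r hr; simpa using hr
    | succ j ih =>
      intro r hr
      obtain ⟨h1, h2⟩ := ih r hr
      have e1 : x ^ (j + 1) * r * (x ^ (j + 1))⁻¹ = x * (x ^ j * r * (x ^ j)⁻¹) * x⁻¹ := by
        rw [pow_succ']; group
      have e2 : w ^ (j + 1) * r * (w ^ (j + 1))⁻¹ = w * (w ^ j * r * (w ^ j)⁻¹) * w⁻¹ := by
        rw [pow_succ']; group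
      refine ⟨?_, ?_⟩
      · rw [e1]; exact hxR _ h1
      · rw [e2, e1, h2]; exact hwx _ h1
  obtain ⟨o, ho⟩ : ∃ o : ℕ, o = orderOf w := ⟨_, rfl⟩
  have hopos : 0 < o := by rw [ho]; exact orderOf_pos w
  obtain ⟨a, ha⟩ : ∃ a : ℕ, a = o.factorization p := ⟨_, rfl⟩
  have hord : orderOf (w ^ (p ^ a)) = o / p ^ a := by
    rw [orderOf_pow, ← ho]
    congr 1
    rw [ha]
    exact Nat.gcd_eq_right (Nat.ordProj_dvd o p)
  have hnd : ¬ p ∣ orderOf (w ^ (p ^ a)) := by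
    rw [hord, ha]
    exact Nat.not_dvd_ordCompl hp hopos.ne'
  have hcw := hw (p ^ a) hnd
  have hcx : ∀ r ∈ R', x ^ (p ^ a) * r * (x ^ (p ^ a))⁻¹ = r := by
    intro r hr
    rw [← (key (p ^ a) r hr).2]
    exact hcw r hr
  obtain ⟨m, hm⟩ : ∃ m : ℕ, (x ^ (p ^ a)) ^ m = x :=
    exists_pow_eq_self_of_coprime
      (Nat.Coprime.pow_left _ ((Nat.Prime.coprime_iff_not_dvd hp).mpr hx))
  have hmem : x ^ (p ^ a) ∈ Subgroup.centralizer (R' : Set G) := by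
    rw [Subgroup.mem_centralizer_iff]
    intro r hr
    have h := hcx r hr
    calc r * x ^ (p ^ a) = (x ^ (p ^ a) * r * (x ^ (p ^ a))⁻¹) * x ^ (p ^ a) := by rw [h]
      _ = x ^ (p ^ a) * r := by group
  have hmem2 : x ∈ Subgroup.centralizer (R' : Set G) := by
    have h := pow_mem hmem m
    rwa [hm] at h
  intro r hr
  have h := (Subgroup.mem_centralizer_iff.mp hmem2) r hr
  calc x * r * x⁻¹ = r * x * x⁻¹ := by rw [h]
    _ = r := by group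

end Cfsg.Agent.Helper11.S4692p
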