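import Mathlib
import Cfsg.Prelude.Def_GeometricClasses
import Cfsg.Agent.Helper6.PSL3Inv

set_option autoImplicit false
open scoped MatrixGroups

namespace Cfsg.Agent.Helper11.S5998p5

theorem p5 {F : Type*} [Field F] (h2 : (2 : F) ≠ 0) (x : GL (Fin 3) F) (hdet : (x : Matrix (Fin 3) (Fin 3) F).det = 1) (z : F)
    (hx2 : ((x ^ 2 : GL (Fin 3) F) : Matrix (Fin 3) (Fin 3) F) = z • (1 : Matrix (Fin 3) (Fin 3) F))
    (hns : ∀ z : F, (x : Matrix (Fin 3) (Fin 3) F) ≠ z • (1 : Matrix (Fin 3) (Fin 3) F)) :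
    ∃ (k : GL (Fin 3) F) (c : F), (x : Matrix (Fin 3) (Fin 3) F) * (k : Matrix (Fin 3) (Fin 3) F) = c • ((k : Matrix (Fin 3) (Fin 3) F) * !![-1,0,0; 0,0,-1; 0,-1,0]) := by
  classical
  obtain ⟨X, hX⟩ : ∃ X : Matrix (Fin 3) (Fin 3) F, X = (x : Matrix (Fin 3) (Fin 3) F) := ⟨_, rfl⟩
  have hXX : X * X = z • (1 : Matrix (Fin 3) (Fin 3) F) := by
    rw [hX, ← hx2]; simp [pow_two]
  have hdX : X.det = 1 := by rw [hX]; exact hdet
  have hz3 : z ^ 3 = 1 := by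
    have h := congrArg Matrix.det hXX
    rw [Matrix.det_mul, hdX, Matrix.det_smul, Matrix.det_one, Fintype.card_fin] at h
    simpa using h.symm
  have hz0 : z ≠ 0 := by
    rintro rfl
    simp at hz3
  obtain ⟨ζ, hζ⟩ : ∃ ζ : F, ζ = z ^ 2 := ⟨_, rfl⟩
  have hζ0 : ζ ≠ 0 := by rw [hζ]; exact pow_ne_zero _ hz0
  have hζ2 : ζ ^ 2 = z := by
    rw [hζ]
    calc (z ^ 2) ^ 2 = z ^ 3 * z := by ring
      _ = z := by rw [hz3, one_mul]
  have hζ3 : ζ ^ 3 = 1 := by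
    rw [hζ]
    calc (z ^ 2) ^ 3 = (z ^ 3) ^ 2 := by ring
      _ = 1 := by rw [hz3, one_pow]
  obtain ⟨M, hM⟩ : ∃ M : Matrix (Fin 3) (Fin 3) F, M = ζ⁻¹ • X := ⟨_, rfl⟩
  have hXM : X = ζ • M := by rw [hM, smul_smul, mul_inv_cancel₀ hζ0, one_smul]
  have hM2 : M * M = 1 := by
    rw [hM, Matrix.smul_mul, Matrix.mul_smul, hXX, smul_smul, smul_smul]
    have : ζ⁻¹ * ζ⁻¹ * z = 1 := by
      rw [← hζ2]; field_simp
    rw [this, one_smul]
  have hMdet : M.det = 1 := by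
    rw [hM, Matrix.det_smul, hdX, Fintype.card_fin, mul_one, inv_pow, hζ3, inv_one]
  have hM1 : M ≠ 1 := by
    intro h
    apply hns ζ
    rw [← hX, hXM, h]
  obtain ⟨G, hG1, hG2⟩ := Cfsg.Agent.Helper6.PSL3Inv.exists_diag h2 M hM2 hMdet hM1
  obtain ⟨C, hC⟩ : ∃ C : Matrix (Fin 3) (Fin 3) F, C = !![1,0,0; 0,1,1; 0,1,-1] := ⟨_, rfl⟩
  have hCdet : C.det = -2 := by
    rw [hC, Matrix.det_fin_three]
    simp
    try ring
  have hDC : Matrix.diagonal (Cfsg.Agent.Helper6.PSL3Inv.dvec F) * C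
      = C * !![-1,0,0; 0,0,-1; 0,-1,0] := by
    rw [hC]
    ext i j
    fin_cases i <;> fin_cases j <;>
      simp [Matrix.mul_apply, Fin.sum_univ_three, Matrix.diagonal, Cfsg.Agent.Helper6.PSL3Inv.dvec]
  have hKdet : (G * C).det ≠ 0 := by
    rw [Matrix.det_mul, hG1, hCdet, one_mul]
    exact neg_ne_zero.mpr h2
  have hmain : M * (G * C) = G * C * !![-1,0,0; 0,0,-1; 0,-1,0] := by
    rw [← Matrix.mul_assoc, hG2, Matrix.mul_assoc, hDC, ← Matrix.mul_assoc]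
  refine ⟨Matrix.GeneralLinearGroup.mkOfDetNeZero (G * C) hKdet, ζ, ?_⟩
  have hk : ((Matrix.GeneralLinearGroup.mkOfDetNeZero (G * C) hKdet : GL (Fin 3) F) :
      Matrix (Fin 3) (Fin 3) F) = G * C := rfl
  rw [hk, ← hX, hXM, Matrix.smul_mul, hmain]

end Cfsg.Agent.Helper11.S5998p5
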