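import Cfsg.Prelude.Def_KGroupFacts
import Mathlib.GroupTheory.FiniteAbelian.Duality
import Mathlib.RingTheory.RootsOfUnity.AlgebraicallyClosed
import Mathlib.Analysis.Complex.Polynomial.Basic
import Mathlib.LinearAlgebra.Matrix.GeneralLinearGroup.Basic
import Mathlib.GroupTheory.QuotientGroup.Basic

set_option autoImplicit false
universe u v w
open scoped commutatorElement

namespace Cfsg.Agent.Helper11

theorem sc_chi_one {E : Type w} [Group E] (χ : E → ℂˣ)
    (hχmul : ∀ a b, a ∈ Subgroup.center E → b ∈ Subgroup.center E → χ (a * b) = χ a * χ b) :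
    χ 1 = 1 := by
  have h := hχmul 1 1 (one_mem _) (one_mem _)
  rw [mul_one] at h
  have h2 : χ 1 * χ 1 = χ 1 * 1 := by rw [mul_one]; exact h.symm
  exact mul_left_cancel h2

theorem sc_exists_chi {E : Type w} [Group E] [Finite E] (n₀ : E) (hz : n₀ ∈ Subgroup.center E)
    (hne : n₀ ≠ 1) : ∃ χ : E → ℂˣ,
      (∀ a b, a ∈ Subgroup.center E → b ∈ Subgroup.center E → χ (a * b) = χ a * χ b) ∧
        χ n₀ ≠ 1 := by
  classical
  letI : CommGroup (Subgroup.center E) :=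
    { (Subgroup.center E).toGroup with
      mul_comm := fun a b => Subtype.ext ((Subgroup.mem_center_iff.mp b.2) a.1) }
  obtain ⟨φ, hφ⟩ := CommGroup.exists_apply_ne_one_of_hasEnoughRootsOfUnity (Subgroup.center E) ℂ
    (a := ⟨n₀, hz⟩) (fun h => hne (congrArg Subtype.val h))
  refine ⟨fun e => if h : e ∈ Subgroup.center E then φ ⟨e, h⟩ else 1, ?_, ?_⟩
  · intro a b ha hb
    simp only [dif_pos ha, dif_pos hb, dif_pos (mul_mem ha hb)]
    exact map_mul φ ⟨a, ha⟩ ⟨b, hb⟩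
  · simp only [dif_pos hz]
    exact hφ

theorem sc_eq_on_comm {H : Type*} {K : Type*} [Group H] [Group K] (f g : H →* K)
    (hfg : ∀ x, f x * (g x)⁻¹ ∈ Subgroup.center K) : ∀ x, x ∈ commutator H → f x = g x := by
  let z : H →* Subgroup.center K := MonoidHom.mk' (fun x => ⟨f x * (g x)⁻¹, hfg x⟩) (by
    intro x y
    apply Subtype.ext
    show f (x * y) * (g (x * y))⁻¹ = (f x * (g x)⁻¹) * (f y * (g y)⁻¹)
    have hc : (f y * (g y)⁻¹) * (g x)⁻¹ = (g x)⁻¹ * (f y * (g y)⁻¹) :=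
      ((Subgroup.mem_center_iff.mp (hfg y)) ((g x)⁻¹)).symm
    rw [map_mul, map_mul, mul_inv_rev]
    calc f x * f y * ((g y)⁻¹ * (g x)⁻¹) = f x * ((f y * (g y)⁻¹) * (g x)⁻¹) := by group
      _ = f x * ((g x)⁻¹ * (f y * (g y)⁻¹)) := by rw [hc]
      _ = _ := by group)
  have h1 : commutator H ≤ z.ker := by
    rw [commutator_eq_closure, Subgroup.closure_le]
    rintro _ ⟨a, b, rfl⟩
    rw [SetLike.mem_coe, MonoidHom.mem_ker, map_commutatorElement, commutatorElement_def]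
    have hcomm : z a * z b = z b * z a := by
      apply Subtype.ext
      exact ((Subgroup.mem_center_iff.mp (z b).2) (z a).1)
    rw [hcomm]; group
  intro x hx
  have h2 := congrArg Subtype.val (MonoidHom.mem_ker.mp (h1 hx))
  have h3 : f x * (g x)⁻¹ = 1 := h2
  exact mul_inv_eq_one.mp h3

theorem sc_exists_gamma {Q : Type*} [Group Q] {Δ : Type*} [Group Δ] (τ : Δ →* Q)
    (hτs : Function.Surjective τ) {G : Type*} [Group G] (N : Subgroup G) [N.Normal]
    (M : Δ →* G) (hM : ∀ t, t ∈ τ.ker → M t ∈ N) :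
    ∃ γ : Q →* G ⧸ N, ∀ δ, γ (τ δ) = QuotientGroup.mk (M δ) := by
  have hker : τ.ker ≤ ((QuotientGroup.mk' N).comp M).ker := by
    intro t ht
    rw [MonoidHom.mem_ker]
    exact (QuotientGroup.eq_one_iff _).mpr (hM t ht)
  exact ⟨τ.liftOfRightInverse (Function.surjInv hτs) (Function.rightInverse_surjInv hτs)
      ⟨(QuotientGroup.mk' N).comp M, hker⟩,
    fun δ => MonoidHom.liftOfRightInverse_comp_apply τ _ _ _ δ⟩

theorem sc_exists_rep {Q : Type u} [Group Q] [Finite Q] {Δ : Type w} [Group Δ] [Finite Δ]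
    (τ : Δ →* Q) (hτs : Function.Surjective τ) (hτc : τ.ker ≤ Subgroup.center Δ)
    (t₀ : Δ) (ht₀ : t₀ ∈ τ.ker) (hne : t₀ ≠ 1) :
    ∃ (n : ℕ) (M : Δ →* GL (Fin n) ℂ),
      (∀ t, t ∈ τ.ker → M t ∈ Subgroup.center (GL (Fin n) ℂ)) ∧ M t₀ ≠ 1 := by
  obtain ⟨χ, hχmul, hχt₀⟩ := sc_exists_chi t₀ (hτc ht₀) hne
  have hχ1 : χ 1 = 1 := sc_chi_one χ hχmul
  obtain ⟨n, ⟨e⟩⟩ : ∃ n, Nonempty (Q ≃ Fin n) := ⟨_, ⟨Finite.equivFin Q⟩⟩
  let s : Fin n → Δ := fun i => Function.surjInv hτs (e.symm i)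
  have hs : ∀ i, τ (s i) = e.symm i := fun i => Function.surjInv_eq hτs (e.symm i)
  let act : Δ → Fin n → Fin n := fun δ i => e (e.symm i * τ δ)
  let c : Fin n → Δ → Δ := fun i δ => s i * δ * (s (act δ i))⁻¹
  have hact : ∀ δ δ' i, act (δ * δ') i = act δ' (act δ i) := by
    intro δ δ' i
    show e (e.symm i * τ (δ * δ')) = e (e.symm (e (e.symm i * τ δ)) * τ δ')
    rw [e.symm_apply_apply, τ.map_mul, mul_assoc]
  have hact1 : ∀ t, t ∈ τ.ker → ∀ i, act t i = i := by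
    intro t ht i
    show e (e.symm i * τ t) = i
    rw [MonoidHom.mem_ker.mp ht, mul_one, e.apply_symm_apply]
  have hc : ∀ i δ, c i δ ∈ τ.ker := by
    intro i δ
    rw [MonoidHom.mem_ker]
    show τ (s i * δ * (s (act δ i))⁻¹) = 1
    rw [map_mul, map_mul, map_inv, hs, hs]
    show e.symm i * τ δ * (e.symm (e (e.symm i * τ δ)))⁻¹ = 1
    rw [e.symm_apply_apply, mul_inv_cancel]
  have hcmul : ∀ i δ δ', c i (δ * δ') = c i δ * c (act δ i) δ' := by
    intro i δ δ'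
    show s i * (δ * δ') * (s (act (δ * δ') i))⁻¹ =
      (s i * δ * (s (act δ i))⁻¹) * (s (act δ i) * δ' * (s (act δ' (act δ i)))⁻¹)
    rw [hact]
    group
  have hc1 : ∀ t, t ∈ τ.ker → ∀ i, c i t = t := by
    intro t ht i
    show s i * t * (s (act t i))⁻¹ = t
    rw [hact1 t ht i]
    have h := (Subgroup.mem_center_iff.mp (hτc ht)) (s i)
    rw [h]; group
  let Mf : Δ → Matrix (Fin n) (Fin n) ℂ :=
    fun δ i j => if j = act δ i then (χ (c i δ) : ℂ) else 0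
  have hMT : ∀ t, t ∈ τ.ker → Mf t = (χ t : ℂ) • (1 : Matrix (Fin n) (Fin n) ℂ) := by
    intro t ht
    ext i j
    show (if j = act t i then (χ (c i t) : ℂ) else 0) =
      (χ t : ℂ) • ((1 : Matrix (Fin n) (Fin n) ℂ) i j)
    rw [hact1 t ht i, hc1 t ht i, Matrix.one_apply, smul_eq_mul]
    by_cases hij : i = j
    · rw [if_pos hij, if_pos hij.symm, mul_one]
    · rw [if_neg hij, if_neg (fun h => hij h.symm), mul_zero]
  let M : Δ →* Matrix (Fin n) (Fin n) ℂ :=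
    { toFun := Mf
      map_one' := by
        rw [hMT 1 (one_mem _), hχ1, Units.val_one, one_smul]
      map_mul' := by
        intro δ δ'
        ext i k
        rw [Matrix.mul_apply]
        have hsum : ∑ j, Mf δ i j * Mf δ' j k = Mf δ i (act δ i) * Mf δ' (act δ i) k := by
          apply Finset.sum_eq_single (act δ i)
          · intro j _ hj
            have h0 : Mf δ i j = 0 := if_neg hj
            rw [h0, zero_mul]
          · intro h; exact absurd (Finset.mem_univ _) h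
        rw [hsum]
        show (if k = act (δ * δ') i then (χ (c i (δ * δ')) : ℂ) else 0) =
          (if act δ i = act δ i then (χ (c i δ) : ℂ) else 0) *
            (if k = act δ' (act δ i) then (χ (c (act δ i) δ') : ℂ) else 0)
        rw [if_pos (rfl : act δ i = act δ i), hact, hcmul,
          hχmul _ _ (hτc (hc _ _)) (hτc (hc _ _))]
        by_cases hk : k = act δ' (act δ i)
        · rw [if_pos hk, if_pos hk, Units.val_mul]
        · rw [if_neg hk, if_neg hk, mul_zero] }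
  refine ⟨n, M.toHomUnits, ?_, ?_⟩
  · intro t ht
    rw [Subgroup.mem_center_iff]
    intro g
    apply Units.ext
    show (g : Matrix (Fin n) (Fin n) ℂ) * Mf t = Mf t * (g : Matrix (Fin n) (Fin n) ℂ)
    rw [hMT t ht, mul_smul_comm, smul_mul_assoc, mul_one, one_mul]
  · intro h
    have h1 : Mf t₀ = 1 := congrArg Units.val h
    rw [hMT t₀ ht₀] at h1
    have h2 := congrFun (congrFun h1 (e 1)) (e 1)
    rw [Matrix.smul_apply, Matrix.one_apply_eq, smul_eq_mul, mul_one] at h2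
    exact hχt₀ (Units.ext h2)

/-- The fibre product of two homomorphisms into the same group. -/
def sc_fib {Q : Type u} [Group Q] {Γ : Type v} [Group Γ] {Δ : Type w} [Group Δ]
    (σ : Γ →* Q) (τ : Δ →* Q) : Subgroup (Γ × Δ) :=
  (σ.comp (MonoidHom.fst Γ Δ)).eqLocus (τ.comp (MonoidHom.snd Γ Δ))

theorem sc_cover_of_inter {Q : Type u} [Group Q] {Γ : Type v} [Group Γ] {Δ : Type w} [Group Δ]
    (σ : Γ →* Q) (hσ : Cfsg.IsStemExtension σ) (τ : Δ →* Q) (hτ : Cfsg.IsStemExtension τ)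
    (hX : ∀ n : sc_fib σ τ, n.1.1 = 1 → n ∈ commutator (sc_fib σ τ) → n = 1) :
    ∃ π : σ.ker →* τ.ker, Function.Surjective π := by
  obtain ⟨hσs, hσc, hσd⟩ := hσ
  obtain ⟨hτs, hτc, hτd⟩ := hτ
  have hPmem : ∀ y, y ∈ sc_fib σ τ ↔ σ y.1 = τ y.2 := fun _ => Iff.rfl
  generalize sc_fib σ τ = P at hX hPmem
  obtain ⟨p1, hp1⟩ : ∃ p1 : P →* Γ, ∀ q, p1 q = q.1.1 :=
    ⟨(MonoidHom.fst Γ Δ).comp P.subtype, fun _ => rfl⟩
  obtain ⟨p2, hp2⟩ : ∃ p2 : P →* Δ, ∀ q, p2 q = q.1.2 :=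
    ⟨(MonoidHom.snd Γ Δ).comp P.subtype, fun _ => rfl⟩
  have hP : ∀ q : P, σ (p1 q) = τ (p2 q) := by
    intro q; rw [hp1, hp2]; exact (hPmem q.1).mp q.2
  have hp1s : Function.Surjective p1 := by
    intro g
    obtain ⟨x, hx⟩ := hτs (σ g)
    exact ⟨⟨(g, x), (hPmem _).mpr hx.symm⟩, by rw [hp1]⟩
  have hp2s : Function.Surjective p2 := by
    intro d
    obtain ⟨x, hx⟩ := hσs (τ d)
    exact ⟨⟨(x, d), (hPmem _).mpr hx⟩, by rw [hp2]⟩
  have hc1 : ∀ a, a ∈ commutator Γ → ∃ r, r ∈ commutator P ∧ p1 r = a := by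
    intro a ha
    have h1 : a ∈ Subgroup.map p1 (commutator P) := by
      rw [commutator_def, Subgroup.map_commutator, Subgroup.map_top_of_surjective p1 hp1s,
        ← commutator_def]
      exact ha
    obtain ⟨r, hr, hra⟩ := h1
    exact ⟨r, hr, hra⟩
  have hc2 : ∀ t, t ∈ commutator Δ → ∃ r, r ∈ commutator P ∧ p2 r = t := by
    intro a ha
    have h1 : a ∈ Subgroup.map p2 (commutator P) := by
      rw [commutator_def, Subgroup.map_commutator, Subgroup.map_top_of_surjective p2 hp2s,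
        ← commutator_def]
      exact ha
    obtain ⟨r, hr, hra⟩ := h1
    exact ⟨r, hr, hra⟩
  have huniq : ∀ r r', r ∈ commutator P → r' ∈ commutator P → p1 r = p1 r' → r = r' := by
    intro r r' hr hr' h
    have h1 : r⁻¹ * r' = 1 := by
      apply hX
      · rw [← hp1, map_mul, map_inv, h, inv_mul_cancel]
      · exact mul_mem (inv_mem hr) hr'
    exact inv_mul_eq_one.mp h1
  have hsel : ∀ a : σ.ker, ∃ r, r ∈ commutator P ∧ p1 r = a.1 := fun a => hc1 a.1 (hσd a.2)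
  let ρ : σ.ker → P := fun a => (hsel a).choose
  have hρ : ∀ a : σ.ker, ρ a ∈ commutator P ∧ p1 (ρ a) = a.1 := fun a => (hsel a).choose_spec
  have hρmul : ∀ a b : σ.ker, ρ (a * b) = ρ a * ρ b := by
    intro a b
    have e1 : p1 (ρ (a * b)) = a.1 * b.1 := (hρ (a * b)).2
    have e2 : p1 (ρ a * ρ b) = a.1 * b.1 := by rw [map_mul, (hρ a).2, (hρ b).2]
    exact huniq _ _ (hρ _).1 (mul_mem (hρ a).1 (hρ b).1) (e1.trans e2.symm)
  have hρker : ∀ a : σ.ker, p2 (ρ a) ∈ τ.ker := by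
    intro a
    rw [MonoidHom.mem_ker, ← hP, (hρ a).2]
    exact MonoidHom.mem_ker.mp a.2
  refine ⟨MonoidHom.mk' (fun a => ⟨p2 (ρ a), hρker a⟩) ?_, ?_⟩
  · intro a b
    apply Subtype.ext
    show p2 (ρ (a * b)) = p2 (ρ a) * p2 (ρ b)
    rw [hρmul, map_mul]
  · intro t
    obtain ⟨r, hr, hrt⟩ := hc2 t.1 (hτd t.2)
    have ha : p1 r ∈ σ.ker := by
      rw [MonoidHom.mem_ker, hP, hrt]
      exact MonoidHom.mem_ker.mp t.2
    refine ⟨⟨p1 r, ha⟩, ?_⟩
    apply Subtype.ext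
    show p2 (ρ ⟨p1 r, ha⟩) = t.1
    have h1 : ρ ⟨p1 r, ha⟩ = r := huniq _ _ (hρ _).1 hr (hρ ⟨p1 r, ha⟩).2
    rw [h1, hrt]

end Cfsg.Agent.Helper11
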